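/-
The pointwise stabiliser of five points; orbits of a triad stabiliser on disjoint triads.
-/
import Cfsg.Agent.Lib.M24Orb.Subsets
import Cfsg.Agent.Lib.GolayOct.Sextet

set_option autoImplicit false

namespace Cfsg.Agent.Lib.M24Orb.Triads

open Cfsg Cfsg.Agent.Lib.Golay.Core Cfsg.Agent.Lib.Golay.Perm Cfsg.Agent.Lib.Golay.Chain
  Cfsg.Agent.Lib.Golay.M24 Cfsg.Agent.Lib.Golay.Basic Cfsg.Agent.Lib.Golay.Stab
  Cfsg.Agent.Lib.M24Orb.Subsets
open scoped Pointwise

theorem triple_eq {α : Type*} [DecidableEq α] (x y z : α) :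
    ({x, y, z} : Finset α) = {x, y} ∪ {z} := by
  ext w
  simp only [Finset.mem_union, Finset.mem_insert, Finset.mem_singleton]
  tauto

theorem cover_T5 : ∀ j < 24, O0.testBit j = true → j ∉ [3, 2, 1, 0, 23] →
    j ∈ T5.map (fun P => img P 5) := by decide +kernel

theorem cover_T6 : ∀ j < 24, O0.testBit j ≠ true → j ∈ T6.map (fun P => img P 4) := by
  decide +kernel

/-- Base case of the transitivity of the stabiliser of five points. -/
theorem exists_base {a b : GolayPt}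
    (hab : (a ∈ setOf O0 ∧ idx a ∉ [3, 2, 1, 0, 23] ∧ b ∈ setOf O0 ∧ idx b ∉ [3, 2, 1, 0, 23]) ∨
      (a ∉ setOf O0 ∧ b ∉ setOf O0)) :
    ∃ ρ ∈ M24, (∀ x ∈ [3, 2, 1, 0, 23], ρ (pt x) = pt x) ∧ ρ a = b := by
  have hpt : ∀ (P : ℕ) (x : ℕ), checkAut P = true → x < 24 → img P x = x → g P (pt x) = pt x := by
    intro P x hP hx h
    rw [g_pt (checkAut_valid hP) hx, h]
  have hlt : ∀ x ∈ [3, 2, 1, 0, 23], x < 24 := by decide
  have main : ∀ {T : List ℕ} {c : ℕ} {F : List ℕ}, c < 24 → (∀ x ∈ [3, 2, 1, 0, 23], x ∈ F) →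
      (∀ P ∈ T, checkAut P = true ∧ ∀ x ∈ F, img P x = x) →
      idx a ∈ T.map (fun P => img P c) → idx b ∈ T.map (fun P => img P c) →
      ∃ ρ ∈ M24, (∀ x ∈ [3, 2, 1, 0, 23], ρ (pt x) = pt x) ∧ ρ a = b := by
    intro T c F hc hF hT ha hb
    obtain ⟨P, hP, hPa⟩ := List.mem_map.mp ha
    obtain ⟨Q, hQ, hQb⟩ := List.mem_map.mp hb
    have hP' := hT P hP
    have hQ' := hT Q hQ
    refine ⟨g Q * (g P)⁻¹, M24.mul_mem (g_mem_M24 hQ'.1) (M24.inv_mem (g_mem_M24 hP'.1)), ?_, ?_⟩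
    · intro x hx
      rw [Equiv.Perm.mul_apply]
      have h1 : (g P)⁻¹ (pt x) = pt x := by
        rw [Equiv.Perm.inv_eq_iff_eq]
        exact (hpt P x hP'.1 (hlt x hx) (hP'.2 x (hF x hx))).symm
      rw [h1, hpt Q x hQ'.1 (hlt x hx) (hQ'.2 x (hF x hx))]
    · rw [Equiv.Perm.mul_apply]
      have h1 : (g P)⁻¹ a = pt c := by
        rw [Equiv.Perm.inv_eq_iff_eq, g_pt (checkAut_valid hP'.1) hc, hPa, pt_idx]
      rw [h1, g_pt (checkAut_valid hQ'.1) hc, hQb, pt_idx]
  rcases hab with ⟨ha, ha', hb, hb'⟩ | ⟨ha, hb⟩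
  · exact main (T := T5) (F := [3, 2, 1, 0, 23]) (c := 5) (by norm_num) (fun x hx => hx)
      (tableOK_spec tableOK5) (cover_T5 _ (idx_lt a) (mem_setOf.mp ha) ha')
      (cover_T5 _ (idx_lt b) (mem_setOf.mp hb) hb')
  · exact main (T := T6) (F := [5, 3, 2, 1, 0, 23]) (c := 4) (by norm_num)
      (fun x hx => List.mem_cons_of_mem _ hx)
      (tableOK_spec tableOK6) (cover_T6 _ (idx_lt a) (fun h => ha (mem_setOf.mpr h)))
      (cover_T6 _ (idx_lt b) (fun h => hb (mem_setOf.mpr h)))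

/-- The base points, as a set. -/
theorem base_list : ∀ x ∈ [3, 2, 1, 0, 23], ∃ i : Fin 5, baseF i = x := by decide

theorem base_list' : ∀ i : Fin 5, baseF i ∈ [3, 2, 1, 0, 23] := by decide

/-- **Orbits of the pointwise stabiliser of five points.** -/
theorem exists_fix_five {F O : Finset GolayPt} (hF : F.card = 5) (hO : O ∈ octads) (hFO : F ⊆ O)
    {a b : GolayPt} (hab : (a ∈ O ∧ a ∉ F ∧ b ∈ O ∧ b ∉ F) ∨ (a ∉ O ∧ b ∉ O)) :
    ∃ ρ ∈ M24, (∀ x ∈ F, ρ x = x) ∧ ρ a = b := by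
  let e := F.equivFinOfCardEq hF
  let y : Fin 5 ↪ GolayPt := ⟨fun i => (e.symm i : GolayPt), fun i j h =>
    e.symm.injective (Subtype.ext h)⟩
  have hyF : ∀ i, y i ∈ F := fun i => (e.symm i).2
  have hFy : ∀ x ∈ F, ∃ i, y i = x := fun x hx => ⟨e ⟨x, hx⟩, by
    show ((e.symm (e ⟨x, hx⟩)) : GolayPt) = x
    simp⟩
  obtain ⟨τ, hτ, hτy⟩ := exists_map_five y
  have hbase : ∀ x ∈ [3, 2, 1, 0, 23], τ (pt x) ∈ F := by
    intro x hx
    obtain ⟨i, rfl⟩ := base_list x hx
    rw [hτy i]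
    exact hyF i
  have hbaseO0 : ∀ i : Fin 5, pt (baseF i) ∈ setOf O0 := by decide +kernel
  have hO0 : τ • setOf O0 = O := by
    apply two_octads_eq (smul_mem_octads hτ O0_mem) hO
    rw [← hF]
    apply Finset.card_le_card
    intro x hx
    obtain ⟨i, rfl⟩ := hFy x hx
    refine Finset.mem_inter.mpr ⟨?_, hFO (hyF i)⟩
    rw [← hτy i]
    exact Finset.smul_mem_smul_finset (hbaseO0 i)
  have hmem : ∀ p : GolayPt, τ p ∈ O ↔ p ∈ setOf O0 := by
    intro p
    rw [← hO0]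
    exact Finset.smul_mem_smul_finset_iff τ
  have hidx : ∀ p : GolayPt, τ p ∉ F → idx p ∉ [3, 2, 1, 0, 23] := by
    intro p hp hi
    apply hp
    have := hbase _ hi
    rwa [pt_idx] at this
  have hfx : ∀ x ∈ F, ∃ c ∈ [3, 2, 1, 0, 23], τ (pt c) = x := by
    intro x hx
    obtain ⟨i, rfl⟩ := hFy x hx
    exact ⟨baseF i, base_list' i, hτy i⟩
  have hab0 : (τ⁻¹ a ∈ setOf O0 ∧ idx (τ⁻¹ a) ∉ [3, 2, 1, 0, 23] ∧ τ⁻¹ b ∈ setOf O0 ∧
      idx (τ⁻¹ b) ∉ [3, 2, 1, 0, 23]) ∨ (τ⁻¹ a ∉ setOf O0 ∧ τ⁻¹ b ∉ setOf O0) := by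
    have e1 : ∀ p, τ (τ⁻¹ p) = p := fun p => by simp
    rcases hab with ⟨h1, h2, h3, h4⟩ | ⟨h1, h2⟩
    · left
      refine ⟨(hmem _).mp (by rwa [e1]), hidx _ (by rwa [e1]), (hmem _).mp (by rwa [e1]),
        hidx _ (by rwa [e1])⟩
    · right
      exact ⟨fun h => h1 (by rw [← e1 a]; exact (hmem _).mpr h),
        fun h => h2 (by rw [← e1 b]; exact (hmem _).mpr h)⟩
  obtain ⟨ρ, hρ, hρ1, hρ2⟩ := exists_base hab0
  refine ⟨τ * ρ * τ⁻¹, M24.mul_mem (M24.mul_mem hτ hρ) (M24.inv_mem hτ), ?_, ?_⟩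
  · intro x hx
    obtain ⟨c, hc, rfl⟩ := hfx x hx
    have e : τ⁻¹ (τ (pt c)) = pt c := by simp
    simp only [Equiv.Perm.mul_apply]
    rw [e, hρ1 c hc]
  · simp only [Equiv.Perm.mul_apply]
    rw [hρ2]
    simp

/-- Two triads disjoint from `T`, with the same octad status, are conjugate under the stabiliser. -/
theorem triad_conj {T U U' : Finset GolayPt} (hT : T.card = 3) (hU : U.card = 3) (hU' : U'.card = 3)
    (hd : Disjoint T U) (hd' : Disjoint T U')
    (hiff : (∃ o ∈ octads, T ∪ U ⊆ o) ↔ (∃ o ∈ octads, T ∪ U' ⊆ o)) :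
    ∃ g : Equiv.Perm GolayPt, g ∈ M24 ∧ g • T = T ∧ g • U = U' := by
  classical
  obtain ⟨x, y, z, hxy, hxz, hyz, rfl⟩ := Finset.card_eq_three.mp hU
  obtain ⟨x', y', z', hxy', hxz', hyz', rfl⟩ := Finset.card_eq_three.mp hU'
  have hdis : ∀ {a b c : GolayPt}, Disjoint T ({a, b, c} : Finset GolayPt) →
      a ∉ T ∧ b ∉ T ∧ c ∉ T := by
    intro a b c h
    refine ⟨fun ha => Finset.disjoint_left.mp h ha (by simp),
      fun ha => Finset.disjoint_left.mp h ha (by simp),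
      fun ha => Finset.disjoint_left.mp h ha (by simp)⟩
  obtain ⟨hxT, hyT, hzT⟩ := hdis hd
  obtain ⟨hxT', hyT', hzT'⟩ := hdis hd'
  -- move `T` and the first two points
  have hBd : Disjoint T ({x, y} : Finset GolayPt) := by
    rw [Finset.disjoint_left]
    intro a ha hb
    simp only [Finset.mem_insert, Finset.mem_singleton] at hb
    rcases hb with rfl | rfl <;> contradiction
  have hBd' : Disjoint T ({x', y'} : Finset GolayPt) := by
    rw [Finset.disjoint_left]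
    intro a ha hb
    simp only [Finset.mem_insert, Finset.mem_singleton] at hb
    rcases hb with rfl | rfl <;> contradiction
  have hc2 : ({x, y} : Finset GolayPt).card = 2 := Finset.card_pair hxy
  have hc2' : ({x', y'} : Finset GolayPt).card = 2 := Finset.card_pair hxy'
  obtain ⟨σ, hσ, h1, h2, -⟩ := exists_smul_three (A := T) (B := {x, y}) (C := ∅) (A' := T)
    (B' := {x', y'}) (C' := ∅) hBd (Finset.disjoint_empty_right _) (Finset.disjoint_empty_right _)
    hBd' (Finset.disjoint_empty_right _) (Finset.disjoint_empty_right _) rfl (by rw [hc2, hc2'])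
    rfl (by rw [hT, hc2]; norm_num)
  -- the five points
  set F : Finset GolayPt := T ∪ {x', y'} with hFdef
  have hFc : F.card = 5 := by
    rw [hFdef, Finset.card_union_of_disjoint hBd', hT, hc2']
  obtain ⟨O, ⟨hO, hFO⟩, -⟩ := octads_steiner.2 F hFc
  -- where `z` goes
  have hσz : σ z ∉ F := by
    intro hz
    rw [hFdef, ← h2, Finset.mem_union] at hz
    rcases hz with hz | hz
    · rw [← h1] at hz
      have := (Finset.smul_mem_smul_finset_iff σ).mp hz
      exact hzT this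
    · have := (Finset.smul_mem_smul_finset_iff σ).mp hz
      simp only [Finset.mem_insert, Finset.mem_singleton] at this
      rcases this with h | h
      · exact hxz h.symm
      · exact hyz h.symm
  have hz'F : z' ∉ F := by
    rw [hFdef, Finset.mem_union, not_or]
    refine ⟨hzT', ?_⟩
    simp only [Finset.mem_insert, Finset.mem_singleton, not_or]
    exact ⟨Ne.symm hxz', Ne.symm hyz'⟩
  have hsplitU : ∀ {a b c : GolayPt}, T ∪ ({a, b, c} : Finset GolayPt) = (T ∪ {a, b}) ∪ {c} := by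
    intro a b c
    rw [triple_eq a b c, Finset.union_assoc]
  -- the status of `z`
  have hstat : (σ z ∈ O ∧ z' ∈ O) ∨ (σ z ∉ O ∧ z' ∉ O) := by
    have hOuniq : ∀ o ∈ octads, F ⊆ o → o = O := by
      intro o ho hFo
      apply two_octads_eq ho hO
      rw [← hFc]
      exact Finset.card_le_card (Finset.subset_inter hFo hFO)
    have hA : σ z ∈ O ↔ ∃ o ∈ octads, T ∪ {x, y, z} ⊆ o := by
      constructor
      · intro hz
        refine ⟨σ⁻¹ • O, smul_mem_octads (M24.inv_mem hσ) hO, ?_⟩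
        rw [hsplitU, Finset.union_subset_iff, Finset.subset_smul_finset_iff, inv_inv]
        have e : σ • (T ∪ {x, y}) = F := by rw [smul_union', h1, h2]
        rw [e]
        refine ⟨hFO, ?_⟩
        rw [Finset.singleton_subset_iff, Finset.mem_smul_finset]
        exact ⟨σ z, hz, by simp⟩
      · rintro ⟨o, ho, hsub⟩
        rw [hsplitU, Finset.union_subset_iff] at hsub
        have h3 : σ • o = O := by
          apply hOuniq _ (smul_mem_octads hσ ho)
          rw [hFdef, ← h1, ← h2, ← smul_union']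
          exact Finset.smul_finset_subset_smul_finset hsub.1
        rw [← h3]
        exact Finset.smul_mem_smul_finset (hsub.2 (by simp))
    have hB : z' ∈ O ↔ ∃ o ∈ octads, T ∪ {x', y', z'} ⊆ o := by
      constructor
      · intro hz
        refine ⟨O, hO, ?_⟩
        rw [hsplitU, Finset.union_subset_iff]
        exact ⟨hFO, by simpa using hz⟩
      · rintro ⟨o, ho, hsub⟩
        rw [hsplitU, Finset.union_subset_iff] at hsub
        rw [← hOuniq o ho hsub.1]
        exact hsub.2 (by simp)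
    by_cases hc : σ z ∈ O
    · left
      exact ⟨hc, hB.mpr (hiff.mp (hA.mp hc))⟩
    · right
      exact ⟨hc, fun h => hc (hA.mpr (hiff.mpr (hB.mp h)))⟩
  have hab : (σ z ∈ O ∧ σ z ∉ F ∧ z' ∈ O ∧ z' ∉ F) ∨ (σ z ∉ O ∧ z' ∉ O) := by
    rcases hstat with ⟨h3, h4⟩ | h3
    · exact Or.inl ⟨h3, hσz, h4, hz'F⟩
    · exact Or.inr h3
  obtain ⟨ρ, hρ, hρF, hρz⟩ := exists_fix_five hFc hO hFO hab
  refine ⟨ρ * σ, M24.mul_mem hρ hσ, ?_, ?_⟩
  · rw [mul_smul, h1]
    ext w
    rw [Finset.mem_smul_finset]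
    constructor
    · rintro ⟨v, hv, rfl⟩
      rw [Equiv.Perm.smul_def, hρF v (Finset.mem_union_left _ hv)]
      exact hv
    · intro hw
      exact ⟨w, hw, hρF w (Finset.mem_union_left _ hw)⟩
  · have hxy2 : ρ • (σ • ({x, y} : Finset GolayPt)) = {x', y'} := by
      rw [h2]
      ext w
      rw [Finset.mem_smul_finset]
      constructor
      · rintro ⟨v, hv, rfl⟩
        rw [Equiv.Perm.smul_def, hρF v (Finset.mem_union_right _ hv)]
        exact hv
      · intro hw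
        exact ⟨w, hw, hρF w (Finset.mem_union_right _ hw)⟩
    have hs : ({x, y, z} : Finset GolayPt) = {x, y} ∪ {z} := triple_eq x y z
    have hs' : ({x', y', z'} : Finset GolayPt) = {x', y'} ∪ {z'} := triple_eq x' y' z'
    rw [hs, hs', mul_smul, smul_union', smul_union', hxy2]
    congr 1
    rw [Finset.smul_finset_singleton, Finset.smul_finset_singleton]
    simp only [Equiv.Perm.smul_def, hρz]

end Cfsg.Agent.Lib.M24Orb.Triads
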