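/-
The stabiliser of an octad: the action on the octad is the alternating group; the pointwise
stabiliser acts regularly on the complement.
-/
import Cfsg.Agent.Lib.M24Orb.Triads

set_option autoImplicit false

namespace Cfsg.Agent.Lib.M24Orb.OctadStab

open Cfsg Cfsg.Agent.Lib.Golay.Core Cfsg.Agent.Lib.Golay.Perm Cfsg.Agent.Lib.Golay.Chain
  Cfsg.Agent.Lib.Golay.M24 Cfsg.Agent.Lib.Golay.Basic Cfsg.Agent.Lib.Golay.Stab
  Cfsg.Agent.Lib.M24Orb.Subsets Cfsg.Agent.Lib.M24Orb.Triads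
open scoped Pointwise

/-- The stabiliser of a set in the group, as a subgroup of the symmetric group. -/
abbrev StabO (o : Finset GolayPt) : Subgroup (Equiv.Perm GolayPt) :=
  M24 ⊓ MulAction.stabilizer (Equiv.Perm GolayPt) o

/-- The pointwise stabiliser. -/
abbrev FixO (o : Finset GolayPt) : Subgroup (Equiv.Perm GolayPt) :=
  M24 ⊓ fixingSubgroup (Equiv.Perm GolayPt) (o : Set GolayPt)

variable {o : Finset GolayPt}

theorem orbit_octad (ho : o ∈ octads) : MulAction.orbit M24 o = octads := by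
  ext t
  constructor
  · rintro ⟨g, rfl⟩
    exact smul_mem_octads g.2 ho
  · intro ht
    obtain ⟨σ, hσ, h⟩ := octad_transitive ho ht
    exact ⟨⟨σ, hσ⟩, h⟩

theorem card_stab_eq (o : Finset GolayPt) :
    Nat.card (MulAction.stabilizer M24 o) = Nat.card (StabO o) :=
  Nat.card_congr (mapEquiv M24 _ _ (by
    intro x
    constructor
    · rintro ⟨h1, h2⟩
      exact ⟨h1, h2⟩
    · rintro ⟨h1, h2⟩
      exact ⟨h1, h2⟩)).toEquiv

/-- The stabiliser of an octad has order 322560. -/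
theorem card_StabO (ho : o ∈ octads) : Nat.card (StabO o) = 322560 := by
  have h1 := Subgroup.card_mul_index (MulAction.stabilizer M24 o)
  rw [MulAction.index_stabilizer, orbit_octad ho, ncard_octads, card_M24, card_stab_eq] at h1
  omega

theorem mem_iff_of_smul {g : Equiv.Perm GolayPt} (h : g • o = o) (x : GolayPt) :
    g x ∈ o ↔ x ∈ o := by
  conv_lhs => rw [← h]
  exact Finset.smul_mem_smul_finset_iff g

/-- Restriction to the octad. -/
def restr (o : Finset GolayPt) : StabO o →* Equiv.Perm ↥o :=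
  MonoidHom.mk' (fun g => g.1.subtypePerm (mem_iff_of_smul g.2.2)) (by
    intro a b
    ext x
    rfl)

@[simp] theorem restr_apply (g : StabO o) (x : ↥o) : ((restr o g) x : GolayPt) = g.1 x := rfl

theorem fixO_le_stabO : FixO o ≤ StabO o := by
  rintro g ⟨h1, h2⟩
  refine ⟨h1, MulAction.mem_stabilizer_iff.mpr ?_⟩
  ext x
  rw [Finset.mem_smul_finset]
  constructor
  · rintro ⟨y, hy, rfl⟩
    rwa [(mem_fixingSubgroup_iff _).mp h2 y hy]
  · intro hx
    exact ⟨x, hx, (mem_fixingSubgroup_iff _).mp h2 x hx⟩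

theorem mem_ker_restr (g : StabO o) : g ∈ (restr o).ker ↔ g.1 ∈ FixO o := by
  rw [MonoidHom.mem_ker]
  constructor
  · intro h
    refine ⟨g.2.1, (mem_fixingSubgroup_iff _).mpr ?_⟩
    intro y hy
    have := congrArg (fun e : Equiv.Perm ↥o => (e ⟨y, hy⟩ : GolayPt)) h
    exact this
  · intro h
    refine Equiv.ext fun x => Subtype.ext ?_
    exact (mem_fixingSubgroup_iff _).mp h.2 x.1 x.2

theorem card_range_restr (ho : o ∈ octads) : Nat.card (restr o).range = 20160 := by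
  have h1 : Nat.card (restr o).ker = 16 := by
    rw [← (fix_octad ho).1]
    exact Nat.card_congr (mapEquiv (StabO o) (restr o).ker (FixO o) (by
      intro x
      constructor
      · intro hx
        exact ⟨fixO_le_stabO hx, (mem_ker_restr _).mpr hx⟩
      · rintro ⟨h1, h2⟩
        exact (mem_ker_restr _).mp h2)).toEquiv
  have h2 := Subgroup.card_mul_index (restr o).ker
  rw [Subgroup.index_ker, h1, card_StabO ho] at h2
  omega

theorem perm_three_aux {α : Type*} {a b c : α} (hab : a ≠ b) (hac : a ≠ c) (hbc : b ≠ c)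
    (f : α → α) (hf : Function.Injective f)
    (h1 : f a = b) (h2 : f b = a ∨ f b = b ∨ f b = c) (h3 : f c = a ∨ f c = b ∨ f c = c) :
    (f b = c ∧ f c = a) ∨ (f b = a ∧ f c = c) := by
  have hb : f b ≠ b := fun h => hab (hf (h1.trans h.symm))
  have hc : f c ≠ b := fun h => hac (hf (h1.trans h.symm))
  have hbc' : f b ≠ f c := fun h => hbc (hf h)
  rcases h2 with h2 | h2 | h2
  · rcases h3 with h3 | h3 | h3
    · exact absurd (h2.trans h3.symm) hbc'
    · exact absurd h3 hc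
    · exact Or.inr ⟨h2, h3⟩
  · exact absurd h2 hb
  · rcases h3 with h3 | h3 | h3
    · exact Or.inl ⟨h2, h3⟩
    · exact absurd h3 hc
    · exact absurd (h2.trans h3.symm) hbc'

/-- Every 3-cycle of an octad is induced by the group. -/
theorem exists_three_cycle (ho : o ∈ octads) {a b c : GolayPt} (ha : a ∈ o) (hb : b ∈ o) (hc : c ∈ o)
    (hab : a ≠ b) (hac : a ≠ c) (hbc : b ≠ c) :
    ∃ ρ ∈ M24, ρ • o = o ∧ ρ a = b ∧ ρ b = c ∧ ρ c = a ∧
      ∀ x ∈ o, x ≠ a → x ≠ b → x ≠ c → ρ x = x := by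
  set F : Finset GolayPt := o \ {a, b, c} with hFdef
  have hsub : ({a, b, c} : Finset GolayPt) ⊆ o := by
    intro x hx
    simp only [Finset.mem_insert, Finset.mem_singleton] at hx
    rcases hx with rfl | rfl | rfl <;> assumption
  have hFc : F.card = 5 := by
    rw [hFdef, Finset.card_sdiff_of_subset hsub, ho.2, Finset.card_eq_three.mpr ⟨a, b, c, hab, hac, hbc, rfl⟩]
  have hFo : F ⊆ o := Finset.sdiff_subset
  have hnF : ∀ x, x ∈ o → (x = a ∨ x = b ∨ x = c) ∨ x ∈ F := by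
    intro x hx
    by_cases h : x = a ∨ x = b ∨ x = c
    · exact Or.inl h
    · right
      rw [hFdef, Finset.mem_sdiff]
      refine ⟨hx, ?_⟩
      simpa using h
  have hFn : ∀ x, (x = a ∨ x = b ∨ x = c) → x ∉ F := by
    intro x hx hxF
    rw [hFdef, Finset.mem_sdiff] at hxF
    apply hxF.2
    simpa using hx
  have hmov : ∀ {ρ : Equiv.Perm GolayPt}, ρ ∈ M24 → (∀ x ∈ F, ρ x = x) → ρ • o = o ∧
      ∀ x, (x = a ∨ x = b ∨ x = c) → (ρ x = a ∨ ρ x = b ∨ ρ x = c) := by
    intro ρ hρ hF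
    have h1 : ρ • o = o := smul_octad_eq_of_fix hρ ho F hF hFo (by omega)
    refine ⟨h1, fun x hx => ?_⟩
    have hxo : x ∈ o := hsub (by simpa using hx)
    rcases hnF (ρ x) ((mem_iff_of_smul h1 x).mpr hxo) with h | h
    · exact h
    · exfalso
      have := hF _ h
      have h2 := ρ.injective this
      rw [h2] at h
      exact hFn x hx h
  have hsp : ∀ {u v : GolayPt}, u ∈ o → v ∈ o → (u = a ∨ u = b ∨ u = c) → (v = a ∨ v = b ∨ v = c) →
      ∃ ρ ∈ M24, (∀ x ∈ F, ρ x = x) ∧ ρ u = v := by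
    intro u v hu hv hu' hv'
    exact exists_fix_five hFc ho hFo (Or.inl ⟨hu, hFn u hu', hv, hFn v hv'⟩)
  obtain ⟨ρ₁, h1, hF1, hab1⟩ := hsp ha hb (Or.inl rfl) (Or.inr (Or.inl rfl))
  obtain ⟨ρ₂, h2, hF2, hab2⟩ := hsp hb hc (Or.inr (Or.inl rfl)) (Or.inr (Or.inr rfl))
  obtain ⟨hs1, hm1⟩ := hmov h1 hF1
  obtain ⟨hs2, hm2⟩ := hmov h2 hF2
  have fin : ∀ {ρ : Equiv.Perm GolayPt}, ρ ∈ M24 → (∀ x ∈ F, ρ x = x) → ρ a = b → ρ b = c → ρ c = a →
      ∃ ρ ∈ M24, ρ • o = o ∧ ρ a = b ∧ ρ b = c ∧ ρ c = a ∧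
      ∀ x ∈ o, x ≠ a → x ≠ b → x ≠ c → ρ x = x := by
    intro ρ hρ hF h3 h4 h5
    refine ⟨ρ, hρ, (hmov hρ hF).1, h3, h4, h5, fun x hx hxa hxb hxc => hF x ?_⟩
    rcases hnF x hx with h | h
    · rcases h with h | h | h <;> contradiction
    · exact h
  rcases perm_three_aux hab hac hbc ρ₁ ρ₁.injective hab1 (hm1 b (Or.inr (Or.inl rfl)))
      (hm1 c (Or.inr (Or.inr rfl))) with ⟨h3, h4⟩ | ⟨h3, h4⟩
  · exact fin h1 hF1 hab1 h3 h4
  · rcases perm_three_aux hbc hab.symm hac.symm ρ₂ ρ₂.injective hab2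
      (by have := hm2 c (Or.inr (Or.inr rfl)); tauto)
      (by have := hm2 a (Or.inl rfl); tauto) with ⟨h5, h6⟩ | ⟨h5, h6⟩
    · exact fin h2 hF2 h6 hab2 h5
    · refine fin (M24.mul_mem h1 h2) ?_ ?_ ?_ ?_
      · intro x hx
        rw [Equiv.Perm.mul_apply, hF2 x hx, hF1 x hx]
      · rw [Equiv.Perm.mul_apply, h6, hab1]
      · rw [Equiv.Perm.mul_apply, hab2, h4]
      · rw [Equiv.Perm.mul_apply, h5, h3]

/-- Every three-cycle is in the image of the restriction. -/
theorem threeCycle_mem_range (ho : o ∈ octads) {σ : Equiv.Perm ↥o} (hσ : σ.IsThreeCycle) :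
    σ ∈ (restr o).range := by
  classical
  have hcard : σ.support.card = 3 := hσ.card_support
  obtain ⟨a, ha⟩ : σ.support.Nonempty := by
    rw [← Finset.card_pos, hcard]
    norm_num
  have ho3 : orderOf σ = 3 := hσ.orderOf
  have hpow : σ ^ 3 = 1 := by rw [← ho3]; exact pow_orderOf_eq_one σ
  have hcube : σ (σ (σ a)) = a := by
    have := congrArg (fun e : Equiv.Perm ↥o => e a) hpow
    simpa [pow_succ] using this
  have h1 : σ a ≠ a := Equiv.Perm.mem_support.mp ha
  have h2 : σ (σ a) ≠ σ a := fun h => h1 (σ.injective h)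
  have h3 : σ (σ a) ≠ a := by
    intro h
    rw [h] at hcube
    exact h1 hcube
  have hsupp : σ.support = {a, σ a, σ (σ a)} := by
    symm
    apply Finset.eq_of_subset_of_card_le
    · intro x hx
      simp only [Finset.mem_insert, Finset.mem_singleton] at hx
      rcases hx with rfl | rfl | rfl
      · exact ha
      · exact Equiv.Perm.mem_support.mpr h2
      · rw [Equiv.Perm.mem_support, hcube]
        exact h3.symm
    · rw [hcard, Finset.card_eq_three.mpr ⟨a, σ a, σ (σ a), h1.symm, h3.symm, h2.symm, rfl⟩]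
  obtain ⟨ρ, hρ, hs, hρa, hρb, hρc, hρx⟩ := exists_three_cycle ho a.2 (σ a).2 (σ (σ a)).2
    (fun h => h1 (Subtype.ext h.symm)) (fun h => h3 (Subtype.ext h.symm))
    (fun h => h2 (Subtype.ext h.symm))
  refine ⟨⟨ρ, hρ, hs⟩, ?_⟩
  refine Equiv.ext fun x => Subtype.ext ?_
  rw [restr_apply]
  by_cases hxa : x = a
  · subst hxa
    exact hρa
  by_cases hxb : x = σ a
  · subst hxb
    exact hρb
  by_cases hxc : x = σ (σ a)
  · subst hxc
    rw [hcube]
    exact hρc
  · have hx : x ∉ σ.support := by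
      rw [hsupp]
      simp [hxa, hxb, hxc]
    rw [Equiv.Perm.notMem_support.mp hx]
    exact hρx x.1 x.2 (fun h => hxa (Subtype.ext h)) (fun h => hxb (Subtype.ext h))
      (fun h => hxc (Subtype.ext h))

/-- **The stabiliser of an octad induces the alternating group on it.** -/
theorem range_restr_eq (ho : o ∈ octads) : (restr o).range = alternatingGroup ↥o := by
  have : Nontrivial ↥o := by
    rw [← Fintype.one_lt_card_iff_nontrivial, Fintype.card_coe, ho.2]
    norm_num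
  symm
  apply Subgroup.eq_of_le_of_card_ge
  · rw [← Equiv.Perm.closure_three_cycles_eq_alternating, Subgroup.closure_le]
    intro σ hσ
    exact threeCycle_mem_range ho hσ
  · rw [card_range_restr ho, nat_card_alternatingGroup, Nat.card_eq_fintype_card, Fintype.card_coe, ho.2]
    decide

theorem set_eq_alternating (ho : o ∈ octads) :
    {e : Equiv.Perm ↥o | ∃ g : Equiv.Perm GolayPt, g ∈ M24 ∧ ∃ h : (∀ x, g x ∈ o ↔ x ∈ o),
      g.subtypePerm h = e} = (alternatingGroup ↥o : Set (Equiv.Perm ↥o)) := by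
  rw [← range_restr_eq ho]
  ext e
  constructor
  · rintro ⟨g, hg, h, rfl⟩
    have hs : g • o = o := by
      ext x
      rw [Finset.mem_smul_finset]
      constructor
      · rintro ⟨y, hy, rfl⟩
        exact (h y).mpr hy
      · intro hx
        refine ⟨g⁻¹ x, (h _).mp (by simpa using hx), by simp⟩
    exact ⟨⟨g, hg, hs⟩, rfl⟩
  · rintro ⟨g, rfl⟩
    exact ⟨g.1, g.2.1, mem_iff_of_smul g.2.2, rfl⟩

/-! ## The pointwise stabiliser on the complement -/

theorem T6_fix_O0 {P : ℕ} (hP : P ∈ T6) : g P ∈ FixO (setOf O0) := by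
  have h1 := (tableOK_spec tableOK6 P hP).1
  refine ⟨g_mem_M24 h1, (mem_fixingSubgroup_iff _).mpr ?_⟩
  intro y hy
  have hy' := mem_setOf.mp hy
  have h3 := (T6_props P hP).1 _ (idx_lt y) hy'
  rw [Equiv.Perm.smul_def, g_apply (checkAut_valid h1), h3, pt_idx]

/-- Transitivity on the complement, at the base octad. -/
theorem exists_fix_O0 {p q : GolayPt} (hp : p ∉ setOf O0) (hq : q ∉ setOf O0) :
    ∃ f ∈ FixO (setOf O0), f p = q := by
  have hp' := cover_T6 _ (idx_lt p) (fun h => hp (mem_setOf.mpr h))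
  have hq' := cover_T6 _ (idx_lt q) (fun h => hq (mem_setOf.mpr h))
  obtain ⟨P, hP, hPa⟩ := List.mem_map.mp hp'
  obtain ⟨Q, hQ, hQb⟩ := List.mem_map.mp hq'
  have hv : ∀ {R}, R ∈ T6 → validPerm R = true := fun hR =>
    checkAut_valid (tableOK_spec tableOK6 _ hR).1
  refine ⟨g Q * (g P)⁻¹, (FixO _).mul_mem (T6_fix_O0 hQ) ((FixO _).inv_mem (T6_fix_O0 hP)), ?_⟩
  rw [Equiv.Perm.mul_apply]
  have h1 : (g P)⁻¹ p = pt 4 := by
    rw [Equiv.Perm.inv_eq_iff_eq, g_pt (hv hP) (by norm_num), hPa, pt_idx]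
  rw [h1, g_pt (hv hQ) (by norm_num), hQb, pt_idx]

/-- Fixed points outside the octad. -/
theorem T6_reg : ∀ P ∈ T6, ∀ i < 24, O0.testBit i ≠ true → img P i = i → ∀ j < 24, img P j = j := by
  decide +kernel

theorem fix_O0_reg {f : Equiv.Perm GolayPt} (hf : f ∈ FixO (setOf O0)) {p : GolayPt}
    (hp : p ∉ setOf O0) (hfp : f p = p) : f = 1 := by
  obtain ⟨P, hP, rfl⟩ := mem_T6 (fix_O0_iff.mp hf)
  have hv := checkAut_valid (tableOK_spec tableOK6 P hP).1
  have h1 : img P (idx p) = idx p := by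
    rw [← idx_g hv, hfp]
  have h2 := T6_reg P hP _ (idx_lt p) (fun h => hp (mem_setOf.mpr h)) h1
  ext1 q
  rw [g_apply hv, h2 _ (idx_lt q), pt_idx]
  rfl

/-- Conjugation carries the pointwise stabiliser to that of the image. -/
theorem conj_mem_FixO {τ : Equiv.Perm GolayPt} (hτ : τ ∈ M24) {f : Equiv.Perm GolayPt}
    (hf : f ∈ FixO (τ • o)) : τ⁻¹ * f * τ ∈ FixO o := by
  rw [mem_fix_smul_iff hτ o]
  have e : τ * (τ⁻¹ * f * τ) * τ⁻¹ = f := by group
  rwa [e]

/-- The pointwise stabiliser of an octad is transitive on the complement. -/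
theorem exists_fix_octad (ho : o ∈ octads) {p q : GolayPt} (hp : p ∉ o) (hq : q ∉ o) :
    ∃ f ∈ FixO o, f p = q := by
  obtain ⟨τ, hτ, rfl⟩ := exists_smul_O0 ho
  have hn : ∀ {x : GolayPt}, x ∉ τ • setOf O0 → τ⁻¹ x ∉ setOf O0 := by
    intro x hx h
    apply hx
    rw [Finset.mem_smul_finset]
    exact ⟨_, h, by simp⟩
  obtain ⟨f, hf, hfp⟩ := exists_fix_O0 (hn hp) (hn hq)
  refine ⟨τ * f * τ⁻¹, (mem_fix_smul_iff hτ _ f).mp hf, ?_⟩
  simp only [Equiv.Perm.mul_apply, hfp]
  simp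

/-- The pointwise stabiliser of an octad is regular on the complement. -/
theorem fix_octad_reg (ho : o ∈ octads) {f : Equiv.Perm GolayPt} (hf : f ∈ FixO o) {p : GolayPt}
    (hp : p ∉ o) (hfp : f p = p) : f = 1 := by
  obtain ⟨τ, hτ, rfl⟩ := exists_smul_O0 ho
  have hn : τ⁻¹ p ∉ setOf O0 := by
    intro h
    apply hp
    rw [Finset.mem_smul_finset]
    exact ⟨_, h, by simp⟩
  have h1 := fix_O0_reg (conj_mem_FixO hτ hf) hn (by simp [hfp])
  have e : f = τ * (τ⁻¹ * f * τ) * τ⁻¹ := by group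
  rw [e, h1]
  simp

/-- The complement. -/
abbrev CompO (o : Finset GolayPt) (p : GolayPt) : Subgroup (Equiv.Perm GolayPt) :=
  StabO o ⊓ MulAction.stabilizer (Equiv.Perm GolayPt) p

theorem fix_inf_comp (ho : o ∈ octads) {p : GolayPt} (hp : p ∉ o) : FixO o ⊓ CompO o p = ⊥ := by
  rw [eq_bot_iff]
  rintro f ⟨h1, h2⟩
  exact fix_octad_reg ho h1 hp h2.2

theorem fix_sup_comp (ho : o ∈ octads) {p : GolayPt} (hp : p ∉ o) : FixO o ⊔ CompO o p = StabO o := by
  apply le_antisymm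
  · exact sup_le fixO_le_stabO inf_le_left
  · intro g hg
    have hq : g p ∉ o := fun h => hp ((mem_iff_of_smul hg.2 p).mp h)
    obtain ⟨f, hf, hfq⟩ := exists_fix_octad ho hq hp
    have h1 : f * g ∈ CompO o p := by
      refine ⟨(StabO o).mul_mem (fixO_le_stabO hf) hg, MulAction.mem_stabilizer_iff.mpr ?_⟩
      rw [Equiv.Perm.smul_def, Equiv.Perm.mul_apply, hfq]
    have e : g = f⁻¹ * (f * g) := by group
    rw [e]
    exact Subgroup.mul_mem_sup ((FixO o).inv_mem hf) h1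

/-- The complement is isomorphic to the alternating group on the octad. -/
theorem nonempty_comp_equiv (ho : o ∈ octads) {p : GolayPt} (hp : p ∉ o) :
    Nonempty (↥(CompO o p) ≃* alternatingGroup ↥o) := by
  let ι : CompO o p →* StabO o := Subgroup.inclusion inf_le_left
  let φ : CompO o p →* Equiv.Perm ↥o := (restr o).comp ι
  have hinj : Function.Injective φ := by
    rw [injective_iff_map_eq_one]
    intro a ha
    have h1 : (ι a) ∈ (restr o).ker := ha
    rw [mem_ker_restr] at h1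
    have := fix_octad_reg ho h1 hp a.2.2
    exact Subtype.ext this
  have hrange : φ.range = alternatingGroup ↥o := by
    rw [← range_restr_eq ho]
    apply le_antisymm
    · rintro _ ⟨a, rfl⟩
      exact ⟨ι a, rfl⟩
    · rintro _ ⟨b, rfl⟩
      have hq : b.1 p ∉ o := fun h => hp ((mem_iff_of_smul b.2.2 p).mp h)
      obtain ⟨f, hf, hfq⟩ := exists_fix_octad ho hq hp
      have h1 : f * b.1 ∈ CompO o p := by
        refine ⟨(StabO o).mul_mem (fixO_le_stabO hf) b.2, MulAction.mem_stabilizer_iff.mpr ?_⟩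
        rw [Equiv.Perm.smul_def, Equiv.Perm.mul_apply, hfq]
      refine ⟨⟨_, h1⟩, ?_⟩
      refine Equiv.ext fun x => Subtype.ext ?_
      show f (b.1 x.1) = b.1 x.1
      exact (mem_fixingSubgroup_iff _).mp hf.2 _ ((mem_iff_of_smul b.2.2 x.1).mpr x.2)
  exact ⟨(MonoidHom.ofInjective hinj).trans (MulEquiv.subgroupCongr hrange)⟩

theorem nonempty_comp_equiv_fin (ho : o ∈ octads) {p : GolayPt} (hp : p ∉ o) :
    Nonempty (↥(CompO o p) ≃* alternatingGroup (Fin 8)) := by
  obtain ⟨e⟩ := nonempty_comp_equiv ho hp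
  exact ⟨e.trans (Equiv.altCongrHom (o.equivFinOfCardEq ho.2))⟩

end Cfsg.Agent.Lib.M24Orb.OctadStab
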