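/-
Orbits of a sextet stabiliser on the sextets; maximality.
-/
import Cfsg.Agent.Lib.M24Orb.SextetTables
import Cfsg.Agent.Lib.M24Orb.Subsets

set_option autoImplicit false

namespace Cfsg.Agent.Lib.M24Orb.SextetOrbits

open Cfsg Cfsg.Agent.Lib.Golay.Core Cfsg.Agent.Lib.Golay.Perm Cfsg.Agent.Lib.Golay.Chain
  Cfsg.Agent.Lib.Golay.M24 Cfsg.Agent.Lib.Golay.Basic Cfsg.Agent.Lib.Golay.Stab
  Cfsg.Agent.Lib.M24Orb.Transversal Cfsg.Agent.Lib.M24Orb.Table Cfsg.Agent.Lib.M24Orb.Pieces
  Cfsg.Agent.Lib.M24Orb.SextetTables Cfsg.Agent.Lib.GolayOct.Sextet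
  Cfsg.Agent.Lib.GolayOct.Basic
open scoped Pointwise

theorem smul_mem_sextets {σ : Equiv.Perm GolayPt} (hσ : σ ∈ M24)
    {S : Finset (Finset GolayPt)} (hS : S ∈ sextets) : σ • S ∈ sextets := by
  obtain ⟨h6, h4, hu⟩ := hS
  refine ⟨by rw [Finset.card_smul_finset, h6], ?_, ?_⟩
  · intro t ht
    obtain ⟨u, hu', rfl⟩ := Finset.mem_smul_finset.mp ht
    rw [Finset.card_smul_finset]
    exact h4 u hu'
  · intro t ht u hu'
    obtain ⟨a, ha, rfl⟩ := Finset.mem_smul_finset.mp ht
    obtain ⟨b, hb, rfl⟩ := Finset.mem_smul_finset.mp hu'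
    intro hne
    have hab : a ≠ b := by
      rintro rfl
      exact hne rfl
    have := Cfsg.Agent.Lib.Golay.Perm.smul_mem_octads hσ (hu a ha b hb hab)
    rwa [Finset.smul_finset_union] at this

theorem smul_sext {σ : Equiv.Perm GolayPt} (hσ : σ ∈ M24) {t : Finset GolayPt} (ht : t.card = 4) :
    σ • sext t = sext (σ • t) :=
  eq_sext (smul_mem_sextets hσ (sext_mem ht)) (Finset.smul_mem_smul_finset (self_mem_sext t))

theorem smul_sext_setOf {P a : ℕ} (hP : checkAut P = true) (hpop : pop a = 4) :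
    g P • sext (setOf a) = sext (setOf (mapMask P a)) := by
  rw [smul_sext (g_mem_M24 hP) (by rw [card_setOf, hpop]), smul_setOf (checkAut_valid hP)]

theorem pop_mapMask {P a : ℕ} (hP : checkAut P = true) (hpop : pop a = 4) :
    pop (mapMask P a) = 4 := by
  rw [← card_setOf, ← smul_setOf (checkAut_valid hP), Finset.card_smul_finset, card_setOf, hpop]

/-- The sextet key is a function of the sextet. -/
theorem syn_eq_of_sext_eq {a b : ℕ} (ha : a < 2 ^ 24) (hb : b < 2 ^ 24) (hpa : pop a = 4)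
    (hpb : pop b = 4) (h : sext (setOf a) = sext (setOf b)) : syn a = syn b := by
  have hca : (setOf a).card = 4 := by rw [card_setOf, hpa]
  have hcb : (setOf b).card = 4 := by rw [card_setOf, hpb]
  by_cases hab : a = b
  · rw [hab]
  have hne : setOf a ≠ setOf b := fun h' => hab (eq_of_setOf_eq ha hb h')
  have hb' : setOf b ∈ sext (setOf a) := by
    rw [h]
    exact self_mem_sext _
  have hoct := (sext_mem hca).2.2 _ (self_mem_sext _) _ hb' hne
  have hd := disjoint_of_union_octad hca hcb hoct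
  have hsymm : symmDiff (setOf a) (setOf b) = setOf a ∪ setOf b := hd.symmDiff_eq_sup
  have hmem : setOf (a ^^^ b) ∈ CS := by
    rw [setOf_xor, hsymm]
    exact hoct.1
  obtain ⟨m, hm, hm'⟩ := mem_CS_iff.mp hmem
  have hlt : a ^^^ b < 2 ^ 24 := Nat.xor_lt_two_pow ha hb
  have h1 : a ^^^ b = code m := eq_of_setOf_eq hlt (code_lt hm) hm'
  have h2 : isCode (code m) = true := isCode_iff.mpr ⟨m, hm, rfl⟩
  have h3 : code (Nat.land (code m) 4095) = code m := code_land_of_isCode h2
  have h4 : Nat.land (code m) 4095 = (Nat.land a 4095) ^^^ (Nat.land b 4095) := by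
    rw [← h1]
    exact Nat.and_xor_distrib_right
  rw [h4, code_xor (land_lt_4096 a) (land_lt_4096 b), ← h1] at h3
  -- `c a ^^^ c b = a ^^^ b`
  have h5 : Nat.xor a (code (Nat.land a 4095)) = Nat.xor b (code (Nat.land b 4095)) := by
    show a ^^^ code (Nat.land a 4095) = b ^^^ code (Nat.land b 4095)
    generalize code (Nat.land a 4095) = x at h3 ⊢
    generalize code (Nat.land b 4095) = y at h3 ⊢
    have h6 : a = x ^^^ y ^^^ b := by
      rw [h3, Nat.xor_assoc, Nat.xor_self, Nat.xor_zero]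
    rw [h6, Nat.xor_comm x y, Nat.xor_assoc, Nat.xor_assoc, Nat.xor_comm b x, ← Nat.xor_assoc,
      ← Nat.xor_assoc, Nat.xor_assoc y x x, Nat.xor_self, Nat.xor_zero, Nat.xor_comm]
  unfold syn
  rw [h5]

theorem bases_pop' (i : ℕ) : pop (bases i) = 4 := by
  rcases i with _ | _ | n
  · exact bases_pop 0 (by norm_num)
  · exact bases_pop 1 (by norm_num)
  · exact bases_pop 2 (by norm_num)

theorem bases_lt' (i : ℕ) : bases i < 2 ^ 24 := by
  rcases i with _ | _ | n
  · exact bases_lt 0 (by norm_num)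
  · exact bases_lt 1 (by norm_num)
  · exact bases_lt 2 (by norm_num)

/-- The root sextet. -/
def S0 : Finset (Finset GolayPt) := sext (setOf t0)

theorem t0_card : (setOf t0).card = 4 := by rw [card_setOf, t0_pop]

theorem memL_spec {c : ℕ} {l : List ℕ} (h : memL c l = true) : c ∈ l := by
  induction l with
  | nil => exact absurd h (by simp [memL])
  | cons a l ih =>
    have e : memL c (a :: l) = cond (Nat.beq c a) true (memL c l) := rfl
    rw [e] at h
    cases hb : Nat.beq c a with
    | true => rw [Nat.eq_of_beq_eq_true hb]; exact List.mem_cons_self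
    | false =>
      rw [hb, cond_false] at h
      exact List.mem_cons_of_mem _ (ih h)

theorem mem_sext_of_union {t u : Finset GolayPt} (ht : t.card = 4) (hu : u.card = 4)
    (h : t ∪ u ∈ octads) : u ∈ sext t := by
  have hd := disjoint_of_union_octad ht hu h
  apply Finset.mem_insert_of_mem
  apply Finset.mem_image.mpr
  refine ⟨t ∪ u, mem_Ot.mpr ⟨h, Finset.subset_union_left⟩, ?_⟩
  rw [Finset.union_sdiff_cancel_left hd]

theorem keep_spec (P : ℕ) (hP : checkAut P = true) (hk : keep P = true) : g P • S0 = S0 := by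
  have hu := memL_spec hk
  rw [S0, smul_sext_setOf hP t0_pop]
  obtain ⟨h1, h2, h3⟩ := tetList_ok _ hu
  rcases h3 with h3 | ⟨h3, h4, h5⟩
  · rw [h3]
  · have hcu : (setOf (mapMask P t0)).card = 4 := by rw [card_setOf, h2]
    have hlt : Nat.lor t0 (mapMask P t0) < 2 ^ 24 := Nat.or_lt_two_pow t0_lt h1
    have hmem : setOf (Nat.lor t0 (mapMask P t0)) ∈ octads :=
      (setOf_mem_octads_iff hlt).mpr ⟨h3, h4⟩
    have hun : setOf (Nat.lor t0 (mapMask P t0)) = setOf t0 ∪ setOf (mapMask P t0) := by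
      ext p
      simp only [mem_setOf, Finset.mem_union]
      show (t0 ||| mapMask P t0).testBit (idx p) = true ↔ _
      rw [Nat.testBit_or, Bool.or_eq_true]
    rw [hun] at hmem
    exact (eq_sext (sext_mem t0_card) (mem_sext_of_union t0_card hcu hmem)).symm

/-- The sextets are an orbit. -/
theorem mem_sextets_iff {y : Finset (Finset GolayPt)} : y ∈ sextets ↔ y ∈ MulAction.orbit M24 S0 := by
  constructor
  · intro hy
    have hne : y.Nonempty := Finset.card_pos.mp (by rw [hy.1]; norm_num)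
    obtain ⟨t, ht⟩ := hne
    have ht4 := hy.2.1 t ht
    obtain ⟨σ, hσ, h⟩ := Cfsg.Agent.Lib.M24Orb.Subsets.exists_smul_of_card (s := setOf t0) (s' := t)
      (by rw [t0_card, ht4]) (by rw [t0_card]; norm_num)
    refine ⟨⟨σ, hσ⟩, ?_⟩
    show σ • S0 = y
    rw [S0, smul_sext hσ t0_card, h]
    exact (eq_sext hy ht).symm
  · rintro ⟨k, rfl⟩
    exact smul_mem_sextets k.2 (sext_mem t0_card)

/-- The base objects. -/
noncomputable def base (i : ℕ) : Finset (Finset GolayPt) := sext (setOf (bases i))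

theorem ncard_sextets : sextets.ncard = 1771 := tetrad_unique_sextet.2

/-- The orbit data at the root sextet. -/
theorem base_data : PieceData (G := M24) S0 (fun i : Fin 3 => piece base M i)
    (fun i : Fin 3 => countLab M i) := by
  refine pieceData_of_loop M_ok S0 base keep_spec ?_ ?_ sextets (Set.toFinite _)
    (fun y => mem_sextets_iff) (by rw [ncard_sextets, length_M]) ?_
  · intro i P j Q hP hQ h
    rw [base, base, smul_sext_setOf hP (bases_pop' i), smul_sext_setOf hQ (bases_pop' j)] at h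
    exact syn_eq_of_sext_eq (mapMask_lt (checkAut_valid hP) _) (mapMask_lt (checkAut_valid hQ) _)
      (pop_mapMask hP (bases_pop' i)) (pop_mapMask hQ (bases_pop' j)) h
  · intro i P hP h
    rw [base, smul_sext_setOf hP (bases_pop' i), S0] at h
    exact syn_eq_of_sext_eq (mapMask_lt (checkAut_valid hP) _) t0_lt
      (pop_mapMask hP (bases_pop' i)) t0_pop h
  · intro i _
    exact sext_mem (by rw [card_setOf, bases_pop'])

theorem size_eq : ∀ i : Fin 3, countLab M i = (![90, 240, 1440] : Fin 3 → ℕ) i := by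
  intro i
  fin_cases i
  · exact count0
  · exact count1
  · exact count2

/-- **Orbits of a sextet stabiliser and maximality.** -/
theorem main (S : Finset (Finset GolayPt)) (hS : S ∈ sextets) :
    ∃ X₁ ∈ sextets, ∃ X₂ ∈ sextets, ∃ X₃ ∈ sextets,
      (MulAction.orbit ↥(MulAction.stabilizer M24 S) X₁).ncard = 90 ∧
      (MulAction.orbit ↥(MulAction.stabilizer M24 S) X₂).ncard = 240 ∧
      (MulAction.orbit ↥(MulAction.stabilizer M24 S) X₃).ncard = 1440 ∧
      sextets = {S} ∪ MulAction.orbit ↥(MulAction.stabilizer M24 S) X₁ ∪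
        MulAction.orbit ↥(MulAction.stabilizer M24 S) X₂ ∪
        MulAction.orbit ↥(MulAction.stabilizer M24 S) X₃ ∧
      IsCoatom (MulAction.stabilizer M24 S) := by
  obtain ⟨τ, hτ⟩ := mem_sextets_iff.mp hS
  rw [← hτ]
  have hd0 := base_data.smul τ
  set x := τ • S0 with hx
  set P : Fin 3 → Set (Finset (Finset GolayPt)) :=
    fun i => (fun y => τ • y) '' piece base M i with hP
  set z : Fin 3 → ℕ := ![90, 240, 1440] with hz
  have hd : PieceData (G := M24) x P z := by
    have : (fun i : Fin 3 => countLab M i) = z := funext size_eq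
    rw [← this]
    exact hd0
  have hcardG : Nat.card (MulAction.stabilizer M24 x) = 138240 := by
    have h1 := hd.card_stabilizer
    rw [card_M24] at h1
    have h2 : 1 + ∑ i, z i = 1771 := by decide
    rw [h2] at h1
    omega
  have horb : ∀ i, ∀ y ∈ P i, MulAction.orbit ↥(MulAction.stabilizer M24 x) y = P i := by
    intro i y hy
    apply hd.orbit_eq _ i hy
    rw [hcardG]
    decide
  have hnon : ∀ i, (P i).Nonempty := by
    intro i
    rw [← Set.ncard_pos (hd.finite i), hd.size]
    fin_cases i <;> decide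
  obtain ⟨X₁, h1⟩ := hnon 0
  obtain ⟨X₂, h2⟩ := hnon 1
  obtain ⟨X₃, h3⟩ := hnon 2
  have hmem : ∀ i, ∀ y ∈ P i, y ∈ sextets := fun i y hy =>
    mem_sextets_iff.mpr (by
      have := (hd.cover y).mpr (Or.inr ⟨i, hy⟩)
      rw [hx, MulAction.orbit_smul] at this
      exact this)
  refine ⟨X₁, hmem 0 _ h1, X₂, hmem 1 _ h2, X₃, hmem 2 _ h3, ?_, ?_, ?_, ?_, ?_⟩
  · rw [horb 0 _ h1, hd.size]
    rfl
  · rw [horb 1 _ h2, hd.size]
    rfl
  · rw [horb 2 _ h3, hd.size]
    rfl
  · rw [horb 0 _ h1, horb 1 _ h2, horb 2 _ h3]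
    ext y
    rw [mem_sextets_iff]
    have : y ∈ MulAction.orbit M24 S0 ↔ y ∈ MulAction.orbit M24 x := by
      rw [hx, MulAction.orbit_smul]
    rw [this, hd.cover]
    simp only [Set.mem_union, Set.mem_singleton_iff]
    constructor
    · rintro (h | ⟨i, hi⟩)
      · exact Or.inl (Or.inl (Or.inl h))
      · fin_cases i
        · exact Or.inl (Or.inl (Or.inr hi))
        · exact Or.inl (Or.inr hi)
        · exact Or.inr hi
    · rintro (((h | h) | h) | h)
      · exact Or.inl h
      · exact Or.inr ⟨0, h⟩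
      · exact Or.inr ⟨1, h⟩
      · exact Or.inr ⟨2, h⟩
  · apply hd.isCoatom ⟨0, hnon 0⟩
    rw [hd.ncard_orbit]
    decide

end Cfsg.Agent.Lib.M24Orb.SextetOrbits
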