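/-
Maximality of point stabilisers from orbit sizes, and orbits from connected pieces.
-/
import Mathlib

set_option autoImplicit false

namespace Cfsg.Agent.Lib.M24Orb.Coatom

open MulAction

set_option linter.unusedSectionVars false

variable {G X : Type*} [Group G] [Finite G] [MulAction G X]

/-- The orbit of a subgroup containing the stabiliser has size dividing the orbit of the group. -/
theorem ncard_orbit_dvd {x : X} {K : Subgroup G} (hK : stabilizer G x ≤ K) :
    (orbit K x).ncard ∣ (orbit G x).ncard := by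
  have h1 : (stabilizer G x).relIndex K * K.index = (stabilizer G x).index :=
    Subgroup.relIndex_mul_index hK
  have h2 : (stabilizer G x).relIndex K = (orbit K x).ncard := by
    rw [← index_stabilizer]
    rw [Subgroup.relIndex]
    congr 1
  rw [← index_stabilizer G x, ← h1, h2]
  exact Dvd.intro _ rfl

/-- If a subgroup containing the stabiliser is transitive on the orbit of `x`, it is everything. -/
theorem eq_top_of_orbit_eq {x : X} {K : Subgroup G} (hK : stabilizer G x ≤ K)
    (h : orbit G x ⊆ orbit K x) : K = ⊤ := by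
  rw [eq_top_iff]
  intro g _
  have hg : g • x ∈ orbit K x := h (mem_orbit x g)
  obtain ⟨k, hk⟩ := hg
  have hk' : (k : G) • x = g • x := hk
  have hs : (k : G)⁻¹ * g ∈ K := by
    apply hK
    rw [mem_stabilizer_iff, mul_smul, ← hk', inv_smul_smul]
  have := K.mul_mem k.2 hs
  simpa using this

/-- **Maximality from orbit sizes.**  `P i` are pieces of the orbit of `x` minus `x`: pairwise
disjoint, covering, connected under the stabiliser.  If no proper partial sum `1 + ∑ sizes` divides
the orbit size then the stabiliser is maximal. -/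
theorem isCoatom_of_pieces {r : ℕ} (x : X) (P : Fin r → Set X) (s : Fin r → ℕ)
    (hcover : ∀ y ∈ orbit G x, y = x ∨ ∃ i, y ∈ P i)
    (hsub : ∀ i, P i ⊆ orbit G x) (hne : ∀ i, x ∉ P i)
    (hdis : ∀ i j, i ≠ j → Disjoint (P i) (P j))
    (hconn : ∀ i, ∀ y ∈ P i, ∀ z ∈ P i, ∃ g ∈ stabilizer G x, g • y = z)
    (hsize : ∀ i, (P i).ncard = s i)
    (hnontriv : ∃ i, (P i).Nonempty)
    (harith : ∀ I : Finset (Fin r), (1 + ∑ i ∈ I, s i) ∣ (orbit G x).ncard →
      I = ∅ ∨ I = Finset.univ) :
    IsCoatom (stabilizer G x) := by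
  classical
  have hfin : ∀ S : Set X, S ⊆ orbit G x → S.Finite := fun S hS =>
    (Set.finite_range (fun g : G => g • x)).subset hS
  refine ⟨?_, ?_⟩
  · intro htop
    obtain ⟨i, y, hy⟩ := hnontriv
    obtain ⟨g, rfl⟩ := hsub i hy
    have : g ∈ stabilizer G x := by rw [htop]; exact Subgroup.mem_top g
    apply hne i
    have h2 : g • x = x := this
    simpa [h2] using hy
  · intro K hK
    have hle : stabilizer G x ≤ K := le_of_lt hK
    -- the pieces that meet the orbit of `K`
    set Δ := orbit K x with hΔ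
    have hΔsub : Δ ⊆ orbit G x := by
      rintro _ ⟨k, rfl⟩
      exact ⟨(k : G), rfl⟩
    have hxΔ : x ∈ Δ := mem_orbit_self x
    have hclosed : ∀ i, ∀ y ∈ P i, y ∈ Δ → P i ⊆ Δ := by
      intro i y hy hyΔ z hz
      obtain ⟨g, hg, rfl⟩ := hconn i y hy z hz
      obtain ⟨k, rfl⟩ := hyΔ
      exact ⟨⟨g, hle hg⟩ * k, mul_smul g (k : G) x⟩
    set I : Finset (Fin r) := Finset.univ.filter fun i => P i ⊆ Δ with hI
    have hΔeq : Δ = {x} ∪ ⋃ i ∈ I, P i := by
      ext y
      simp only [Set.mem_union, Set.mem_singleton_iff, Set.mem_iUnion, exists_prop]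
      constructor
      · intro hy
        rcases hcover y (hΔsub hy) with rfl | ⟨i, hi⟩
        · exact Or.inl rfl
        · refine Or.inr ⟨i, ?_, hi⟩
          rw [hI, Finset.mem_filter]
          exact ⟨Finset.mem_univ _, hclosed i y hi hy⟩
      · rintro (rfl | ⟨i, hi, hy⟩)
        · exact hxΔ
        · rw [hI, Finset.mem_filter] at hi
          exact hi.2 hy
    have hcard : Δ.ncard = 1 + ∑ i ∈ I, s i := by
      have hf : ∀ J : Finset (Fin r), (⋃ i ∈ J, P i).ncard = ∑ i ∈ J, s i ∧
          (⋃ i ∈ J, P i).Finite := by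
        intro J
        induction J using Finset.induction_on with
        | empty => simp
        | insert a J ha ih =>
          rw [Finset.set_biUnion_insert, Finset.sum_insert ha]
          have hd : Disjoint (P a) (⋃ i ∈ J, P i) := by
            rw [Set.disjoint_iUnion₂_right]
            intro j hj
            exact hdis a j (by rintro rfl; exact ha hj)
          have hfa := hfin (P a) (hsub a)
          refine ⟨?_, hfa.union ih.2⟩
          rw [Set.ncard_union_eq hd hfa ih.2, hsize a, ih.1]
      have hd : Disjoint ({x} : Set X) (⋃ i ∈ I, P i) := by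
        rw [Set.disjoint_singleton_left, Set.mem_iUnion₂, not_exists]
        rintro i ⟨_, hi⟩
        exact hne i hi
      rw [hΔeq, Set.ncard_union_eq hd (Set.finite_singleton x) (hf I).2, Set.ncard_singleton,
        (hf I).1]
    have hdvd := ncard_orbit_dvd hle
    rw [← hΔ, hcard] at hdvd
    rcases harith I hdvd with h | h
    · -- `K` fixes `x`
      exfalso
      have hsing : Δ = {x} := by
        rw [hΔeq, h]
        simp
      apply (lt_iff_le_not_ge.mp hK).2
      intro k hk
      have : (⟨k, hk⟩ : K) • x ∈ Δ := mem_orbit x _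
      rw [hsing] at this
      exact this
    · apply eq_top_of_orbit_eq hle
      intro y hy
      rcases hcover y hy with rfl | ⟨i, hi⟩
      · exact hxΔ
      · have : i ∈ I := by rw [h]; exact Finset.mem_univ i
        rw [hI, Finset.mem_filter] at this
        exact this.2 hi

/-- **Orbits from pieces.**  If the pieces are connected, disjoint, and no sum of sizes other than
the expected one divides the group order, each piece is an orbit. -/
theorem orbit_eq_of_pieces {r : ℕ} (P : Fin r → Set X) (s : Fin r → ℕ)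
    (hU : ∀ i, ∀ y ∈ P i, ∀ g : G, ∃ j, g • y ∈ P j)
    (hdis : ∀ i j, i ≠ j → Disjoint (P i) (P j))
    (hconn : ∀ i, ∀ y ∈ P i, ∀ z ∈ P i, ∃ g : G, g • y = z)
    (hfinite : ∀ i, (P i).Finite)
    (hsize : ∀ i, (P i).ncard = s i)
    (harith : ∀ i, ∀ I : Finset (Fin r), i ∈ I → (∑ j ∈ I, s j) ∣ Nat.card G → I = {i})
    (i : Fin r) {y : X} (hy : y ∈ P i) : orbit G y = P i := by
  classical
  set Δ := orbit G y with hΔ
  have hclosed : ∀ j, ∀ z ∈ P j, z ∈ Δ → P j ⊆ Δ := by
    intro j z hz hzΔ w hw
    obtain ⟨g, rfl⟩ := hconn j z hz w hw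
    obtain ⟨k, rfl⟩ := hzΔ
    exact ⟨g * k, mul_smul g k y⟩
  set I : Finset (Fin r) := Finset.univ.filter fun j => P j ⊆ Δ with hI
  have hyΔ : y ∈ Δ := mem_orbit_self y
  have hiI : i ∈ I := by
    rw [hI, Finset.mem_filter]
    exact ⟨Finset.mem_univ _, hclosed i y hy hyΔ⟩
  have hΔeq : Δ = ⋃ j ∈ I, P j := by
    ext z
    simp only [Set.mem_iUnion, exists_prop]
    constructor
    · rintro ⟨g, rfl⟩
      obtain ⟨j, hj⟩ := hU i y hy g
      refine ⟨j, ?_, hj⟩
      rw [hI, Finset.mem_filter]
      exact ⟨Finset.mem_univ _, hclosed j _ hj ⟨g, rfl⟩⟩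
    · rintro ⟨j, hj, hz⟩
      rw [hI, Finset.mem_filter] at hj
      exact hj.2 hz
  have hf : ∀ J : Finset (Fin r), (⋃ j ∈ J, P j).ncard = ∑ j ∈ J, s j ∧ (⋃ j ∈ J, P j).Finite := by
    intro J
    induction J using Finset.induction_on with
    | empty => simp
    | insert a J ha ih =>
      rw [Finset.set_biUnion_insert, Finset.sum_insert ha]
      have hd : Disjoint (P a) (⋃ j ∈ J, P j) := by
        rw [Set.disjoint_iUnion₂_right]
        intro j hj
        exact hdis a j (by rintro rfl; exact ha hj)
      refine ⟨?_, (hfinite a).union ih.2⟩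
      rw [Set.ncard_union_eq hd (hfinite a) ih.2, hsize a, ih.1]
  have hdvd : (∑ j ∈ I, s j) ∣ Nat.card G := by
    rw [← (hf I).1, ← hΔeq, hΔ, ← index_stabilizer]
    exact Subgroup.index_dvd_card _
  have hIi := harith i I hiI hdvd
  rw [hΔeq, hIi]
  simp

end Cfsg.Agent.Lib.M24Orb.Coatom
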