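/-
Orbits of an octad stabiliser on the octads; maximality.
-/
import Cfsg.Agent.Lib.M24Orb.OctadTables
import Cfsg.Agent.Lib.M24Orb.OctadStab
import Cfsg.Agent.Lib.M24Orb.Coatom

set_option autoImplicit false

namespace Cfsg.Agent.Lib.M24Orb.OctadOrbits

open Cfsg Cfsg.Agent.Lib.Golay.Core Cfsg.Agent.Lib.Golay.Perm Cfsg.Agent.Lib.Golay.Chain
  Cfsg.Agent.Lib.Golay.M24 Cfsg.Agent.Lib.Golay.Basic Cfsg.Agent.Lib.Golay.Stab
  Cfsg.Agent.Lib.M24Orb.Transversal Cfsg.Agent.Lib.M24Orb.OctadTables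
  Cfsg.Agent.Lib.M24Orb.Coatom
open scoped Pointwise

/-- Counting sets of words by a predicate on masks. -/
theorem ncard_code_pred (p : ℕ → Bool) :
    {s : Finset GolayPt | ∃ m < 4096, p (code m) = true ∧ s = setOf (code m)}.ncard =
      countUpTo (fun m => p (code m)) 4096 := by
  have h : {s : Finset GolayPt | ∃ m < 4096, p (code m) = true ∧ s = setOf (code m)} =
      (fun m => setOf (code m)) '' (((Finset.range 4096).filter
        fun m => p (code m) = true : Finset ℕ) : Set ℕ) := by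
    ext s
    simp only [Set.mem_image, Finset.coe_filter, Finset.mem_range, Set.mem_ofPred_eq]
    constructor
    · rintro ⟨m, hm, hk, rfl⟩
      exact ⟨m, ⟨hm, hk⟩, rfl⟩
    · rintro ⟨m, ⟨hm, hk⟩, rfl⟩
      exact ⟨m, hm, hk, rfl⟩
  rw [h, Set.InjOn.ncard_image, Set.ncard_coe_finset, countUpTo_eq]
  intro a ha b hb hab
  simp only [Finset.coe_filter, Finset.mem_range, Set.mem_ofPred_eq] at ha hb
  exact code_injOn ha.1 hb.1 (eq_of_setOf_eq (code_lt ha.1) (code_lt hb.1) hab)

theorem pop_land_eq (a b : ℕ) : pop (Nat.land a b) = (setOf a ∩ setOf b).card := by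
  rw [← card_setOf]
  exact congrArg Finset.card (setOf_inter a b)

theorem mem_pred_iff {k : ℕ} {s : Finset GolayPt} :
    (s ∈ octads ∧ (setOf O0 ∩ s).card = k) ↔
      ∃ m < 4096, pred k (code m) = true ∧ s = setOf (code m) := by
  rw [mem_octads_iff]
  constructor
  · rintro ⟨⟨m, hm, h8, rfl⟩, hk⟩
    refine ⟨m, hm, ?_, rfl⟩
    rw [pred, h8, Nat.beq_refl, cond_true, pop_land_eq, hk, Nat.beq_refl]
  · rintro ⟨m, hm, h, rfl⟩
    rw [pred] at h
    cases h8 : Nat.beq (pop (code m)) 8 with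
    | false => simp [h8] at h
    | true =>
      rw [h8, cond_true] at h
      have h2 := Nat.eq_of_beq_eq_true h
      rw [pop_land_eq] at h2
      exact ⟨⟨m, hm, Nat.eq_of_beq_eq_true h8, rfl⟩, h2⟩

theorem count4 : countUpTo (fun m => pred 4 (code m)) 4096 = 280 := by decide +kernel
theorem count2 : countUpTo (fun m => pred 2 (code m)) 4096 = 448 := by decide +kernel
theorem count0 : countUpTo (fun m => pred 0 (code m)) 4096 = 30 := by decide +kernel

theorem ncard_base (k : ℕ) : {s : Finset GolayPt | s ∈ octads ∧ (setOf O0 ∩ s).card = k}.ncard =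
    countUpTo (fun m => pred k (code m)) 4096 := by
  rw [← ncard_code_pred]
  congr 1
  ext s
  exact mem_pred_iff

/-- Intersection numbers with the base octad. -/
theorem base_cases : ∀ m < 4096, pop (code m) = 8 → pop (Nat.land O0 (code m)) = 0 ∨
    pop (Nat.land O0 (code m)) = 2 ∨ pop (Nat.land O0 (code m)) = 4 ∨
    pop (Nat.land O0 (code m)) = 8 := by
  have h : allUpTo (fun m => cond (Nat.beq (pop (code m)) 8)
      (Nat.beq (pop (Nat.land O0 (code m))) 0 || Nat.beq (pop (Nat.land O0 (code m))) 2 ||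
        Nat.beq (pop (Nat.land O0 (code m))) 4 || Nat.beq (pop (Nat.land O0 (code m))) 8) true)
      4096 = true := by decide +kernel
  intro m hm h8
  have h1 := allUpTo_iff.mp h m hm
  rw [h8, Nat.beq_refl, cond_true] at h1
  simp only [Bool.or_eq_true] at h1
  rcases h1 with ((h1 | h1) | h1) | h1
  · exact Or.inl (Nat.eq_of_beq_eq_true h1)
  · exact Or.inr (Or.inl (Nat.eq_of_beq_eq_true h1))
  · exact Or.inr (Or.inr (Or.inl (Nat.eq_of_beq_eq_true h1)))
  · exact Or.inr (Or.inr (Or.inr (Nat.eq_of_beq_eq_true h1)))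

theorem inter_eq_of_base {s : Finset GolayPt} (hs : s ∈ octads) (h : (setOf O0 ∩ s).card = 8) :
    s = setOf O0 :=
  (two_octads_eq O0_mem hs (by omega)).symm

/-- Transitivity at the base octad. -/
theorem base_conj {a b : Finset GolayPt} (ha : a ∈ octads) (hb : b ∈ octads)
    (h : (setOf O0 ∩ a).card = (setOf O0 ∩ b).card) :
    ∃ σ ∈ M24, σ • setOf O0 = setOf O0 ∧ σ • a = b := by
  have hcases : (setOf O0 ∩ a).card = 0 ∨ (setOf O0 ∩ a).card = 2 ∨ (setOf O0 ∩ a).card = 4 ∨
      (setOf O0 ∩ a).card = 8 := by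
    obtain ⟨m, hm, h8, rfl⟩ := mem_octads_iff.mp ha
    have := base_cases m hm h8
    rwa [pop_land_eq] at this
  have key : ∀ {k : ℕ}, (∀ {m m' : ℕ}, m < 4096 → m' < 4096 → pred k (code m) = true →
      pred k (code m') = true → ∃ σ ∈ M24, σ • setOf O0 = setOf O0 ∧
        σ • setOf (code m) = setOf (code m')) → (setOf O0 ∩ a).card = k →
      ∃ σ ∈ M24, σ • setOf O0 = setOf O0 ∧ σ • a = b := by
    intro k hk h1
    obtain ⟨m, hm, hp, rfl⟩ := mem_pred_iff.mp ⟨ha, h1⟩
    obtain ⟨m', hm', hp', rfl⟩ := mem_pred_iff.mp ⟨hb, h ▸ h1⟩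
    exact hk hm hm' hp hp'
  rcases hcases with h1 | h1 | h1 | h1
  · exact key (fun hm hm' hp hp' => exists_smul_of_cover₂ cover0 b0_code b0_lt hm hm' hp hp') h1
  · exact key (fun hm hm' hp hp' => exists_smul_of_cover₂ cover2 b2_code b2_lt hm hm' hp hp') h1
  · exact key (fun hm hm' hp hp' => exists_smul_of_cover₂ cover4 b4_code b4_lt hm hm' hp hp') h1
  · rw [inter_eq_of_base ha h1, inter_eq_of_base hb (h ▸ h1)]
    exact ⟨1, M24.one_mem, one_smul _ _, one_smul _ _⟩

/-- **Octads meeting a fixed octad equally are conjugate under its stabiliser.** -/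
theorem octad_conj {o o' o'' : Finset GolayPt} (ho : o ∈ octads) (ho' : o' ∈ octads)
    (ho'' : o'' ∈ octads) (h : (o ∩ o').card = (o ∩ o'').card) :
    ∃ g : Equiv.Perm GolayPt, g ∈ M24 ∧ g • o = o ∧ g • o' = o'' := by
  obtain ⟨τ, hτ, rfl⟩ := exists_smul_O0 ho
  have hi := M24.inv_mem hτ
  have h1 : (setOf O0 ∩ τ⁻¹ • o').card = (τ • setOf O0 ∩ o').card := by
    conv_rhs => rw [← smul_inv_smul τ o']
    rw [smul_inter_card]
  have h2 : (setOf O0 ∩ τ⁻¹ • o'').card = (τ • setOf O0 ∩ o'').card := by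
    conv_rhs => rw [← smul_inv_smul τ o'']
    rw [smul_inter_card]
  obtain ⟨σ, hσ, h3, h4⟩ := base_conj (smul_mem_octads hi ho') (smul_mem_octads hi ho'')
    (by rw [h1, h2, h])
  refine ⟨τ * σ * τ⁻¹, M24.mul_mem (M24.mul_mem hτ hσ) hi, ?_, ?_⟩
  · rw [mul_smul, mul_smul, inv_smul_smul, h3]
  · rw [mul_smul, mul_smul, h4, smul_inv_smul]

theorem ncard_octads_meet {o : Finset GolayPt} (ho : o ∈ octads) (k : ℕ) :
    {s : Finset GolayPt | s ∈ octads ∧ (o ∩ s).card = k}.ncard =
      countUpTo (fun m => pred k (code m)) 4096 := by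
  obtain ⟨τ, hτ, rfl⟩ := exists_smul_O0 ho
  rw [← ncard_base]
  have : {s : Finset GolayPt | s ∈ octads ∧ (τ • setOf O0 ∩ s).card = k} =
      (fun s => τ • s) '' {s : Finset GolayPt | s ∈ octads ∧ (setOf O0 ∩ s).card = k} := by
    ext s
    simp only [Set.mem_ofPred_eq, Set.mem_image]
    constructor
    · rintro ⟨h1, h2⟩
      refine ⟨τ⁻¹ • s, ⟨smul_mem_octads (M24.inv_mem hτ) h1, ?_⟩, smul_inv_smul τ s⟩
      rw [← h2]
      conv_rhs => rw [← smul_inv_smul τ s]
      rw [smul_inter_card]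
    · rintro ⟨t, ⟨h1, h2⟩, rfl⟩
      exact ⟨smul_mem_octads hτ h1, by rw [smul_inter_card, h2]⟩
  rw [this, Set.ncard_image_of_injective _ (MulAction.injective τ)]

/-- **The stabiliser of an octad is maximal.** -/
theorem stabilizer_octad_isCoatom {o : Finset GolayPt} (ho : o ∈ octads) :
    IsCoatom (MulAction.stabilizer M24 o) := by
  have horb := OctadStab.orbit_octad ho
  let k : Fin 3 → ℕ := ![4, 2, 0]
  let P : Fin 3 → Set (Finset GolayPt) := fun i => {s | s ∈ octads ∧ (o ∩ s).card = k i}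
  let z : Fin 3 → ℕ := ![280, 448, 30]
  have ho8 : o.card = 8 := ho.2
  refine isCoatom_of_pieces (G := M24) o P z ?_ ?_ ?_ ?_ ?_ ?_ ?_ ?_
  · intro y hy
    rw [horb] at hy
    by_cases hne : y = o
    · exact Or.inl hne
    · right
      obtain ⟨τ, hτ, rfl⟩ := exists_smul_O0 ho
      have h1 : (τ • setOf O0 ∩ y).card = (setOf O0 ∩ τ⁻¹ • y).card := by
        conv_lhs => rw [← smul_inv_smul τ y]
        rw [smul_inter_card]
      have hy' := smul_mem_octads (M24.inv_mem hτ) hy
      obtain ⟨m, hm, h8, hm'⟩ := mem_octads_iff.mp hy'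
      have h2 := base_cases m hm h8
      rw [pop_land_eq, ← hm', ← h1] at h2
      rcases h2 with h2 | h2 | h2 | h2
      · exact ⟨2, hy, h2⟩
      · exact ⟨1, hy, h2⟩
      · exact ⟨0, hy, h2⟩
      · exact absurd (two_octads_eq ho hy (by omega)).symm hne
  · intro i y hy
    rw [horb]
    exact hy.1
  · intro i hx
    have h1 := hx.2
    rw [Finset.inter_self, ho8] at h1
    fin_cases i <;> simp [k] at h1
  · intro i j hij
    rw [Set.disjoint_left]
    rintro s ⟨-, h1⟩ ⟨-, h2⟩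
    have h3 : k i = k j := h1.symm.trans h2
    fin_cases i <;> fin_cases j <;> first | exact absurd rfl hij | simp [k] at h3
  · intro i y hy w hw
    obtain ⟨σ, hσ, h1, h2⟩ := octad_conj ho hy.1 hw.1 (hy.2.trans hw.2.symm)
    exact ⟨⟨σ, hσ⟩, h1, h2⟩
  · intro i
    rw [ncard_octads_meet ho]
    fin_cases i
    · exact count4
    · exact count2
    · exact count0
  · have hne : (P 2).Nonempty := by
      rw [← Set.ncard_pos (Set.toFinite _), ncard_octads_meet ho]
      show 0 < countUpTo (fun m => pred 0 (code m)) 4096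
      rw [count0]
      norm_num
    exact ⟨2, hne⟩
  · rw [horb, ncard_octads]
    decide

end Cfsg.Agent.Lib.M24Orb.OctadOrbits
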