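/-
Orbits of a dodecad stabiliser on the dodecads; intersection numbers; maximality of the stabiliser
of a complementary pair of dodecads.
-/
import Cfsg.Agent.Lib.M24Orb.DodecadTables
import Cfsg.Agent.Lib.M24Orb.OctadOrbits
import Cfsg.Agent.Lib.GolayOct.Basic

set_option autoImplicit false

namespace Cfsg.Agent.Lib.M24Orb.DodecadOrbits

open Cfsg Cfsg.Agent.Lib.Golay.Core Cfsg.Agent.Lib.Golay.Perm Cfsg.Agent.Lib.Golay.Chain
  Cfsg.Agent.Lib.Golay.M24 Cfsg.Agent.Lib.Golay.Basic Cfsg.Agent.Lib.Golay.Stab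
  Cfsg.Agent.Lib.Golay.Orbits
  Cfsg.Agent.Lib.M24Orb.Transversal Cfsg.Agent.Lib.M24Orb.DodecadTables
  Cfsg.Agent.Lib.M24Orb.Coatom
open Cfsg.Agent.Lib.M24Orb.OctadOrbits (ncard_code_pred pop_land_eq)
open scoped Pointwise

theorem mem_pred_iff {k : ℕ} {s : Finset GolayPt} :
    (s ∈ dodecads ∧ (setOf D1 ∩ s).card = k) ↔
      ∃ m < 4096, pred k (code m) = true ∧ s = setOf (code m) := by
  rw [mem_dodecads_iff]
  constructor
  · rintro ⟨⟨m, hm, h8, rfl⟩, hk⟩
    refine ⟨m, hm, ?_, rfl⟩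
    rw [pred, h8, Nat.beq_refl, cond_true, pop_land_eq, hk, Nat.beq_refl]
  · rintro ⟨m, hm, h, rfl⟩
    rw [pred] at h
    cases h8 : Nat.beq (pop (code m)) 12 with
    | false => simp [h8] at h
    | true =>
      rw [h8, cond_true] at h
      have h2 := Nat.eq_of_beq_eq_true h
      rw [pop_land_eq] at h2
      exact ⟨⟨m, hm, Nat.eq_of_beq_eq_true h8, rfl⟩, h2⟩

theorem count4 : countUpTo (fun m => pred 4 (code m)) 4096 = 495 := by decide +kernel
theorem count6 : countUpTo (fun m => pred 6 (code m)) 4096 = 1584 := by decide +kernel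
theorem count8 : countUpTo (fun m => pred 8 (code m)) 4096 = 495 := by decide +kernel

theorem ncard_base (k : ℕ) : {s : Finset GolayPt | s ∈ dodecads ∧ (setOf D1 ∩ s).card = k}.ncard =
    countUpTo (fun m => pred k (code m)) 4096 := by
  rw [← ncard_code_pred]
  congr 1
  ext s
  exact mem_pred_iff

/-- Intersection numbers with the base dodecad. -/
theorem base_cases : ∀ m < 4096, pop (code m) = 12 → pop (Nat.land D1 (code m)) = 0 ∨
    pop (Nat.land D1 (code m)) = 4 ∨ pop (Nat.land D1 (code m)) = 6 ∨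
    pop (Nat.land D1 (code m)) = 8 ∨ pop (Nat.land D1 (code m)) = 12 := by
  have h : allUpTo (fun m => cond (Nat.beq (pop (code m)) 12)
      (Nat.beq (pop (Nat.land D1 (code m))) 0 || Nat.beq (pop (Nat.land D1 (code m))) 4 ||
        Nat.beq (pop (Nat.land D1 (code m))) 6 || Nat.beq (pop (Nat.land D1 (code m))) 8 ||
        Nat.beq (pop (Nat.land D1 (code m))) 12) true)
      4096 = true := by decide +kernel
  intro m hm h8
  have h1 := allUpTo_iff.mp h m hm
  rw [h8, Nat.beq_refl, cond_true] at h1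
  simp only [Bool.or_eq_true] at h1
  rcases h1 with (((h1 | h1) | h1) | h1) | h1
  · exact Or.inl (Nat.eq_of_beq_eq_true h1)
  · exact Or.inr (Or.inl (Nat.eq_of_beq_eq_true h1))
  · exact Or.inr (Or.inr (Or.inl (Nat.eq_of_beq_eq_true h1)))
  · exact Or.inr (Or.inr (Or.inr (Or.inl (Nat.eq_of_beq_eq_true h1))))
  · exact Or.inr (Or.inr (Or.inr (Or.inr (Nat.eq_of_beq_eq_true h1))))

theorem D1_mem' : setOf D1 ∈ dodecads := D1_mem

theorem card12 {s : Finset GolayPt} (hs : s ∈ dodecads) : s.card = 12 := hs.2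

/-- A dodecad with full intersection. -/
theorem eq_of_inter_twelve {a b : Finset GolayPt} (ha : a ∈ dodecads) (hb : b ∈ dodecads)
    (h : (a ∩ b).card = 12) : b = a := by
  have h1 : a ∩ b = a := Finset.eq_of_subset_of_card_le Finset.inter_subset_left
    (by rw [card12 ha, h])
  have h2 : a ∩ b = b := Finset.eq_of_subset_of_card_le Finset.inter_subset_right
    (by rw [card12 hb, h])
  rw [← h2, h1]

/-- A dodecad with empty intersection is the complement. -/
theorem eq_compl_of_inter_zero {a b : Finset GolayPt} (ha : a ∈ dodecads) (hb : b ∈ dodecads)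
    (h : (a ∩ b).card = 0) : b = aᶜ := by
  apply Finset.eq_of_subset_of_card_le
  · intro x hx
    rw [Finset.mem_compl]
    intro hxa
    have : x ∈ a ∩ b := Finset.mem_inter.mpr ⟨hxa, hx⟩
    rw [Finset.card_eq_zero.mp h] at this
    simp at this
  · rw [Finset.card_compl, card_golayPt, card12 ha, card12 hb]

theorem compl_mem {a : Finset GolayPt} (ha : a ∈ dodecads) : aᶜ ∈ dodecads :=
  ⟨Cfsg.Agent.Lib.GolayOct.Basic.CS_compl ha.1, by rw [Finset.card_compl, card_golayPt, card12 ha]⟩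

/-- Transitivity at the base dodecad. -/
theorem base_conj {a b : Finset GolayPt} (ha : a ∈ dodecads) (hb : b ∈ dodecads)
    (h : (setOf D1 ∩ a).card = (setOf D1 ∩ b).card) :
    ∃ σ ∈ M24, σ • setOf D1 = setOf D1 ∧ σ • a = b := by
  have hcases : (setOf D1 ∩ a).card = 0 ∨ (setOf D1 ∩ a).card = 4 ∨ (setOf D1 ∩ a).card = 6 ∨
      (setOf D1 ∩ a).card = 8 ∨ (setOf D1 ∩ a).card = 12 := by
    obtain ⟨m, hm, h8, rfl⟩ := mem_dodecads_iff.mp ha
    have := base_cases m hm h8
    rwa [pop_land_eq] at this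
  have key : ∀ {k : ℕ}, (∀ {m m' : ℕ}, m < 4096 → m' < 4096 → pred k (code m) = true →
      pred k (code m') = true → ∃ σ ∈ M24, σ • setOf D1 = setOf D1 ∧
        σ • setOf (code m) = setOf (code m')) → (setOf D1 ∩ a).card = k →
      ∃ σ ∈ M24, σ • setOf D1 = setOf D1 ∧ σ • a = b := by
    intro k hk h1
    obtain ⟨m, hm, hp, rfl⟩ := mem_pred_iff.mp ⟨ha, h1⟩
    obtain ⟨m', hm', hp', rfl⟩ := mem_pred_iff.mp ⟨hb, h ▸ h1⟩
    exact hk hm hm' hp hp'
  rcases hcases with h1 | h1 | h1 | h1 | h1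
  · rw [eq_compl_of_inter_zero D1_mem' ha h1, eq_compl_of_inter_zero D1_mem' hb (h ▸ h1)]
    exact ⟨1, M24.one_mem, one_smul _ _, one_smul _ _⟩
  · exact key (fun hm hm' hp hp' => exists_smul_of_cover₂ cover4 b4_code b4_lt hm hm' hp hp') h1
  · exact key (fun hm hm' hp hp' => exists_smul_of_cover₂ cover6 b6_code b6_lt hm hm' hp hp') h1
  · exact key (fun hm hm' hp hp' => exists_smul_of_cover₂ cover8 b8_code b8_lt hm hm' hp hp') h1
  · rw [eq_of_inter_twelve D1_mem' ha h1, eq_of_inter_twelve D1_mem' hb (h ▸ h1)]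
    exact ⟨1, M24.one_mem, one_smul _ _, one_smul _ _⟩

/-- **Dodecads meeting a fixed dodecad equally are conjugate under its stabiliser.** -/
theorem dodecad_conj {d d' d'' : Finset GolayPt} (hd : d ∈ dodecads) (hd' : d' ∈ dodecads)
    (hd'' : d'' ∈ dodecads) (h : (d ∩ d').card = (d ∩ d'').card) :
    ∃ g : Equiv.Perm GolayPt, g ∈ M24 ∧ g • d = d ∧ g • d' = d'' := by
  obtain ⟨τ, hτ, rfl⟩ := exists_smul_dodecad hd
  have hi := M24.inv_mem hτ
  have h1 : (setOf D1 ∩ τ⁻¹ • d').card = (τ • setOf D1 ∩ d').card := by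
    conv_rhs => rw [← smul_inv_smul τ d']
    rw [smul_inter_card]
  have h2 : (setOf D1 ∩ τ⁻¹ • d'').card = (τ • setOf D1 ∩ d'').card := by
    conv_rhs => rw [← smul_inv_smul τ d'']
    rw [smul_inter_card]
  obtain ⟨σ, hσ, h3, h4⟩ := base_conj (smul_mem_dodecads hi hd') (smul_mem_dodecads hi hd'')
    (by rw [h1, h2, h])
  refine ⟨τ * σ * τ⁻¹, M24.mul_mem (M24.mul_mem hτ hσ) hi, ?_, ?_⟩
  · rw [mul_smul, mul_smul, inv_smul_smul, h3]
  · rw [mul_smul, mul_smul, h4, smul_inv_smul]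

theorem ncard_dodecads_meet {d : Finset GolayPt} (hd : d ∈ dodecads) (k : ℕ) :
    {s : Finset GolayPt | s ∈ dodecads ∧ (d ∩ s).card = k}.ncard =
      countUpTo (fun m => pred k (code m)) 4096 := by
  obtain ⟨τ, hτ, rfl⟩ := exists_smul_dodecad hd
  rw [← ncard_base]
  have : {s : Finset GolayPt | s ∈ dodecads ∧ (τ • setOf D1 ∩ s).card = k} =
      (fun s => τ • s) '' {s : Finset GolayPt | s ∈ dodecads ∧ (setOf D1 ∩ s).card = k} := by
    ext s
    simp only [Set.mem_ofPred_eq, Set.mem_image]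
    constructor
    · rintro ⟨h1, h2⟩
      refine ⟨τ⁻¹ • s, ⟨smul_mem_dodecads (M24.inv_mem hτ) h1, ?_⟩, smul_inv_smul τ s⟩
      rw [← h2]
      conv_rhs => rw [← smul_inv_smul τ s]
      rw [smul_inter_card]
    · rintro ⟨t, ⟨h1, h2⟩, rfl⟩
      exact ⟨smul_mem_dodecads hτ h1, by rw [smul_inter_card, h2]⟩
  rw [this, Set.ncard_image_of_injective _ (MulAction.injective τ)]

/-- Intersection numbers of a dodecad with the others. -/
theorem inter_cases {d s : Finset GolayPt} (hd : d ∈ dodecads) (hs : s ∈ dodecads) :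
    (d ∩ s).card = 0 ∨ (d ∩ s).card = 4 ∨ (d ∩ s).card = 6 ∨ (d ∩ s).card = 8 ∨
      (d ∩ s).card = 12 := by
  obtain ⟨τ, hτ, rfl⟩ := exists_smul_dodecad hd
  have hi := M24.inv_mem hτ
  have h1 : (setOf D1 ∩ τ⁻¹ • s).card = (τ • setOf D1 ∩ s).card := by
    conv_rhs => rw [← smul_inv_smul τ s]
    rw [smul_inter_card]
  rw [← h1]
  obtain ⟨m, hm, h8, h2⟩ := mem_dodecads_iff.mp (smul_mem_dodecads hi hs)
  rw [h2]
  have := base_cases m hm h8
  rwa [pop_land_eq] at this

theorem main_counts {d : Finset GolayPt} (hd : d ∈ dodecads) :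
    (∀ d' ∈ dodecads, d' ≠ d → (d ∩ d').card = 0 ∨ (d ∩ d').card = 4 ∨ (d ∩ d').card = 6 ∨
      (d ∩ d').card = 8) ∧ {d' : Finset GolayPt | d' ∈ dodecads ∧ (d ∩ d').card = 4}.ncard = 495 ∧
    {d' : Finset GolayPt | d' ∈ dodecads ∧ (d ∩ d').card = 6}.ncard = 1584 ∧
    {d' : Finset GolayPt | d' ∈ dodecads ∧ (d ∩ d').card = 8}.ncard = 495 := by
  refine ⟨?_, ?_, ?_, ?_⟩
  · intro d' hd' hne
    rcases inter_cases hd hd' with h | h | h | h | h
    · exact Or.inl h
    · exact Or.inr (Or.inl h)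
    · exact Or.inr (Or.inr (Or.inl h))
    · exact Or.inr (Or.inr (Or.inr h))
    · exact absurd (eq_of_inter_twelve hd hd' h) hne
  · rw [ncard_dodecads_meet hd, count4]
  · rw [ncard_dodecads_meet hd, count6]
  · rw [ncard_dodecads_meet hd, count8]

/-! ## Complementary pairs -/

/-- The complementary pair of a set. -/
def pairOf (a : Finset GolayPt) : Finset (Finset GolayPt) := {a, aᶜ}

theorem smul_compl' (σ : Equiv.Perm GolayPt) (a : Finset GolayPt) : σ • aᶜ = (σ • a)ᶜ := by
  ext x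
  rw [Finset.mem_smul_finset, Finset.mem_compl, Finset.mem_smul_finset]
  constructor
  · rintro ⟨y, hy, rfl⟩ ⟨z, hz, hzy⟩
    have : z = y := σ.injective hzy
    subst this
    exact (Finset.mem_compl.mp hy) hz
  · intro h
    refine ⟨σ⁻¹ x, ?_, by simp⟩
    rw [Finset.mem_compl]
    intro hx
    exact h ⟨_, hx, by simp⟩

theorem smul_pairOf (σ : Equiv.Perm GolayPt) (a : Finset GolayPt) :
    σ • pairOf a = pairOf (σ • a) := by
  rw [pairOf, pairOf, Finset.smul_finset_insert, Finset.smul_finset_singleton, smul_compl']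

theorem pairOf_compl (a : Finset GolayPt) : pairOf aᶜ = pairOf a := by
  rw [pairOf, pairOf, compl_compl, Finset.pair_comm]

theorem pairOf_eq_iff {a b : Finset GolayPt} : pairOf a = pairOf b ↔ a = b ∨ a = bᶜ := by
  constructor
  · intro h
    have h1 : a ∈ pairOf b := by
      rw [← h, pairOf]
      exact Finset.mem_insert_self _ _
    rw [pairOf, Finset.mem_insert, Finset.mem_singleton] at h1
    exact h1
  · rintro (rfl | rfl)
    · rfl
    · exact pairOf_compl b

theorem inter_compl_card {d a : Finset GolayPt} (hd : d ∈ dodecads) :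
    (d ∩ aᶜ).card = 12 - (d ∩ a).card := by
  have h1 := Finset.card_sdiff_add_card_inter d a
  have h2 : d ∩ aᶜ = d \ a := by
    ext x
    simp [Finset.mem_sdiff]
  rw [h2, card12 hd] at *
  omega

theorem orbit_pair {d : Finset GolayPt} (hd : d ∈ dodecads) :
    MulAction.orbit M24 (pairOf d) = {X | ∃ a ∈ dodecads, X = pairOf a} := by
  ext X
  constructor
  · rintro ⟨g, rfl⟩
    exact ⟨(g : Equiv.Perm GolayPt) • d, smul_mem_dodecads g.2 hd, smul_pairOf _ _⟩
  · rintro ⟨a, ha, rfl⟩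
    obtain ⟨τ, hτ, rfl⟩ := exists_smul_dodecad hd
    obtain ⟨ρ, hρ, rfl⟩ := exists_smul_dodecad ha
    refine ⟨⟨ρ * τ⁻¹, M24.mul_mem hρ (M24.inv_mem hτ)⟩, ?_⟩
    show (ρ * τ⁻¹) • pairOf (τ • setOf D1) = _
    rw [smul_pairOf, mul_smul, inv_smul_smul]

/-- There is a point in each of the two complementary sets. -/
theorem mem_or_compl (a : Finset GolayPt) (p : GolayPt) : p ∈ a ∨ p ∈ aᶜ := by
  by_cases h : p ∈ a
  · exact Or.inl h
  · exact Or.inr (Finset.mem_compl.mpr h)

/-- **The stabiliser of a complementary pair of dodecads is maximal.** -/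
theorem stabilizer_pair_isCoatom {d : Finset GolayPt} (hd : d ∈ dodecads) :
    IsCoatom (MulAction.stabilizer M24 (pairOf d)) := by
  have horb := orbit_pair hd
  let P₁ : Set (Finset (Finset GolayPt)) :=
    {X | ∃ a ∈ dodecads, (d ∩ a).card = 4 ∧ X = pairOf a}
  let P₂ : Set (Finset (Finset GolayPt)) :=
    {X | ∃ a ∈ dodecads, (d ∩ a).card = 6 ∧ X = pairOf a}
  let P : Fin 2 → Set (Finset (Finset GolayPt)) := ![P₁, P₂]
  let z : Fin 2 → ℕ := ![495, 792]
  have hne1 : ∀ {a : Finset GolayPt}, a ∈ dodecads → (d ∩ a).card = 4 ∨ (d ∩ a).card = 6 →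
      pairOf d ≠ pairOf a := by
    intro a ha h heq
    rcases pairOf_eq_iff.mp heq with rfl | h2
    · rw [Finset.inter_self, card12 hd] at h
      omega
    · have : a = dᶜ := by rw [h2, compl_compl]
      rw [this, inter_compl_card hd, Finset.inter_self, card12 hd] at h
      omega
  have hsz1 : P₁.ncard = 495 := by
    have : P₁ = pairOf '' {s : Finset GolayPt | s ∈ dodecads ∧ (d ∩ s).card = 4} := by
      ext X
      simp only [P₁, Set.mem_ofPred_eq, Set.mem_image]
      constructor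
      · rintro ⟨a, ha, h4, rfl⟩
        exact ⟨a, ⟨ha, h4⟩, rfl⟩
      · rintro ⟨a, ⟨ha, h4⟩, rfl⟩
        exact ⟨a, ha, h4, rfl⟩
    rw [this, Set.InjOn.ncard_image, ncard_dodecads_meet hd, count4]
    rintro a ⟨_, ha⟩ b ⟨_, hb⟩ hab
    rcases pairOf_eq_iff.mp hab with h | h
    · exact h
    · rw [h, inter_compl_card hd, hb] at ha
      omega
  have hsz2 : P₂.ncard = 792 := by
    obtain ⟨p⟩ : Nonempty GolayPt := ⟨pt 0⟩
    set A : Set (Finset GolayPt) := {s | s ∈ dodecads ∧ (d ∩ s).card = 6} with hA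
    set Ap : Set (Finset GolayPt) := {s | s ∈ A ∧ p ∈ s} with hAp
    set An : Set (Finset GolayPt) := {s | s ∈ A ∧ p ∉ s} with hAn
    have h1 : P₂ = pairOf '' Ap := by
      ext X
      simp only [P₂, Set.mem_ofPred_eq, Set.mem_image]
      constructor
      · rintro ⟨a, ha, h4, rfl⟩
        rcases mem_or_compl a p with h | h
        · exact ⟨a, ⟨⟨ha, h4⟩, h⟩, rfl⟩
        · refine ⟨aᶜ, ⟨⟨compl_mem ha, ?_⟩, h⟩, pairOf_compl a⟩
          rw [inter_compl_card hd, h4]
      · rintro ⟨a, ⟨⟨ha, h4⟩, -⟩, rfl⟩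
        exact ⟨a, ha, h4, rfl⟩
    have h2 : P₂.ncard = Ap.ncard := by
      rw [h1, Set.InjOn.ncard_image]
      rintro a ⟨_, ha⟩ b ⟨_, hb⟩ hab
      rcases pairOf_eq_iff.mp hab with h | h
      · exact h
      · exfalso
        rw [h] at ha
        exact Finset.mem_compl.mp ha hb
    have h3 : An = compl '' Ap := by
      ext s
      simp only [hAn, hAp, hA, Set.mem_ofPred_eq, Set.mem_image]
      constructor
      · rintro ⟨⟨hs, h4⟩, hp⟩
        refine ⟨sᶜ, ⟨⟨compl_mem hs, ?_⟩, Finset.mem_compl.mpr hp⟩, compl_compl s⟩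
        rw [inter_compl_card hd, h4]
      · rintro ⟨s', ⟨⟨hs, h4⟩, hp⟩, rfl⟩
        refine ⟨⟨compl_mem hs, ?_⟩, ?_⟩
        · rw [inter_compl_card hd, h4]
        · simpa using hp
    have h4 : An.ncard = Ap.ncard := by
      rw [h3, Set.ncard_image_of_injective _ compl_injective]
    have h5 : A = Ap ∪ An := by
      ext s
      simp only [hAp, hAn, Set.mem_union, Set.mem_ofPred_eq]
      by_cases hp : p ∈ s
      · simp [hp]
      · simp [hp]
    have h6 : A.ncard = 1584 := by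
      rw [hA, ncard_dodecads_meet hd, count6]
    have h7 : Disjoint Ap An := by
      rw [Set.disjoint_left]
      rintro s ⟨_, h⟩ ⟨_, h'⟩
      exact h' h
    rw [h5, Set.ncard_union_eq h7 (Set.toFinite _) (Set.toFinite _), h4] at h6
    omega
  refine isCoatom_of_pieces (G := M24) (pairOf d) P z ?_ ?_ ?_ ?_ ?_ ?_ ?_ ?_
  · intro y hy
    rw [horb] at hy
    obtain ⟨a, ha, rfl⟩ := hy
    rcases inter_cases hd ha with h | h | h | h | h
    · left
      rw [eq_compl_of_inter_zero hd ha h, pairOf_compl]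
    · exact Or.inr ⟨0, a, ha, h, rfl⟩
    · exact Or.inr ⟨1, a, ha, h, rfl⟩
    · refine Or.inr ⟨0, aᶜ, compl_mem ha, ?_, (pairOf_compl a).symm⟩
      rw [inter_compl_card hd, h]
    · left
      rw [eq_of_inter_twelve hd ha h]
  · intro i X hX
    rw [horb]
    fin_cases i
    · obtain ⟨a, ha, -, rfl⟩ := hX
      exact ⟨a, ha, rfl⟩
    · obtain ⟨a, ha, -, rfl⟩ := hX
      exact ⟨a, ha, rfl⟩
  · intro i hX
    fin_cases i
    · obtain ⟨a, ha, h4, h⟩ := hX
      exact hne1 ha (Or.inl h4) h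
    · obtain ⟨a, ha, h4, h⟩ := hX
      exact hne1 ha (Or.inr h4) h
  · intro i j hij
    have key : Disjoint P₁ P₂ := by
      rw [Set.disjoint_left]
      rintro X ⟨a, ha, h4, rfl⟩ ⟨b, hb, h6, h⟩
      rcases pairOf_eq_iff.mp h with h' | h'
      · rw [h'] at h4
        omega
      · rw [h', inter_compl_card hd, h6] at h4
        omega
    fin_cases i <;> fin_cases j
    · exact absurd rfl hij
    · exact key
    · exact key.symm
    · exact absurd rfl hij
  · intro i y hy w hw
    have key : ∀ {a b : Finset GolayPt}, a ∈ dodecads → b ∈ dodecads →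
        (d ∩ a).card = (d ∩ b).card →
        ∃ g ∈ MulAction.stabilizer M24 (pairOf d), g • pairOf a = pairOf b := by
      intro a b ha hb hab
      obtain ⟨σ, hσ, h1, h2⟩ := dodecad_conj hd ha hb hab
      refine ⟨⟨σ, hσ⟩, ?_, ?_⟩
      · show σ • pairOf d = pairOf d
        rw [smul_pairOf, h1]
      · show σ • pairOf a = pairOf b
        rw [smul_pairOf, h2]
    fin_cases i
    · obtain ⟨a, ha, h4, rfl⟩ := hy
      obtain ⟨b, hb, h4', rfl⟩ := hw
      exact key ha hb (h4.trans h4'.symm)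
    · obtain ⟨a, ha, h4, rfl⟩ := hy
      obtain ⟨b, hb, h4', rfl⟩ := hw
      exact key ha hb (h4.trans h4'.symm)
  · intro i
    fin_cases i
    · exact hsz1
    · exact hsz2
  · have : P₁.Nonempty := by
      rw [← Set.ncard_pos (Set.toFinite _), hsz1]
      norm_num
    exact ⟨0, this⟩
  · have htotal : (MulAction.orbit M24 (pairOf d)).ncard = 1288 := by
      have hcov : MulAction.orbit M24 (pairOf d) = {pairOf d} ∪ P₁ ∪ P₂ := by
        rw [horb]
        ext X
        simp only [Set.mem_ofPred_eq, Set.mem_union, Set.mem_singleton_iff]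
        constructor
        · rintro ⟨a, ha, rfl⟩
          rcases inter_cases hd ha with h | h | h | h | h
          · left; left
            rw [eq_compl_of_inter_zero hd ha h, pairOf_compl]
          · exact Or.inl (Or.inr ⟨a, ha, h, rfl⟩)
          · exact Or.inr ⟨a, ha, h, rfl⟩
          · refine Or.inl (Or.inr ⟨aᶜ, compl_mem ha, ?_, (pairOf_compl a).symm⟩)
            rw [inter_compl_card hd, h]
          · left; left
            rw [eq_of_inter_twelve hd ha h]
        · rintro ((rfl | ⟨a, ha, -, rfl⟩) | ⟨a, ha, -, rfl⟩)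
          · exact ⟨d, hd, rfl⟩
          · exact ⟨a, ha, rfl⟩
          · exact ⟨a, ha, rfl⟩
      have hd1 : Disjoint ({pairOf d} : Set (Finset (Finset GolayPt))) P₁ := by
        rw [Set.disjoint_singleton_left]
        rintro ⟨a, ha, h4, h⟩
        exact hne1 ha (Or.inl h4) h
      have hd2 : Disjoint ({pairOf d} ∪ P₁ : Set (Finset (Finset GolayPt))) P₂ := by
        rw [Set.disjoint_left]
        rintro X (rfl | ⟨a, ha, h4, rfl⟩) ⟨b, hb, h6, h⟩
        · exact hne1 hb (Or.inr h6) h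
        · rcases pairOf_eq_iff.mp h with h' | h'
          · rw [h'] at h4
            omega
          · rw [h', inter_compl_card hd, h6] at h4
            omega
      rw [hcov, Set.ncard_union_eq hd2 (Set.toFinite _) (Set.toFinite _),
        Set.ncard_union_eq hd1 (Set.toFinite _) (Set.toFinite _), Set.ncard_singleton, hsz1, hsz2]
    rw [htotal]
    decide

end Cfsg.Agent.Lib.M24Orb.DodecadOrbits
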