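/-
Orbits of a trio stabiliser on the trios; maximality.
-/
import Cfsg.Agent.Lib.M24Orb.TrioTables
import Cfsg.Agent.Lib.M24Orb.OctadOrbits
import Cfsg.Agent.Lib.M24Orb.DodecadOrbits

set_option autoImplicit false

namespace Cfsg.Agent.Lib.M24Orb.TrioOrbits

open Cfsg Cfsg.Agent.Lib.Golay.Core Cfsg.Agent.Lib.Golay.Perm Cfsg.Agent.Lib.Golay.Chain
  Cfsg.Agent.Lib.Golay.M24 Cfsg.Agent.Lib.Golay.Basic Cfsg.Agent.Lib.Golay.Stab
  Cfsg.Agent.Lib.M24Orb.Transversal Cfsg.Agent.Lib.M24Orb.Table Cfsg.Agent.Lib.M24Orb.Pieces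
  Cfsg.Agent.Lib.M24Orb.TrioTables Cfsg.Agent.Lib.GolayOct.Trio
open Cfsg.Agent.Lib.M24Orb.DodecadOrbits (smul_compl')
open scoped Pointwise

theorem disjoint_smul' {σ : Equiv.Perm GolayPt} {a b : Finset GolayPt} :
    Disjoint (σ • a) (σ • b) ↔ Disjoint a b := by
  rw [Finset.disjoint_iff_inter_eq_empty, Finset.disjoint_iff_inter_eq_empty,
    ← Finset.smul_finset_inter, Finset.smul_finset_eq_empty]

theorem smul_mem_trios {σ : Equiv.Perm GolayPt} (hσ : σ ∈ M24)
    {S : Finset (Finset GolayPt)} (hS : S ∈ trios) : σ • S ∈ trios := by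
  obtain ⟨h3, h4, hu⟩ := hS
  refine ⟨by rw [Finset.card_smul_finset, h3], ?_, ?_⟩
  · intro t ht
    obtain ⟨u, hu', rfl⟩ := Finset.mem_smul_finset.mp ht
    exact Cfsg.Agent.Lib.Golay.Perm.smul_mem_octads hσ (h4 u hu')
  · intro t ht u hu'
    obtain ⟨a, ha, rfl⟩ := Finset.mem_smul_finset.mp ht
    obtain ⟨b, hb, rfl⟩ := Finset.mem_smul_finset.mp hu'
    intro hne
    have hab : a ≠ b := by
      rintro rfl
      exact hne rfl
    exact disjoint_smul'.mpr (hu a ha b hb hab)

theorem smul_tf (σ : Equiv.Perm GolayPt) (p : Finset GolayPt × Finset GolayPt) :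
    σ • tf p = tf (σ • p.1, σ • p.2) := by
  rw [tf, tf, Finset.smul_finset_insert, Finset.smul_finset_insert, Finset.smul_finset_singleton,
    smul_compl', Finset.smul_finset_union]

/-- A pair of disjoint octads, as masks. -/
def Good (a b : ℕ) : Prop :=
  a < 2 ^ 24 ∧ b < 2 ^ 24 ∧ setOf a ∈ octads ∧ setOf b ∈ octads ∧ Disjoint (setOf a) (setOf b)

theorem good_of_goodPair {a b : ℕ} (h : goodPair a b = true) : Good a b := by
  unfold goodPair at h
  cases h1 : Nat.blt a 16777216 with
  | false => simp [h1] at h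
  | true =>
    rw [h1, cond_true] at h
    cases h2 : Nat.blt b 16777216 with
    | false => simp [h2] at h
    | true =>
      rw [h2, cond_true] at h
      cases h3 : isCode a with
      | false => simp [h3] at h
      | true =>
        rw [h3, cond_true] at h
        cases h4 : isCode b with
        | false => simp [h4] at h
        | true =>
          rw [h4, cond_true] at h
          cases h5 : Nat.beq (pop a) 8 with
          | false => simp [h5] at h
          | true =>
            rw [h5, cond_true] at h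
            cases h6 : Nat.beq (pop b) 8 with
            | false => simp [h6] at h
            | true =>
              rw [h6, cond_true] at h
              have ha : a < 2 ^ 24 := by simpa [Nat.blt_eq] using h1
              have hb : b < 2 ^ 24 := by simpa [Nat.blt_eq] using h2
              refine ⟨ha, hb, (setOf_mem_octads_iff ha).mpr ⟨h3, Nat.eq_of_beq_eq_true h5⟩,
                (setOf_mem_octads_iff hb).mpr ⟨h4, Nat.eq_of_beq_eq_true h6⟩, ?_⟩
              rw [Finset.disjoint_iff_inter_eq_empty, ← setOf_inter]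
              have : a &&& b = 0 := Nat.eq_of_beq_eq_true h
              rw [this]
              ext p
              simp [mem_setOf]

theorem Good.smul {P a b : ℕ} (hP : checkAut P = true) (h : Good a b) :
    Good (mapMask P a) (mapMask P b) := by
  obtain ⟨h1, h2, h3, h4, h5⟩ := h
  have hv := checkAut_valid hP
  refine ⟨mapMask_lt hv a, mapMask_lt hv b, ?_, ?_, ?_⟩
  · rw [← smul_setOf hv]
    exact Cfsg.Agent.Lib.Golay.Perm.smul_mem_octads (g_mem_M24 hP) h3
  · rw [← smul_setOf hv]
    exact Cfsg.Agent.Lib.Golay.Perm.smul_mem_octads (g_mem_M24 hP) h4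
  · rw [← smul_setOf hv, ← smul_setOf hv]
    exact disjoint_smul'.mpr h5

/-- The trio of two masks. -/
def mkT (a b : ℕ) : Finset (Finset GolayPt) := tf (setOf a, setOf b)

theorem smul_mkT {P a b : ℕ} (hP : checkAut P = true) :
    g P • mkT a b = mkT (mapMask P a) (mapMask P b) := by
  rw [mkT, mkT, smul_tf]
  simp only [smul_setOf (checkAut_valid hP)]

theorem Good.mem {a b : ℕ} (h : Good a b) : mkT a b ∈ trios :=
  tf_mem (mem_DP.mpr ⟨h.2.2.1, h.2.2.2.1, h.2.2.2.2⟩)

theorem testBit_all {i : ℕ} (hi : i < 24) : Nat.testBit 16777215 i = true := by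
  have : ∀ i < 24, Nat.testBit 16777215 i = true := by decide +kernel
  exact this i hi

theorem third_eq {a b : ℕ} (h : Good a b) : (setOf a ∪ setOf b)ᶜ = setOf (third a b) := by
  ext p
  rw [Finset.mem_compl, Finset.mem_union, mem_setOf, mem_setOf, mem_setOf]
  show _ ↔ (16777215 ^^^ (a ^^^ b)).testBit (idx p) = true
  rw [Nat.testBit_xor, Nat.testBit_xor, testBit_all (idx_lt p)]
  have hd : ¬ (a.testBit (idx p) = true ∧ b.testBit (idx p) = true) := by
    rintro ⟨h1, h2⟩
    exact Finset.disjoint_left.mp h.2.2.2.2 (mem_setOf.mpr h1) (mem_setOf.mpr h2)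
  cases ha : a.testBit (idx p) <;> cases hb : b.testBit (idx p) <;> simp_all

theorem third_lt {a b : ℕ} (h : Good a b) : third a b < 2 ^ 24 := by
  show 16777215 ^^^ (a ^^^ b) < 2 ^ 24
  exact Nat.xor_lt_two_pow (by norm_num) (Nat.xor_lt_two_pow h.1 h.2.1)

/-- A hash of a family of sets. -/
noncomputable def keyT (T : Finset (Finset GolayPt)) : ℕ := ∑ o ∈ T, hh (maskOf o)

theorem keyT_mk {a b : ℕ} (h : Good a b) : keyT (mkT a b) = tkey a b := by
  have hm := h.mem
  have hT : mkT a b = {setOf a, setOf b, setOf (third a b)} := by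
    rw [mkT, tf, third_eq h]
  have hc := hm.1
  rw [hT] at hc
  have hna : setOf a ∉ ({setOf b, setOf (third a b)} : Finset (Finset GolayPt)) := by
    intro hh'
    have := Finset.card_le_card (Finset.insert_subset hh' (Finset.Subset.refl _))
    have h2 : ({setOf b, setOf (third a b)} : Finset (Finset GolayPt)).card ≤ 2 := Finset.card_le_two
    omega
  have hnb : setOf b ∉ ({setOf (third a b)} : Finset (Finset GolayPt)) := by
    intro hh'
    rw [Finset.mem_singleton] at hh'
    have h3 : ({setOf b, setOf (third a b)} : Finset (Finset GolayPt)) = {setOf b} := by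
      rw [hh']
      simp
    rw [h3] at hc
    have h4 : (insert (setOf a) ({setOf b} : Finset (Finset GolayPt))).card ≤ 2 := Finset.card_le_two
    omega
  rw [keyT, hT, Finset.sum_insert hna, Finset.sum_insert hnb, Finset.sum_singleton,
    maskOf_setOf h.1, maskOf_setOf h.2.1, maskOf_setOf (third_lt h)]
  show _ = hh a + hh b + hh (third a b)
  omega

/-- The root trio. -/
noncomputable def T0 : Finset (Finset GolayPt) := mkT O0 b0

theorem good0 : Good O0 b0 := good_of_goodPair b0_ok

theorem T0_mem : T0 ∈ trios := good0.mem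

theorem rootL_mem : ∀ r ∈ rootL, setOf r ∈ T0 := by
  intro r hr
  have hc : third O0 b0 = rootL[2] := by decide +kernel
  have e : rootL = [O0, b0, third O0 b0] := by decide +kernel
  rw [e] at hr
  simp only [List.mem_cons, List.not_mem_nil, or_false] at hr
  rw [T0, mkT, tf]
  rcases hr with rfl | rfl | rfl
  · simp
  · simp
  · rw [third_eq good0]
    simp

theorem memL_spec {c : ℕ} {l : List ℕ} (h : memL c l = true) : c ∈ l := by
  induction l with
  | nil => exact absurd h (by simp [memL])
  | cons a l ih =>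
    have e : memL c (a :: l) = cond (Nat.beq c a) true (memL c l) := rfl
    rw [e] at h
    cases hb : Nat.beq c a with
    | true => rw [Nat.eq_of_beq_eq_true hb]; exact List.mem_cons_self
    | false =>
      rw [hb, cond_false] at h
      exact List.mem_cons_of_mem _ (ih h)

theorem keep_spec (P : ℕ) (hP : checkAut P = true) (hk : keep P = true) : g P • T0 = T0 := by
  unfold keep at hk
  cases h1 : memL (mapMask P O0) rootL with
  | false =>
    rw [show (8536111 : ℕ) = O0 from rfl] at hk
    simp [h1] at hk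
  | true =>
    rw [show (8536111 : ℕ) = O0 from rfl, h1, cond_true] at hk
    have h2 := memL_spec hk
    have h1' := memL_spec h1
    rw [T0, smul_mkT hP]
    have hg := good0.smul hP
    symm
    apply eq_tf T0_mem (rootL_mem _ h1') (rootL_mem _ h2)
    intro he
    have h3 := hg.2.2.2.2
    rw [he, Finset.disjoint_self_iff_empty] at h3
    have h4 := hg.2.2.2.1.2
    rw [h3] at h4
    simp at h4

/-- The trios are an orbit. -/
theorem mem_trios_iff {y : Finset (Finset GolayPt)} : y ∈ trios ↔ y ∈ MulAction.orbit M24 T0 := by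
  constructor
  · intro hy
    obtain ⟨o, o', ho, ho', hne⟩ : ∃ o o', o ∈ y ∧ o' ∈ y ∧ o ≠ o' := by
      have : 1 < y.card := by rw [hy.1]; norm_num
      obtain ⟨o, ho, o', ho', hne⟩ := Finset.one_lt_card.mp this
      exact ⟨o, o', ho, ho', hne⟩
    have hoct := hy.2.1 o ho
    have hoct' := hy.2.1 o' ho'
    have hd := hy.2.2 o ho o' ho' hne
    obtain ⟨τ, hτ, rfl⟩ := exists_smul_O0 hoct
    have hi := M24.inv_mem hτ
    have hd' : Disjoint (setOf O0) (τ⁻¹ • o') := by
      rw [← disjoint_smul' (σ := τ), smul_inv_smul]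
      exact hd
    have hk : (setOf O0 ∩ setOf b0).card = (setOf O0 ∩ τ⁻¹ • o').card := by
      rw [Finset.disjoint_iff_inter_eq_empty.mp hd', Finset.disjoint_iff_inter_eq_empty.mp good0.2.2.2.2]
    obtain ⟨σ, hσ, h1, h2⟩ := Cfsg.Agent.Lib.M24Orb.OctadOrbits.octad_conj O0_mem good0.2.2.2.1
      (Cfsg.Agent.Lib.Golay.Perm.smul_mem_octads hi hoct') hk
    refine ⟨⟨τ * σ, M24.mul_mem hτ hσ⟩, ?_⟩
    show (τ * σ) • T0 = y
    rw [T0, mkT, smul_tf]
    simp only [mul_smul, h1, h2, smul_inv_smul]
    exact (eq_tf hy ho ho' hne).symm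
  · rintro ⟨k, rfl⟩
    exact smul_mem_trios k.2 T0_mem

/-- The base objects. -/
noncomputable def base (i : ℕ) : Finset (Finset GolayPt) := mkT (basesA i) (basesB i)

theorem bases_good (i : ℕ) : Good (basesA i) (basesB i) := by
  rcases i with _ | _ | _ | n
  · exact good_of_goodPair (bases_ok 0 (by norm_num))
  · exact good_of_goodPair (bases_ok 1 (by norm_num))
  · exact good_of_goodPair (bases_ok 2 (by norm_num))
  · exact good_of_goodPair (bases_ok 3 (by norm_num))

theorem keyT_entry {i P : ℕ} (hP : checkAut P = true) : keyT (g P • base i) = key i P := by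
  rw [base, smul_mkT hP, keyT_mk ((bases_good i).smul hP)]
  rfl

/-- The orbit data at the root trio. -/
theorem base_data : PieceData (G := M24) T0 (fun i : Fin 4 => piece base M i)
    (fun i : Fin 4 => countLab M i) := by
  refine pieceData_of_loop M_ok T0 base keep_spec ?_ ?_ trios (Set.toFinite _)
    (fun y => mem_trios_iff) (by rw [trios_ncard, length_M]) ?_
  · intro i P j Q hP hQ h
    rw [← keyT_entry hP, ← keyT_entry hQ, h]
  · intro i P hP h
    rw [← keyT_entry hP, h, T0, keyT_mk good0]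
    rfl
  · intro i _
    exact (bases_good i).mem

theorem size_eq : ∀ i : Fin 4, countLab M i = (![42, 56, 1008, 2688] : Fin 4 → ℕ) i := by
  intro i
  fin_cases i
  · exact count0
  · exact count1
  · exact count2
  · exact count3

/-- **Orbits of a trio stabiliser and maximality.** -/
theorem main (T : Finset (Finset GolayPt)) (hT : T ∈ trios) :
    ∃ X₁ ∈ trios, ∃ X₂ ∈ trios, ∃ X₃ ∈ trios, ∃ X₄ ∈ trios,
      (MulAction.orbit ↥(MulAction.stabilizer M24 T) X₁).ncard = 42 ∧
      (MulAction.orbit ↥(MulAction.stabilizer M24 T) X₂).ncard = 56 ∧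
      (MulAction.orbit ↥(MulAction.stabilizer M24 T) X₃).ncard = 1008 ∧
      (MulAction.orbit ↥(MulAction.stabilizer M24 T) X₄).ncard = 2688 ∧
      trios = {T} ∪ MulAction.orbit ↥(MulAction.stabilizer M24 T) X₁ ∪
        MulAction.orbit ↥(MulAction.stabilizer M24 T) X₂ ∪
        MulAction.orbit ↥(MulAction.stabilizer M24 T) X₃ ∪
        MulAction.orbit ↥(MulAction.stabilizer M24 T) X₄ ∧
      IsCoatom (MulAction.stabilizer M24 T) := by
  obtain ⟨τ, hτ⟩ := mem_trios_iff.mp hT
  rw [← hτ]
  have hd0 := base_data.smul τ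
  set x := τ • T0 with hx
  set P : Fin 4 → Set (Finset (Finset GolayPt)) :=
    fun i => (fun y => τ • y) '' piece base M i with hP
  set z : Fin 4 → ℕ := ![42, 56, 1008, 2688] with hz
  have hd : PieceData (G := M24) x P z := by
    have : (fun i : Fin 4 => countLab M i) = z := funext size_eq
    rw [← this]
    exact hd0
  have hcardG : Nat.card (MulAction.stabilizer M24 x) = 64512 := by
    have h1 := hd.card_stabilizer
    rw [card_M24] at h1
    have h2 : 1 + ∑ i, z i = 3795 := by decide
    rw [h2] at h1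
    omega
  have horb : ∀ i, ∀ y ∈ P i, MulAction.orbit ↥(MulAction.stabilizer M24 x) y = P i := by
    intro i y hy
    apply hd.orbit_eq _ i hy
    rw [hcardG]
    decide
  have hnon : ∀ i, (P i).Nonempty := by
    intro i
    rw [← Set.ncard_pos (hd.finite i), hd.size]
    fin_cases i <;> decide
  obtain ⟨X₁, h1⟩ := hnon 0
  obtain ⟨X₂, h2⟩ := hnon 1
  obtain ⟨X₃, h3⟩ := hnon 2
  obtain ⟨X₄, h4⟩ := hnon 3
  have hmem : ∀ i, ∀ y ∈ P i, y ∈ trios := fun i y hy =>
    mem_trios_iff.mpr (by
      have := (hd.cover y).mpr (Or.inr ⟨i, hy⟩)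
      rw [hx, MulAction.orbit_smul] at this
      exact this)
  refine ⟨X₁, hmem 0 _ h1, X₂, hmem 1 _ h2, X₃, hmem 2 _ h3, X₄, hmem 3 _ h4, ?_, ?_, ?_, ?_, ?_, ?_⟩
  · rw [horb 0 _ h1, hd.size]
    rfl
  · rw [horb 1 _ h2, hd.size]
    rfl
  · rw [horb 2 _ h3, hd.size]
    rfl
  · rw [horb 3 _ h4, hd.size]
    rfl
  · rw [horb 0 _ h1, horb 1 _ h2, horb 2 _ h3, horb 3 _ h4]
    ext y
    rw [mem_trios_iff]
    have : y ∈ MulAction.orbit M24 T0 ↔ y ∈ MulAction.orbit M24 x := by
      rw [hx, MulAction.orbit_smul]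
    rw [this, hd.cover]
    simp only [Set.mem_union, Set.mem_singleton_iff]
    constructor
    · rintro (h | ⟨i, hi⟩)
      · exact Or.inl (Or.inl (Or.inl (Or.inl h)))
      · fin_cases i
        · exact Or.inl (Or.inl (Or.inl (Or.inr hi)))
        · exact Or.inl (Or.inl (Or.inr hi))
        · exact Or.inl (Or.inr hi)
        · exact Or.inr hi
    · rintro ((((h | h) | h) | h) | h)
      · exact Or.inl h
      · exact Or.inr ⟨0, h⟩
      · exact Or.inr ⟨1, h⟩
      · exact Or.inr ⟨2, h⟩
      · exact Or.inr ⟨3, h⟩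
  · apply hd.isCoatom ⟨0, hnon 0⟩
    rw [hd.ncard_orbit]
    decide

end Cfsg.Agent.Lib.M24Orb.TrioOrbits
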