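/-
The stabiliser of a sextet: it induces the full symmetric group on the six tetrads; the kernel of the
action has order 192; the elements of order at most two in the kernel form a normal subgroup of
order 64.
-/
import Cfsg.Agent.Lib.M24Orb.SextetOrbits
import Cfsg.Agent.Lib.M24Orb.SextetStructTables

set_option autoImplicit false

namespace Cfsg.Agent.Lib.M24Orb.SextetStruct

open Cfsg Cfsg.Agent.Lib.Golay.Core Cfsg.Agent.Lib.Golay.Perm Cfsg.Agent.Lib.Golay.Chain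
  Cfsg.Agent.Lib.Golay.M24 Cfsg.Agent.Lib.Golay.Basic Cfsg.Agent.Lib.Golay.Stab
  Cfsg.Agent.Lib.M24Orb.Pieces
  Cfsg.Agent.Lib.M24Orb.SextetTables Cfsg.Agent.Lib.M24Orb.SextetStructTables
  Cfsg.Agent.Lib.M24Orb.SextetOrbits Cfsg.Agent.Lib.GolayOct.Sextet
open scoped Pointwise

/-! ### Packed permutations are determined by their values -/

theorem testBit_img (P i r : ℕ) (hr : r < 5) : (img P i).testBit r = P.testBit (5 * i + r) := by
  have h1 : img P i = (P >>> (5 * i)) &&& 31 := rfl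
  have h31 : ∀ r < 5, Nat.testBit 31 r = true := by decide
  rw [h1, Nat.testBit_and, h31 r hr, Bool.and_true, Nat.testBit_shiftRight]

theorem eq_of_img_eq {P Q : ℕ} (hP : P < 2 ^ 120) (hQ : Q < 2 ^ 120)
    (h : ∀ i < 24, img P i = img Q i) : P = Q := by
  apply Nat.eq_of_testBit_eq
  intro n
  by_cases hn : n < 120
  · have h1 : n = 5 * (n / 5) + n % 5 := (Nat.div_add_mod n 5).symm
    have h2 : n / 5 < 24 := by omega
    have h3 : n % 5 < 5 := Nat.mod_lt _ (by norm_num)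
    rw [h1, ← testBit_img P _ _ h3, ← testBit_img Q _ _ h3, h _ h2]
  · have hle : 120 ≤ n := by omega
    rw [Nat.testBit_lt_two_pow (lt_of_lt_of_le hP (Nat.pow_le_pow_right (by norm_num) hle)),
      Nat.testBit_lt_two_pow (lt_of_lt_of_le hQ (Nat.pow_le_pow_right (by norm_num) hle))]

theorem img_eq_of_g_eq {P Q : ℕ} (hP : validPerm P = true) (hQ : validPerm Q = true)
    (h : g P = g Q) {i : ℕ} (hi : i < 24) : img P i = img Q i := by
  have h1 : g P (pt i) = g Q (pt i) := by rw [h]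
  rw [g_pt hP hi, g_pt hQ hi] at h1
  exact pt_injOn (valid_img_lt hP hi) (valid_img_lt hQ hi) h1

/-! ### The root sextet -/

theorem tetList_lt : ∀ u ∈ tetList, u < 2 ^ 24 := fun u hu => (tetList_ok u hu).1

theorem sext_tet {u : ℕ} (hu : u ∈ tetList) : sext (setOf u) = S0 := by
  obtain ⟨h1, h2, h3⟩ := tetList_ok u hu
  rw [S0]
  rcases h3 with h3 | ⟨h3, h4, h5⟩
  · rw [h3]
  · have hcu : (setOf u).card = 4 := by rw [card_setOf, h2]
    have hlt : Nat.lor t0 u < 2 ^ 24 := Nat.or_lt_two_pow t0_lt h1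
    have hmem : setOf (Nat.lor t0 u) ∈ octads := (setOf_mem_octads_iff hlt).mpr ⟨h3, h4⟩
    have hun : setOf (Nat.lor t0 u) = setOf t0 ∪ setOf u := by
      ext p
      simp only [mem_setOf, Finset.mem_union]
      show (t0 ||| u).testBit (idx p) = true ↔ _
      rw [Nat.testBit_or, Bool.or_eq_true]
    rw [hun] at hmem
    exact (eq_sext (sext_mem t0_card) (mem_sext_of_union t0_card hcu hmem)).symm

theorem tet_mem {u : ℕ} (hu : u ∈ tetList) : setOf u ∈ S0 := by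
  rw [← sext_tet hu]
  exact self_mem_sext _

theorem S0_mem : S0 ∈ sextets := sext_mem t0_card

theorem tetList_nodup : tetList.Nodup := by decide +kernel

theorem mem_S0 {t : Finset GolayPt} : t ∈ S0 ↔ ∃ u ∈ tetList, t = setOf u := by
  have hF : (tetList.map Cfsg.Agent.Lib.Golay.Core.setOf).toFinset = S0 := by
    apply Finset.eq_of_subset_of_card_le
    · intro t ht
      obtain ⟨u, hu, rfl⟩ := List.mem_map.mp (List.mem_toFinset.mp ht)
      exact tet_mem hu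
    · rw [S0_mem.1, List.toFinset_card_of_nodup]
      · rw [List.length_map]
        decide +kernel
      · rw [List.nodup_map_iff_inj_on tetList_nodup]
        intro a ha b hb hab
        exact eq_of_setOf_eq (tetList_lt a ha) (tetList_lt b hb) hab
  rw [← hF, List.mem_toFinset, List.mem_map]
  constructor
  · rintro ⟨u, hu, rfl⟩
    exact ⟨u, hu, rfl⟩
  · rintro ⟨u, hu, rfl⟩
    exact ⟨u, hu, rfl⟩

theorem base_swap {a b : Finset GolayPt} (ha : a ∈ S0) (hb : b ∈ S0) (hne : a ≠ b) :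
    ∃ ρ ∈ M24, ρ • a = b ∧ ρ • b = a ∧ ∀ c ∈ S0, c ≠ a → c ≠ b → ρ • c = c := by
  obtain ⟨u, hu, rfl⟩ := mem_S0.mp ha
  obtain ⟨v, hv, rfl⟩ := mem_S0.mp hb
  have huv : u ≠ v := fun h => hne (by rw [h])
  obtain ⟨P, -, hP, h1, h2, h3⟩ := SW_ok u hu v hv huv
  have hval := checkAut_valid hP
  refine ⟨g P, g_mem_M24 hP, ?_, ?_, ?_⟩
  · rw [smul_setOf hval, h1]
  · rw [smul_setOf hval, h2]
  · intro c hc hca hcb
    obtain ⟨w, hw, rfl⟩ := mem_S0.mp hc
    rw [smul_setOf hval, h3 w hw (fun h => hca (by rw [h])) (fun h => hcb (by rw [h]))]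

/-! ### General sextets -/

theorem exists_tau {S : Finset (Finset GolayPt)} (hS : S ∈ sextets) :
    ∃ τ : Equiv.Perm GolayPt, τ ∈ M24 ∧ τ • S0 = S := by
  obtain ⟨τ, hτ⟩ := mem_sextets_iff.mp hS
  exact ⟨τ.1, τ.2, hτ⟩

theorem exists_swap {S : Finset (Finset GolayPt)} (hS : S ∈ sextets) {a b : Finset GolayPt}
    (ha : a ∈ S) (hb : b ∈ S) (hne : a ≠ b) :
    ∃ ρ ∈ M24, ρ • a = b ∧ ρ • b = a ∧ ∀ c ∈ S, c ≠ a → c ≠ b → ρ • c = c := by
  obtain ⟨τ, hτ, rfl⟩ := exists_tau hS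
  obtain ⟨a₀, ha₀, rfl⟩ := Finset.mem_smul_finset.mp ha
  obtain ⟨b₀, hb₀, rfl⟩ := Finset.mem_smul_finset.mp hb
  have hne₀ : a₀ ≠ b₀ := fun h => hne (by rw [h])
  obtain ⟨ρ, hρ, h1, h2, h3⟩ := base_swap ha₀ hb₀ hne₀
  refine ⟨τ * ρ * τ⁻¹, M24.mul_mem (M24.mul_mem hτ hρ) (M24.inv_mem hτ), ?_, ?_, ?_⟩
  · show (τ * ρ * τ⁻¹) • τ • a₀ = τ • b₀
    rw [mul_smul, mul_smul, inv_smul_smul, h1]
  · show (τ * ρ * τ⁻¹) • τ • b₀ = τ • a₀
    rw [mul_smul, mul_smul, inv_smul_smul, h2]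
  · intro c hc hca hcb
    obtain ⟨c₀, hc₀, rfl⟩ := Finset.mem_smul_finset.mp hc
    show (τ * ρ * τ⁻¹) • τ • c₀ = τ • c₀
    rw [mul_smul, mul_smul, inv_smul_smul, h3 c₀ hc₀ (fun h => hca (by rw [h]))
      (fun h => hcb (by rw [h]))]

variable {S : Finset (Finset GolayPt)}

theorem mem_iff_of_smul {σ : Equiv.Perm GolayPt} (h : σ • S = S) (t : Finset GolayPt) :
    (σ • t) ∈ S ↔ t ∈ S := by
  conv_lhs => rw [← h]
  exact Finset.smul_mem_smul_finset_iff _

theorem mem_iff_of_stab {x : ↥(MulAction.stabilizer M24 S)} (t : Finset GolayPt) :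
    ((x.1 : Equiv.Perm GolayPt) • t) ∈ S ↔ t ∈ S :=
  mem_iff_of_smul x.2 t

/-- The action on the tetrads. -/
def act (S : Finset (Finset GolayPt)) : ↥(MulAction.stabilizer M24 S) →* Equiv.Perm ↥S :=
  MonoidHom.mk' (fun x => (MulAction.toPerm (x.1 : Equiv.Perm GolayPt) :
      Equiv.Perm (Finset GolayPt)).subtypePerm (p := fun t => t ∈ S) (fun t => mem_iff_of_stab t))
    (by
      intro a b
      refine Equiv.ext fun t => Subtype.ext ?_
      exact mul_smul (a.1 : Equiv.Perm GolayPt) (b.1 : Equiv.Perm GolayPt) t.1)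

@[simp] theorem act_apply (x : ↥(MulAction.stabilizer M24 S)) (t : ↥S) :
    ((act S x t : ↥S) : Finset GolayPt) = (x.1 : Equiv.Perm GolayPt) • (t : Finset GolayPt) := rfl

theorem swap_mem_range (hS : S ∈ sextets) {a b : ↥S} (hne : a ≠ b) :
    Equiv.swap a b ∈ (act S).range := by
  have hne' : a.1 ≠ b.1 := fun h => hne (Subtype.ext h)
  obtain ⟨ρ, hρ, h1, h2, h3⟩ := exists_swap hS a.2 b.2 hne'
  have hmaps : ∀ t ∈ S, ρ • t ∈ S := by
    intro t ht
    by_cases hta : t = a.1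
    · rw [hta, h1]
      exact b.2
    by_cases htb : t = b.1
    · rw [htb, h2]
      exact a.2
    rw [h3 t ht hta htb]
    exact ht
  have hstab : ρ • S = S := by
    apply Finset.eq_of_subset_of_card_le
    · intro t ht
      obtain ⟨u, hu, rfl⟩ := Finset.mem_smul_finset.mp ht
      exact hmaps u hu
    · rw [Finset.card_smul_finset]
  refine ⟨⟨⟨ρ, hρ⟩, hstab⟩, ?_⟩
  refine Equiv.ext fun t => Subtype.ext ?_
  rw [act_apply]
  show ρ • t.1 = _
  by_cases hta : t = a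
  · subst hta
    rw [Equiv.swap_apply_left]
    exact h1
  by_cases htb : t = b
  · subst htb
    rw [Equiv.swap_apply_right]
    exact h2
  rw [Equiv.swap_apply_of_ne_of_ne hta htb]
  exact h3 t.1 t.2 (fun h => hta (Subtype.ext h)) (fun h => htb (Subtype.ext h))

theorem range_act (hS : S ∈ sextets) : (act S).range = ⊤ := by
  rw [eq_top_iff, ← Equiv.Perm.closure_isSwap, Subgroup.closure_le]
  rintro _ ⟨a, b, hne, rfl⟩
  exact swap_mem_range hS hne

theorem exists_of_perm (hS : S ∈ sextets) (e : Equiv.Perm ↥S) :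
    ∃ g ∈ MulAction.stabilizer M24 S, ∀ t : ↥S,
      (g : Equiv.Perm GolayPt) • (t : Finset GolayPt) = ((e t : ↥S) : Finset GolayPt) := by
  have : e ∈ (act S).range := by
    rw [range_act hS]
    exact Subgroup.mem_top e
  obtain ⟨x, rfl⟩ := this
  exact ⟨x.1, x.2, fun t => rfl⟩

theorem card_stabilizer (hS : S ∈ sextets) : Nat.card (MulAction.stabilizer M24 S) = 138240 := by
  obtain ⟨τ, hτ⟩ := mem_sextets_iff.mp hS
  have hτ' : τ • S0 = S := hτ
  rw [← hτ']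
  have h1 := (base_data.smul τ).card_stabilizer
  rw [card_M24] at h1
  simp only [size_eq] at h1
  have h2 : 1 + ∑ i, (![90, 240, 1440] : Fin 3 → ℕ) i = 1771 := by decide
  rw [h2] at h1
  omega

/-- The subgroup fixing each tetrad. -/
def KP (S : Finset (Finset GolayPt)) : Subgroup (Equiv.Perm GolayPt) where
  carrier := {x | x ∈ M24 ∧ ∀ t ∈ S, x • t = t}
  one_mem' := ⟨M24.one_mem, fun t _ => one_smul _ t⟩
  mul_mem' := by
    rintro a b ⟨ha, ha'⟩ ⟨hb, hb'⟩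
    refine ⟨M24.mul_mem ha hb, fun t ht => ?_⟩
    rw [mul_smul, hb' t ht, ha' t ht]
  inv_mem' := by
    rintro a ⟨ha, ha'⟩
    refine ⟨M24.inv_mem ha, fun t ht => ?_⟩
    rw [inv_smul_eq_iff, ha' t ht]

theorem mem_KP {x : Equiv.Perm GolayPt} : x ∈ KP S ↔ x ∈ M24 ∧ ∀ t ∈ S, x • t = t := Iff.rfl

theorem smul_eq_of_fix {x : Equiv.Perm GolayPt} (h : ∀ t ∈ S, x • t = t) : x • S = S := by
  ext t
  rw [Finset.mem_smul_finset]
  constructor
  · rintro ⟨u, hu, rfl⟩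
    rwa [h u hu]
  · intro ht
    exact ⟨t, ht, h t ht⟩

theorem mem_ker_act (x : ↥(MulAction.stabilizer M24 S)) :
    x ∈ (act S).ker ↔ ∀ t ∈ S, (x.1 : Equiv.Perm GolayPt) • t = t := by
  rw [MonoidHom.mem_ker]
  constructor
  · intro h t ht
    have := congrArg (fun e : Equiv.Perm ↥S => ((e ⟨t, ht⟩ : ↥S) : Finset GolayPt)) h
    exact this
  · intro h
    refine Equiv.ext fun t => Subtype.ext ?_
    exact h t.1 t.2

theorem card_ker_act (hS : S ∈ sextets) : Nat.card (act S).ker = 192 := by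
  have h1 := Subgroup.card_mul_index (act S).ker
  have hc : Nat.card ↥S = 6 := by rw [Nat.card_eq_fintype_card, Fintype.card_coe, hS.1]
  rw [Subgroup.index_ker, range_act hS, Nat.card_congr Subgroup.topEquiv.toEquiv, Nat.card_perm,
    card_stabilizer hS, hc] at h1
  have h2 : Nat.factorial 6 = 720 := by decide
  rw [h2] at h1
  omega

theorem card_fix (hS : S ∈ sextets) :
    Nat.card {g : ↥(MulAction.stabilizer M24 S) //
      ∀ t ∈ S, ((g : M24) : Equiv.Perm GolayPt) • t = t} = 192 := by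
  rw [← card_ker_act hS]
  exact Nat.card_congr (Equiv.subtypeEquivRight fun x => (mem_ker_act x).symm)

theorem card_KP (hS : S ∈ sextets) : Nat.card (KP S) = 192 := by
  rw [← card_fix hS]
  refine Nat.card_congr ⟨fun x => ⟨⟨⟨x.1, x.2.1⟩, smul_eq_of_fix x.2.2⟩, x.2.2⟩,
    fun y => ⟨y.1.1.1, y.1.1.2, y.2⟩, fun _ => rfl, fun _ => rfl⟩

/-! ### The kernel at the root sextet -/

theorem incr_spec {l : List ℕ} {prev : ℕ} (h : incr l prev = true) :
    (∀ x ∈ l, prev < x) ∧ l.Nodup := by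
  induction l generalizing prev with
  | nil => simp
  | cons a l ih =>
    have e : incr (a :: l) prev = cond (Nat.blt prev a) (incr l a) false := rfl
    rw [e] at h
    cases h1 : Nat.blt prev a with
    | false => simp [h1] at h
    | true =>
      rw [h1, cond_true] at h
      have hlt : prev < a := by simpa [Nat.blt_eq] using h1
      obtain ⟨h2, h3⟩ := ih h
      refine ⟨?_, ?_⟩
      · intro x hx
        rcases List.mem_cons.mp hx with rfl | hx
        · exact hlt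
        · exact lt_trans hlt (h2 x hx)
      · rw [List.nodup_cons]
        exact ⟨fun hmem => lt_irrefl a (h2 a hmem), h3⟩

theorem E_nodup : E.Nodup := (incr_spec E_incr).2

theorem g_injOn_E {P Q : ℕ} (hP : P ∈ E) (hQ : Q ∈ E) (h : g P = g Q) : P = Q := by
  obtain ⟨h1, h2, -⟩ := E_ok P hP
  obtain ⟨h3, h4, -⟩ := E_ok Q hQ
  exact eq_of_img_eq h2 h4 fun i hi => img_eq_of_g_eq (checkAut_valid h1) (checkAut_valid h3) h hi

theorem g_mem_KP {P : ℕ} (hP : P ∈ E) : g P ∈ KP S0 := by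
  obtain ⟨h1, -, h3⟩ := E_ok P hP
  refine ⟨g_mem_M24 h1, fun t ht => ?_⟩
  obtain ⟨u, hu, rfl⟩ := mem_S0.mp ht
  rw [smul_setOf (checkAut_valid h1), h3 u hu]

/-- The kernel at the root sextet is exactly the table. -/
theorem exists_of_mem_KP {x : Equiv.Perm GolayPt} (hx : x ∈ KP S0) : ∃ P ∈ E, x = g P := by
  classical
  have hsub : g '' ((E.toFinset : Finset ℕ) : Set ℕ) ⊆ (KP S0 : Set (Equiv.Perm GolayPt)) := by
    rintro _ ⟨P, hP, rfl⟩
    exact g_mem_KP (List.mem_toFinset.mp hP)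
  have hc1 : (g '' ((E.toFinset : Finset ℕ) : Set ℕ)).ncard = 192 := by
    rw [Set.InjOn.ncard_image, Set.ncard_coe_finset, List.toFinset_card_of_nodup E_nodup, E_length]
    intro a ha b hb hab
    exact g_injOn_E (List.mem_toFinset.mp ha) (List.mem_toFinset.mp hb) hab
  have hc2 : ((KP S0 : Subgroup _) : Set (Equiv.Perm GolayPt)).ncard = 192 := by
    rw [← Nat.card_coe_set_eq]
    exact card_KP S0_mem
  have heq := Set.eq_of_subset_of_ncard_le hsub (by rw [hc1, hc2]) (Set.toFinite _)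
  have hx' : x ∈ g '' ((E.toFinset : Finset ℕ) : Set ℕ) := by
    rw [heq]
    exact hx
  obtain ⟨P, hP, rfl⟩ := hx'
  exact ⟨P, List.mem_toFinset.mp hP, rfl⟩

theorem invol_iff {P : ℕ} (hP : validPerm P = true) : invol P = true ↔ g P * g P = 1 := by
  rw [invol, allUpTo_iff]
  constructor
  · intro h
    ext1 p
    rw [Equiv.Perm.mul_apply, g_apply hP, g_apply hP, idx_pt (valid_img_lt hP (idx_lt p)),
      Nat.eq_of_beq_eq_true (h _ (idx_lt p)), pt_idx]
    rfl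
  · intro h i hi
    have h1 : (g P * g P) (pt i) = pt i := by rw [h]; rfl
    rw [Equiv.Perm.mul_apply, g_pt hP hi, g_pt hP (valid_img_lt hP hi)] at h1
    have h2 := pt_injOn (valid_img_lt hP (valid_img_lt hP hi)) hi h1
    rw [h2]
    exact Nat.beq_refl i

/-- The set of elements of order at most two in the kernel. -/
def NP (S : Finset (Finset GolayPt)) : Set (Equiv.Perm GolayPt) := {x | x ∈ KP S ∧ x * x = 1}

theorem mem_NP_S0 {x : Equiv.Perm GolayPt} : x ∈ NP S0 ↔ ∃ P ∈ I, x = g P := by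
  constructor
  · rintro ⟨h1, h2⟩
    obtain ⟨P, hP, rfl⟩ := exists_of_mem_KP h1
    have hv := checkAut_valid (E_ok P hP).1
    exact ⟨P, List.mem_filter.mpr ⟨hP, (invol_iff hv).mpr h2⟩, rfl⟩
  · rintro ⟨P, hP, rfl⟩
    obtain ⟨h1, h2⟩ := List.mem_filter.mp hP
    have hv := checkAut_valid (E_ok P h1).1
    exact ⟨g_mem_KP h1, (invol_iff hv).mp h2⟩

theorem I_sub {P : ℕ} (hP : P ∈ I) : P ∈ E := (List.mem_filter.mp hP).1

theorem ncard_NP_S0 : (NP S0).ncard = 64 := by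
  classical
  have h : NP S0 = g '' ((I.toFinset : Finset ℕ) : Set ℕ) := by
    ext x
    rw [mem_NP_S0]
    simp only [Set.mem_image, Finset.mem_coe, List.mem_toFinset]
    constructor
    · rintro ⟨P, hP, rfl⟩
      exact ⟨P, hP, rfl⟩
    · rintro ⟨P, hP, rfl⟩
      exact ⟨P, hP, rfl⟩
  have hI : I.toFinset.card = I.length := List.toFinset_card_of_nodup (E_nodup.filter _)
  rw [h, Set.InjOn.ncard_image, Set.ncard_coe_finset, hI, I_length]
  intro a ha b hb hab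
  exact g_injOn_E (I_sub (List.mem_toFinset.mp ha)) (I_sub (List.mem_toFinset.mp hb)) hab

theorem NP_S0_comm {x y : Equiv.Perm GolayPt} (hx : x ∈ NP S0) (hy : y ∈ NP S0) : x * y = y * x := by
  obtain ⟨P, hP, rfl⟩ := mem_NP_S0.mp hx
  obtain ⟨Q, hQ, rfl⟩ := mem_NP_S0.mp hy
  have hvP := checkAut_valid (E_ok P (I_sub hP)).1
  have hvQ := checkAut_valid (E_ok Q (I_sub hQ)).1
  ext1 p
  rw [Equiv.Perm.mul_apply, Equiv.Perm.mul_apply, g_apply hvQ, g_apply hvP,
    idx_pt (valid_img_lt hvQ (idx_lt p)), g_apply hvP, g_apply hvQ,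
    idx_pt (valid_img_lt hvP (idx_lt p)), I_comm P hP Q hQ _ (idx_lt p)]

/-! ### Transport -/

theorem mem_KP_smul {τ x : Equiv.Perm GolayPt} (hτ : τ ∈ M24) {S : Finset (Finset GolayPt)} :
    x ∈ KP (τ • S) ↔ τ⁻¹ * x * τ ∈ KP S := by
  constructor
  · rintro ⟨h1, h2⟩
    refine ⟨M24.mul_mem (M24.mul_mem (M24.inv_mem hτ) h1) hτ, fun t ht => ?_⟩
    have := h2 (τ • t) (Finset.smul_mem_smul_finset ht)
    rw [mul_smul, mul_smul, this, inv_smul_smul]
  · rintro ⟨h1, h2⟩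
    have e : x = τ * (τ⁻¹ * x * τ) * τ⁻¹ := by group
    refine ⟨?_, fun t ht => ?_⟩
    · rw [e]
      exact M24.mul_mem (M24.mul_mem hτ h1) (M24.inv_mem hτ)
    · obtain ⟨u, hu, rfl⟩ := Finset.mem_smul_finset.mp ht
      have := h2 u hu
      rw [mul_smul, mul_smul, inv_smul_eq_iff] at this
      exact this

theorem mem_NP_smul {τ x : Equiv.Perm GolayPt} (hτ : τ ∈ M24) {S : Finset (Finset GolayPt)} :
    x ∈ NP (τ • S) ↔ τ⁻¹ * x * τ ∈ NP S := by
  constructor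
  · rintro ⟨h1, h2⟩
    refine ⟨(mem_KP_smul hτ).mp h1, ?_⟩
    have e : τ⁻¹ * x * τ * (τ⁻¹ * x * τ) = τ⁻¹ * (x * x) * τ := by group
    rw [e, h2]
    group
  · rintro ⟨h1, h2⟩
    refine ⟨(mem_KP_smul hτ).mpr h1, ?_⟩
    have e : τ⁻¹ * x * τ * (τ⁻¹ * x * τ) = τ⁻¹ * (x * x) * τ := by group
    rw [e] at h2
    have h3 : x * x = τ * (τ⁻¹ * (x * x) * τ) * τ⁻¹ := by group
    rw [h3, h2]
    group

theorem ncard_NP (hS : S ∈ sextets) : (NP S).ncard = 64 := by
  obtain ⟨τ, hτ, rfl⟩ := exists_tau hS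
  rw [← ncard_NP_S0]
  have : NP (τ • S0) = (fun x => τ * x * τ⁻¹) '' NP S0 := by
    ext x
    rw [mem_NP_smul hτ]
    constructor
    · intro h
      exact ⟨_, h, by group⟩
    · rintro ⟨y, hy, rfl⟩
      have e : τ⁻¹ * (τ * y * τ⁻¹) * τ = y := by group
      rwa [e]
  rw [this, Set.ncard_image_of_injective]
  intro a b h
  simpa using h

theorem NP_comm (hS : S ∈ sextets) {x y : Equiv.Perm GolayPt} (hx : x ∈ NP S) (hy : y ∈ NP S) :
    x * y = y * x := by
  obtain ⟨τ, hτ, rfl⟩ := exists_tau hS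
  have h := NP_S0_comm ((mem_NP_smul hτ).mp hx) ((mem_NP_smul hτ).mp hy)
  have e1 : x * y = τ * (τ⁻¹ * x * τ * (τ⁻¹ * y * τ)) * τ⁻¹ := by group
  have e2 : y * x = τ * (τ⁻¹ * y * τ * (τ⁻¹ * x * τ)) * τ⁻¹ := by group
  rw [e1, e2, h]

/-- The normal subgroup. -/
def N (hS : S ∈ sextets) : Subgroup ↥(MulAction.stabilizer M24 S) where
  carrier := {x | (x.1 : Equiv.Perm GolayPt) ∈ NP S}
  one_mem' := ⟨(KP S).one_mem, mul_one _⟩
  mul_mem' := by
    intro a b ha hb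
    refine ⟨(KP S).mul_mem ha.1 hb.1, ?_⟩
    have hc := NP_comm hS ha hb
    have ea : (a.1 : Equiv.Perm GolayPt) * a.1 = 1 := ha.2
    have eb : (b.1 : Equiv.Perm GolayPt) * b.1 = 1 := hb.2
    show (a.1 : Equiv.Perm GolayPt) * b.1 * (a.1 * b.1) = 1
    calc (a.1 : Equiv.Perm GolayPt) * b.1 * (a.1 * b.1)
        = a.1 * (b.1 * a.1) * b.1 := by group
      _ = a.1 * (a.1 * b.1) * b.1 := by rw [← hc]
      _ = (a.1 * a.1) * (b.1 * b.1) := by group
      _ = 1 := by rw [ea, eb, one_mul]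
  inv_mem' := by
    intro a ha
    refine ⟨(KP S).inv_mem ha.1, ?_⟩
    have ea : (a.1 : Equiv.Perm GolayPt) * a.1 = 1 := ha.2
    show (a.1 : Equiv.Perm GolayPt)⁻¹ * (a.1 : Equiv.Perm GolayPt)⁻¹ = 1
    rw [← mul_inv_rev, ea, inv_one]

theorem N_normal (hS : S ∈ sextets) : (N hS).Normal := by
  constructor
  intro n hn h
  obtain ⟨h1, h2⟩ := hn
  have hst : ((h⁻¹ : ↥(MulAction.stabilizer M24 S)).1 : Equiv.Perm GolayPt) • S = S :=
    (h⁻¹ : ↥(MulAction.stabilizer M24 S)).2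
  have hinv : ((h⁻¹ : ↥(MulAction.stabilizer M24 S)).1 : Equiv.Perm GolayPt) =
      (h.1 : Equiv.Perm GolayPt)⁻¹ := rfl
  rw [hinv] at hst
  refine ⟨⟨(M24.mul_mem (M24.mul_mem h.1.2 h1.1) (M24.inv_mem h.1.2)), fun t ht => ?_⟩, ?_⟩
  · show ((h.1 : Equiv.Perm GolayPt) * n.1 * (h.1 : Equiv.Perm GolayPt)⁻¹) • t = t
    rw [mul_smul, mul_smul, h1.2 _ ((mem_iff_of_smul hst t).mpr ht), smul_inv_smul]
  · show ((h.1 : Equiv.Perm GolayPt) * n.1 * (h.1 : Equiv.Perm GolayPt)⁻¹) *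
      ((h.1 : Equiv.Perm GolayPt) * n.1 * (h.1 : Equiv.Perm GolayPt)⁻¹) = 1
    have e : ((h.1 : Equiv.Perm GolayPt) * n.1 * (h.1 : Equiv.Perm GolayPt)⁻¹) *
      ((h.1 : Equiv.Perm GolayPt) * n.1 * (h.1 : Equiv.Perm GolayPt)⁻¹) =
        (h.1 : Equiv.Perm GolayPt) * (n.1 * n.1) * (h.1 : Equiv.Perm GolayPt)⁻¹ := by group
    rw [e, show ((n.1 : Equiv.Perm GolayPt) * n.1) = 1 from h2]
    group

theorem card_N (hS : S ∈ sextets) : Nat.card (N hS) = 64 := by
  rw [← ncard_NP hS, ← Nat.card_coe_set_eq]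
  refine Nat.card_congr ⟨fun x => ⟨x.1.1.1, x.2⟩, fun y => ⟨⟨⟨y.1, y.2.1.1⟩,
    smul_eq_of_fix y.2.1.2⟩, y.2⟩, fun _ => rfl, fun _ => rfl⟩

theorem N_sq (hS : S ∈ sextets) {x : ↥(MulAction.stabilizer M24 S)} (hx : x ∈ N hS) : x * x = 1 := by
  have h : (x.1 : Equiv.Perm GolayPt) * x.1 = 1 := hx.2
  exact Subtype.ext (Subtype.ext h)

/-- **Structure of a sextet stabiliser.** -/
theorem main (S : Finset (Finset GolayPt)) (hS : S ∈ sextets) :
    (∀ e : Equiv.Perm ↥S, ∃ g ∈ MulAction.stabilizer M24 S, ∀ t : ↥S,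
      (g : Equiv.Perm GolayPt) • (t : Finset GolayPt) = ((e t : ↥S) : Finset GolayPt)) ∧
    Nat.card {g : ↥(MulAction.stabilizer M24 S) //
      ∀ t ∈ S, ((g : M24) : Equiv.Perm GolayPt) • t = t} = 192 ∧
    ∃ N : Subgroup ↥(MulAction.stabilizer M24 S), N.Normal ∧ Nat.card N = 64 ∧
      ∀ x ∈ N, x * x = 1 :=
  ⟨exists_of_perm hS, card_fix hS, N hS, N_normal hS, card_N hS, fun _ hx => N_sq hS hx⟩

end Cfsg.Agent.Lib.M24Orb.SextetStruct
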