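/-
Overgroups of a Sylow 2-subgroup of the group of the code: a subgroup of odd index whose order is
prime to 11 and 23 lies in the stabiliser of an octad, of a sextet or of a trio.
-/
import Cfsg.Agent.Lib.M24Orb.IndexTables
import Cfsg.Agent.Lib.M24Orb.SextetStruct
import Cfsg.Agent.Lib.M24Orb.TrioOrbits
import Cfsg.Agent.Lib.M24Orb.OctadStab

set_option autoImplicit false

namespace Cfsg.Agent.Lib.M24Orb.Index

open Cfsg Cfsg.Agent.Lib.Golay.Core Cfsg.Agent.Lib.Golay.Perm Cfsg.Agent.Lib.Golay.Chain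
  Cfsg.Agent.Lib.Golay.M24 Cfsg.Agent.Lib.Golay.Basic
  Cfsg.Agent.Lib.M24Orb.Transversal Cfsg.Agent.Lib.M24Orb.IndexTables
open Cfsg.Agent.Lib.M24Orb.SextetTables (tetList memL)
open scoped Pointwise

/-! ## Abstract group theory -/

section Abstract

variable {G : Type*} [Group G]

theorem cover_of_card (A F : Subgroup G) [Finite A] (hFA : F ≤ A) (Y : Finset G)
    (hYA : ∀ y ∈ Y, y ∈ A)
    (hinj : ∀ y ∈ Y, ∀ y' ∈ Y, ∀ f ∈ F, ∀ f' ∈ F, y * f = y' * f' → y = y') :
    Y.card * Nat.card F ≤ Nat.card A ∧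
      (Nat.card A ≤ Y.card * Nat.card F → ∀ a ∈ A, ∃ y ∈ Y, ∃ f ∈ F, a = y * f) := by
  let φ : ↥Y × ↥F → ↥A := fun p => ⟨p.1.1 * p.2.1, A.mul_mem (hYA _ p.1.2) (hFA p.2.2)⟩
  have hφ : Function.Injective φ := by
    rintro ⟨⟨y, hy⟩, ⟨f, hf⟩⟩ ⟨⟨y', hy'⟩, ⟨f', hf'⟩⟩ h
    have h1 : y * f = y' * f' := congrArg Subtype.val h
    have h2 := hinj y hy y' hy' f hf f' hf' h1
    subst h2
    have h3 := mul_left_cancel h1
    subst h3
    rfl
  have hc : Nat.card (↥Y × ↥F) = Y.card * Nat.card F := by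
    rw [Nat.card_prod, Nat.card_eq_fintype_card (α := ↥Y), Fintype.card_coe]
  have : Finite ↥F := Finite.of_injective _ (Subgroup.inclusion_injective hFA)
  constructor
  · rw [← hc]
    exact Nat.card_le_card_of_injective φ hφ
  · intro hle a ha
    have hb := hφ.bijective_of_nat_card_le (by rw [hc]; exact hle)
    obtain ⟨⟨⟨y, hy⟩, ⟨f, hf⟩⟩, h⟩ := hb.2 ⟨a, ha⟩
    exact ⟨y, hy, f, hf, (congrArg Subtype.val h).symm⟩

theorem three_mul_card_le {H A S : Subgroup G} [Finite H] (hS : S ≤ H) (hSA : S ≤ A) {m : ℕ}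
    (hcard : Nat.card H = Nat.card S * m) (hodd : Odd m) (hA : ¬ H ≤ A) :
    3 * Nat.card ↥(H ⊓ A) ≤ Nat.card H := by
  have hle : H ⊓ A ≤ H := inf_le_left
  have hf : Finite ↥(H ⊓ A) := Finite.of_injective _ (Subgroup.inclusion_injective hle)
  have hfS : Finite ↥S := Finite.of_injective _ (Subgroup.inclusion_injective hS)
  have h1 : Nat.card ↥(H ⊓ A) ∣ Nat.card H := Subgroup.card_dvd_of_le hle
  have h2 : Nat.card S ∣ Nat.card ↥(H ⊓ A) := Subgroup.card_dvd_of_le (le_inf hS hSA)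
  obtain ⟨k, hk⟩ := h1
  obtain ⟨a, ha⟩ := h2
  have hS0 : 0 < Nat.card S := Nat.card_pos
  have hm : m = a * k := by
    apply Nat.eq_of_mul_eq_mul_left hS0
    rw [← hcard, hk, ha, Nat.mul_assoc]
  have hkodd : Odd k := by
    rw [hm] at hodd
    exact (Nat.odd_mul.mp hodd).2
  have hk1 : k ≠ 1 := by
    rintro rfl
    apply hA
    have : H ⊓ A = H := Subgroup.eq_of_le_of_card_ge hle (by rw [hk, Nat.mul_one])
    exact this ▸ inf_le_right
  have hk3 : 3 ≤ k := by
    obtain ⟨j, rfl⟩ := hkodd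
    omega
  rw [hk, Nat.mul_comm]
  exact Nat.mul_le_mul_left _ hk3

theorem exists_not_mem_three {H A B C S : Subgroup G} [Finite H] (hS : S ≤ H) (hSA : S ≤ A)
    (hSB : S ≤ B) (hSC : S ≤ C) {m : ℕ} (hcard : Nat.card H = Nat.card S * m) (hodd : Odd m)
    (hA : ¬ H ≤ A) (hB : ¬ H ≤ B) (hC : ¬ H ≤ C) : ∃ x ∈ H, x ∉ A ∧ x ∉ B ∧ x ∉ C := by
  by_contra hcon
  push Not at hcon
  have h1 := three_mul_card_le hS hSA hcard hodd hA
  have h2 := three_mul_card_le hS hSB hcard hodd hB
  have h3 := three_mul_card_le hS hSC hcard hodd hC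
  have hfin : ∀ K : Subgroup G, K ≤ H → ((K : Set G) \ {1}).Finite := by
    intro K hK
    exact (Set.toFinite (H : Set G)).subset (fun x hx => hK hx.1)
  have hnc : ∀ K : Subgroup G, K ≤ H → ((K : Set G) \ {1}).ncard + 1 = Nat.card K := by
    intro K hK
    have hf : (K : Set G).Finite := (Set.toFinite (H : Set G)).subset hK
    rw [Set.ncard_sdiff_singleton_add_one (Subgroup.one_mem K) hf]
    exact (Nat.card_coe_set_eq (K : Set G)).symm
  have hcov : ((H : Set G) \ {1}) ⊆ (((H ⊓ A : Subgroup G) : Set G) \ {1}) ∪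
      ((((H ⊓ B : Subgroup G) : Set G) \ {1}) ∪ (((H ⊓ C : Subgroup G) : Set G) \ {1})) := by
    rintro x ⟨hx, hx1⟩
    by_cases hxA : x ∈ A
    · exact Or.inl ⟨⟨hx, hxA⟩, hx1⟩
    by_cases hxB : x ∈ B
    · exact Or.inr (Or.inl ⟨⟨hx, hxB⟩, hx1⟩)
    exact Or.inr (Or.inr ⟨⟨hx, hcon x hx hxA hxB⟩, hx1⟩)
  have hle := Set.ncard_le_ncard hcov
    (((hfin _ inf_le_left).union ((hfin _ inf_le_left).union (hfin _ inf_le_left))))
  have hu1 := Set.ncard_union_le (((H ⊓ A : Subgroup G) : Set G) \ {1})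
    ((((H ⊓ B : Subgroup G) : Set G) \ {1}) ∪ (((H ⊓ C : Subgroup G) : Set G) \ {1}))
  have hu2 := Set.ncard_union_le (((H ⊓ B : Subgroup G) : Set G) \ {1})
    (((H ⊓ C : Subgroup G) : Set G) \ {1})
  have e0 := hnc H le_rfl
  have e1 := hnc (H ⊓ A) inf_le_left
  have e2 := hnc (H ⊓ B) inf_le_left
  have e3 := hnc (H ⊓ C) inf_le_left
  omega

/-- Two subgroups of order the full power of `p`: one is conjugate into the other's overgroup. -/
theorem exists_conj_le [Finite G] (H K : Subgroup G) (p n : ℕ) [Fact p.Prime]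
    (hG : (Nat.card G).factorization p = n) (hK : Nat.card K = p ^ n)
    (hH : p ^ n ∣ Nat.card H) : ∃ x : G, ∀ k ∈ K, x * k * x⁻¹ ∈ H := by
  obtain ⟨Q, hQ⟩ := Sylow.exists_subgroup_card_pow_prime p hH
  have hQ' : Nat.card (Q.map H.subtype) = p ^ n := by
    rw [Subgroup.card_map_of_injective H.subtype_injective, hQ]
  let P₁ : Sylow p G := Sylow.ofCard K (by rw [hK, hG])
  let P₂ : Sylow p G := Sylow.ofCard (Q.map H.subtype) (by rw [hQ', hG])
  obtain ⟨x, hx⟩ := MulAction.exists_smul_eq G P₁ P₂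
  refine ⟨x, fun k hk => ?_⟩
  have h1 : x * k * x⁻¹ ∈ (P₂ : Subgroup G) := by
    rw [← hx, Sylow.coe_subgroup_smul]
    have h0 : (MulAut.conj x) • k ∈ MulAut.conj x • (P₁ : Subgroup G) :=
      Subgroup.smul_mem_pointwise_smul k _ _ hk
    simpa [MulAut.smul_def, MulAut.conj_apply] using h0
  obtain ⟨q, -, hq⟩ := Subgroup.mem_map.mp h1
  rw [← hq]
  exact q.2

end Abstract

/-! ## Families of masks -/

/-- The family of sets with masks in `l`. -/
def fam (l : List ℕ) : Finset (Finset GolayPt) :=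
  (l.map Cfsg.Agent.Lib.Golay.Core.setOf).toFinset

theorem mem_fam {l : List ℕ} {s : Finset GolayPt} : s ∈ fam l ↔ ∃ u ∈ l, setOf u = s := by
  simp [fam]

theorem memL_spec {c : ℕ} {l : List ℕ} (h : memL c l = true) : c ∈ l :=
  Cfsg.Agent.Lib.M24Orb.SextetOrbits.memL_spec h

theorem smul_fam {P : ℕ} (hP : validPerm P = true) (l : List ℕ) :
    g P • fam l = fam (l.map (mapMask P)) := by
  ext s
  rw [Finset.mem_smul_finset, mem_fam]
  constructor
  · rintro ⟨t, ht, rfl⟩
    obtain ⟨u, hu, rfl⟩ := mem_fam.mp ht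
    exact ⟨_, List.mem_map.mpr ⟨u, hu, rfl⟩, (smul_setOf hP u).symm⟩
  · rintro ⟨v, hv, rfl⟩
    obtain ⟨u, hu, rfl⟩ := List.mem_map.mp hv
    exact ⟨setOf u, mem_fam.mpr ⟨u, hu, rfl⟩, smul_setOf hP u⟩

theorem keepL_spec {P : ℕ} {l : List ℕ} (hP : validPerm P = true) (h : keepL P l = true) :
    g P • fam l = fam l := by
  apply Finset.eq_of_subset_of_card_le
  · intro s hs
    obtain ⟨t, ht, rfl⟩ := Finset.mem_smul_finset.mp hs
    obtain ⟨u, hu, rfl⟩ := mem_fam.mp ht
    show g P • setOf u ∈ fam l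
    rw [smul_setOf hP]
    exact mem_fam.mpr ⟨_, memL_spec (allL_iff.mp h u hu), rfl⟩
  · rw [Finset.card_smul_finset]

theorem mapMask_inj {P a b : ℕ} (hP : validPerm P = true) (ha : a < 2 ^ 24) (hb : b < 2 ^ 24)
    (h : mapMask P a = mapMask P b) : a = b := by
  apply eq_of_setOf_eq ha hb
  have h1 : g P • setOf a = g P • setOf b := by
    rw [smul_setOf hP, smul_setOf hP, h]
  exact smul_left_cancel _ h1

theorem ksum_eq_sum (P : ℕ) (l : List ℕ) : ksum P l = ((l.map (mapMask P)).map hsh).sum := by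
  induction l with
  | nil => rfl
  | cons u l ih =>
    have e : ksum P (u :: l) = hsh (mapMask P u) + ksum P l := rfl
    rw [e, ih]
    simp

theorem ksum_congr {P Q : ℕ} {l : List ℕ} (hP : validPerm P = true) (hQ : validPerm Q = true)
    (hl : l.Nodup) (hlt : ∀ u ∈ l, u < 2 ^ 24) (h : g P • fam l = g Q • fam l) :
    ksum P l = ksum Q l := by
  rw [smul_fam hP, smul_fam hQ] at h
  have hn : ∀ {R : ℕ}, validPerm R = true → (l.map (mapMask R)).Nodup := by
    intro R hR
    exact List.Nodup.map_on (fun a ha b hb hab => mapMask_inj hR (hlt a ha) (hlt b hb) hab) hl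
  have hsub : ∀ {R S : ℕ}, validPerm R = true → validPerm S = true →
      fam (l.map (mapMask R)) = fam (l.map (mapMask S)) →
      ∀ c, c ∈ l.map (mapMask R) → c ∈ l.map (mapMask S) := by
    intro R S hR hS he c hc
    have h1 : setOf c ∈ fam (l.map (mapMask S)) := by
      rw [← he]
      exact mem_fam.mpr ⟨c, hc, rfl⟩
    obtain ⟨d, hd, hds⟩ := mem_fam.mp h1
    obtain ⟨u, hu, rfl⟩ := List.mem_map.mp hd
    obtain ⟨v, hv, rfl⟩ := List.mem_map.mp hc
    rw [eq_of_setOf_eq (mapMask_lt hR v) (mapMask_lt hS u) hds.symm]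
    exact List.mem_map.mpr ⟨u, hu, rfl⟩
  have hperm : (l.map (mapMask P)).Perm (l.map (mapMask Q)) := by
    apply List.perm_of_nodup_nodup_toFinset_eq (hn hP) (hn hQ)
    ext c
    simp only [List.mem_toFinset]
    exact ⟨hsub hP hQ h c, hsub hQ hP h.symm c⟩
  rw [ksum_eq_sum, ksum_eq_sum]
  exact (hperm.map hsh).sum_eq

/-! ## The chamber stabiliser -/

/-- The stabiliser of a family of masks. -/
def St (l : List ℕ) : Subgroup (Equiv.Perm GolayPt) := MulAction.stabilizer _ (fam l)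

theorem mem_St {l : List ℕ} {x : Equiv.Perm GolayPt} : x ∈ St l ↔ x • fam l = fam l :=
  MulAction.mem_stabilizer_iff

/-- The stabiliser of the chamber. -/
def F : Subgroup (Equiv.Perm GolayPt) := M24 ⊓ St oL ⊓ St tetList ⊓ St t1L ⊓ St pL

theorem okF_spec {P : ℕ} (h : okF P = true) : checkAut P = true ∧ g P ∈ F := by
  unfold okF at h
  cases h1 : checkAut P with
  | false => simp [h1] at h
  | true =>
    rw [h1, cond_true] at h
    cases h2 : keepL P oL with
    | false => simp [h2] at h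
    | true =>
      rw [h2, cond_true] at h
      cases h3 : keepL P tetList with
      | false => simp [h3] at h
      | true =>
        rw [h3, cond_true] at h
        cases h4 : keepL P t1L with
        | false => simp [h4] at h
        | true =>
          rw [h4, cond_true] at h
          have hv := checkAut_valid h1
          exact ⟨rfl, ⟨⟨⟨g_mem_M24 h1, mem_St.mpr (keepL_spec hv h2)⟩, mem_St.mpr (keepL_spec hv h3)⟩,
            mem_St.mpr (keepL_spec hv h4)⟩, mem_St.mpr (keepL_spec hv h)⟩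

theorem F_le_M24 : F ≤ M24 := fun _ hx => hx.1.1.1.1

theorem tet_nodup : tetList.Nodup := by decide +kernel
theorem t1L_nodup : t1L.Nodup := by decide +kernel
theorem pL_nodup : pL.Nodup := by decide +kernel
theorem tet_lt : ∀ u ∈ tetList, u < 2 ^ 24 := by decide +kernel
theorem t1L_lt : ∀ u ∈ t1L, u < 2 ^ 24 := by decide +kernel
theorem pL_lt : ∀ u ∈ pL, u < 2 ^ 24 := by decide +kernel

theorem key_congr {P Q : ℕ} (hP : validPerm P = true) (hQ : validPerm Q = true) {x : Equiv.Perm GolayPt}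
    (hx : x ∈ F) (h : g P * x = g Q) : key P = key Q := by
  have hs : ∀ {l}, x ∈ St l → g P • fam l = g Q • fam l := by
    intro l hl
    rw [← h, mul_smul, mem_St.mp hl]
  have h1 := ksum_congr hP hQ tet_nodup tet_lt (hs hx.1.1.2)
  have h2 := ksum_congr hP hQ t1L_nodup t1L_lt (hs hx.1.2)
  have h3 := ksum_congr hP hQ pL_nodup pL_lt (hs hx.2)
  unfold key
  rw [h1, h2, h3]

/-! ## Sorted lists -/

theorem sortedBy_spec {ok : ℕ → Bool} {k : ℕ → ℕ} {l : List ℕ} {prev : ℕ}
    (h : sortedBy ok k l prev = true) :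
    (∀ e ∈ l, ok e = true ∧ prev < k e) ∧ (l.map k).Nodup := by
  induction l generalizing prev with
  | nil => simp
  | cons e l ih =>
    have e1 : sortedBy ok k (e :: l) prev =
        cond (ok e) (force (k e) fun v => cond (Nat.blt prev v) (sortedBy ok k l v) false) false :=
      rfl
    rw [e1] at h
    cases h1 : ok e with
    | false => simp [h1] at h
    | true =>
      rw [h1, cond_true, force_eq] at h
      cases h2 : Nat.blt prev (k e) with
      | false => simp [h2] at h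
      | true =>
        rw [h2, cond_true] at h
        obtain ⟨h3, h4⟩ := ih h
        have hlt : prev < k e := by simpa [Nat.blt_eq] using h2
        constructor
        · intro x hx
          rcases List.mem_cons.mp hx with rfl | hx
          · exact ⟨h1, hlt⟩
          · exact ⟨(h3 x hx).1, lt_trans hlt (h3 x hx).2⟩
        · rw [List.map_cons, List.nodup_cons]
          refine ⟨?_, h4⟩
          intro hmem
          obtain ⟨x, hx, hx2⟩ := List.mem_map.mp hmem
          have := (h3 x hx).2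
          omega

/-! ## The order of the chamber stabiliser -/

/-- The octad stabiliser. -/
abbrev A : Subgroup (Equiv.Perm GolayPt) := Cfsg.Agent.Lib.M24Orb.OctadStab.StabO (setOf O0)

theorem oL_eq : fam oL = {setOf O0} := by
  simp [fam, oL, show (8536111 : ℕ) = O0 from rfl]

theorem mem_A {x : Equiv.Perm GolayPt} : x ∈ A ↔ x ∈ M24 ∧ x • setOf O0 = setOf O0 :=
  Iff.rfl

theorem F_le_A : F ≤ A := by
  rintro x hx
  refine mem_A.mpr ⟨F_le_M24 hx, ?_⟩
  have h1 : x • fam oL = fam oL := mem_St.mp hx.1.1.1.2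
  rw [oL_eq, Finset.smul_finset_singleton] at h1
  exact Finset.singleton_injective h1

theorem card_A : Nat.card A = 322560 := Cfsg.Agent.Lib.M24Orb.OctadStab.card_StabO O0_mem

/-- Coset representatives as a finite set. -/
noncomputable def Yf : Finset (Equiv.Perm GolayPt) := Y.toFinset.image g

theorem Y_spec {P : ℕ} (hP : P ∈ Y) : checkAut P = true ∧ g P ∈ A := by
  have h := ((sortedBy_spec Y_ok).1 P hP).1
  unfold okA at h
  cases h1 : checkAut P with
  | false => simp [h1] at h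
  | true =>
    rw [h1, cond_true] at h
    refine ⟨rfl, mem_A.mpr ⟨g_mem_M24 h1, ?_⟩⟩
    rw [smul_setOf (checkAut_valid h1)]
    show setOf (mapMask P 8536111) = setOf 8536111
    rw [Nat.eq_of_beq_eq_true h]

theorem Y_g_inj {P Q : ℕ} (hP : P ∈ Y) (hQ : Q ∈ Y) {x : Equiv.Perm GolayPt} (hx : x ∈ F)
    (h : g P * x = g Q) : P = Q :=
  List.inj_on_of_nodup_map (sortedBy_spec Y_ok).2 hP hQ
    (key_congr (checkAut_valid (Y_spec hP).1) (checkAut_valid (Y_spec hQ).1) hx h)

theorem card_Yf : Yf.card = 315 := by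
  unfold Yf
  rw [Finset.card_image_of_injOn, List.toFinset_card_of_nodup, Y_len]
  · exact List.Nodup.of_map _ (sortedBy_spec Y_ok).2
  · intro P hP Q hQ h
    exact Y_g_inj (List.mem_toFinset.mp hP) (List.mem_toFinset.mp hQ) F.one_mem
      (by rw [mul_one]; exact h)

theorem Yf_data : Yf.card * Nat.card F ≤ Nat.card A ∧
    (Nat.card A ≤ Yf.card * Nat.card F → ∀ a ∈ A, ∃ y ∈ Yf, ∃ f ∈ F, a = y * f) := by
  apply cover_of_card A F F_le_A Yf
  · intro y hy
    obtain ⟨P, hP, rfl⟩ := Finset.mem_image.mp hy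
    exact (Y_spec (List.mem_toFinset.mp hP)).2
  · intro y hy y' hy' f hf f' hf' h
    obtain ⟨P, hP, rfl⟩ := Finset.mem_image.mp hy
    obtain ⟨Q, hQ, rfl⟩ := Finset.mem_image.mp hy'
    have h1 : g P * (f * f'⁻¹) = g Q := by
      rw [← mul_assoc, h, mul_inv_cancel_right]
    rw [Y_g_inj (List.mem_toFinset.mp hP) (List.mem_toFinset.mp hQ) (F.mul_mem hf (F.inv_mem hf')) h1]

theorem L_spec {P : ℕ} (hP : P ∈ L) : P < 2 ^ 120 ∧ okF P = true := by
  have h := ((sortedBy_spec L_ok).1 P hP).1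
  unfold okL at h
  cases h1 : Nat.blt P 1329227995784915872903807060280344576 with
  | false => simp [h1] at h
  | true =>
    rw [h1, cond_true] at h
    exact ⟨by simpa [Nat.blt_eq] using h1, h⟩

theorem card_F_ge : 1024 ≤ Nat.card F := by
  classical
  have hsub : ((L.toFinset.image g : Finset _) : Set (Equiv.Perm GolayPt)) ⊆ (F : Set _) := by
    intro x hx
    obtain ⟨P, hP, rfl⟩ := Finset.mem_image.mp hx
    exact (okF_spec (L_spec (List.mem_toFinset.mp hP)).2).2
  have h1 := Set.ncard_le_ncard hsub (Set.toFinite _)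
  rw [Set.ncard_coe_finset, Finset.card_image_of_injOn, List.toFinset_card_of_nodup, L_len] at h1
  · exact h1.trans_eq (Nat.card_coe_set_eq (F : Set (Equiv.Perm GolayPt))).symm
  · exact List.Nodup.of_map _ (sortedBy_spec L_ok).2
  · intro P hP Q hQ h
    have hP' := L_spec (List.mem_toFinset.mp hP)
    have hQ' := L_spec (List.mem_toFinset.mp hQ)
    exact Cfsg.Agent.Lib.M24Orb.SextetStruct.eq_of_img_eq hP'.1 hQ'.1
      (fun i hi => Cfsg.Agent.Lib.M24Orb.SextetStruct.img_eq_of_g_eq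
        (checkAut_valid (okF_spec hP'.2).1) (checkAut_valid (okF_spec hQ'.2).1) h hi)

theorem card_F : Nat.card F = 1024 := by
  have h1 := Yf_data.1
  rw [card_Yf, card_A] at h1
  have h2 := card_F_ge
  generalize Nat.card ↥F = n at h1 h2 ⊢
  omega

theorem cover_A {a : Equiv.Perm GolayPt} (ha : a ∈ A) : ∃ P ∈ Y, ∃ f ∈ F, a = g P * f := by
  obtain ⟨y, hy, f, hf, h⟩ := Yf_data.2 (by rw [card_Yf, card_A, card_F]) a ha
  obtain ⟨P, hP, rfl⟩ := Finset.mem_image.mp hy
  exact ⟨P, List.mem_toFinset.mp hP, f, hf, h⟩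

/-! ## The orbits on the octads -/

theorem testBit_markE {l : List (ℕ × List ℕ × List ℕ)} {m : ℕ} (h : (markE l).testBit m = true) :
    ∃ e ∈ l, ∃ P ∈ e.2.1, Nat.land (mapMask P (mapMask e.1 8536111)) 4095 = m := by
  induction l with
  | nil => simp [markE] at h
  | cons e l ih =>
    have e1 : markE (e :: l) = (markE l) ||| (markImgs (mapMask e.1 8536111) e.2.1) := rfl
    rw [e1, Nat.testBit_or, Bool.or_eq_true] at h
    rcases h with h | h
    · obtain ⟨e', he', P, hP, hPm⟩ := ih h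
      exact ⟨e', List.mem_cons_of_mem _ he', P, hP, hPm⟩
    · obtain ⟨P, hP, hPm⟩ := testBit_markImgs _ _ _ h
      exact ⟨e, List.mem_cons_self, P, hP, hPm⟩

theorem allE_spec {l : List (ℕ × List ℕ × List ℕ)} (h : allE l = true) : ∀ e ∈ l, entryOK e = true := by
  induction l with
  | nil => simp
  | cons e l ih =>
    have e1 : allE (e :: l) = cond (entryOK e) (allE l) false := rfl
    rw [e1] at h
    cases h1 : entryOK e with
    | false => simp [h1] at h
    | true =>
      rw [h1, cond_true] at h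
      intro x hx
      rcases List.mem_cons.mp hx with rfl | hx
      · exact h1
      · exact ih h x hx

theorem entry_spec {e : ℕ × List ℕ × List ℕ} (h : entryOK e = true) :
    checkAut e.1 = true ∧ (∀ P ∈ e.2.1, okF P = true) ∧ certL e.1 Y e.2.2 = true := by
  unfold entryOK at h
  cases h1 : checkAut e.1 with
  | false => simp [h1] at h
  | true =>
    rw [h1, cond_true] at h
    cases h2 : allL okF e.2.1 with
    | false => simp [h2] at h
    | true =>
      rw [h2, cond_true] at h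
      exact ⟨rfl, allL_iff.mp h2, h⟩

theorem isCode_O0 : isCode 8536111 = true := by decide +kernel

theorem octad_cover {o : Finset GolayPt} (ho : o ∈ octads) (hne : o ≠ setOf O0) :
    ∃ e ∈ E, ∃ P ∈ e.2.1, o = g P • g e.1 • setOf O0 := by
  have h0 := setOf_maskOf o
  have hlt := maskOf_lt o
  have hoct : setOf (maskOf o) ∈ octads := by rw [h0]; exact ho
  obtain ⟨hc, hp⟩ := (setOf_mem_octads_iff hlt).mp hoct
  obtain ⟨m, hm, hme⟩ := isCode_iff.mp hc
  have hc1 := force_eq (markE E) coverC ▸ cover_ok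
  have h1 := allUpTo_iff.mp hc1 m hm
  have hp' : pop (code m) = 8 := by rw [← hme]; exact hp
  rw [hp', Nat.beq_refl, cond_true] at h1
  have hne' : code m ≠ 8536111 := by
    intro he
    apply hne
    rw [← h0, hme, he]
    rfl
  have hb : Nat.beq (code m) 8536111 = false := by
    cases hh : Nat.beq (code m) 8536111 with
    | false => rfl
    | true => exact absurd (Nat.eq_of_beq_eq_true hh) hne'
  rw [hb, cond_false] at h1
  obtain ⟨e, he, P, hP, hPm⟩ := testBit_markE h1
  obtain ⟨h2, h3, -⟩ := entry_spec (allE_spec E_ok e he)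
  have hPk := (okF_spec (h3 P hP)).1
  refine ⟨e, he, P, hP, ?_⟩
  have hv1 := checkAut_valid h2
  have hv2 := checkAut_valid hPk
  have hi1 : isCode (mapMask e.1 8536111) = true :=
    isCode_mapMask h2 isCode_O0 (by decide +kernel)
  have hi2 : isCode (mapMask P (mapMask e.1 8536111)) = true :=
    isCode_mapMask hPk hi1 (mapMask_lt hv1 _)
  have h4 := code_land_of_isCode hi2
  rw [hPm] at h4
  rw [smul_setOf hv1, smul_setOf hv2, show (O0 : ℕ) = 8536111 from rfl, ← h4, ← hme, h0]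

/-! ## The certificates -/

theorem img_idc : ∀ i < 24, img idc i = i := by decide +kernel

theorem valid_idc : validPerm idc = true := by decide +kernel

theorem g_idc : g idc = 1 := by
  ext p
  rw [g_apply valid_idc, img_idc _ (idx_lt p), pt_idx]
  rfl

theorem ord23_spec {x : ℕ} (hx : validPerm x = true) (h : ord23 x = true) : (g x) ^ 23 = 1 := by
  unfold ord23 at h
  simp only [force_eq] at h
  have h1 := Nat.eq_of_beq_eq_true h
  have v2 := valid_comp hx hx
  have v4 := valid_comp v2 v2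
  have v8 := valid_comp v4 v4
  have v16 := valid_comp v8 v8
  have v3 := valid_comp v2 hx
  have v7 := valid_comp v4 v3
  have h2 := congrArg g h1
  rw [g_comp v16 v7, g_comp v8 v8, g_comp v4 v3, g_comp v4 v4, g_comp v2 hx, g_comp v2 v2,
    g_comp hx hx, g_idc] at h2
  rw [← h2]
  simp only [pow_succ, pow_zero, one_mul, mul_assoc]

theorem ord11_spec {x : ℕ} (hx : validPerm x = true) (h : ord11 x = true) : (g x) ^ 11 = 1 := by
  unfold ord11 at h
  simp only [force_eq] at h
  have h1 := Nat.eq_of_beq_eq_true h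
  have v2 := valid_comp hx hx
  have v4 := valid_comp v2 v2
  have v8 := valid_comp v4 v4
  have v3 := valid_comp v2 hx
  have h2 := congrArg g h1
  rw [g_comp v8 v3, g_comp v4 v4, g_comp v2 hx, g_comp v2 v2, g_comp hx hx, g_idc] at h2
  rw [← h2]
  simp only [pow_succ, pow_zero, one_mul, mul_assoc]

theorem sel_mem {l : List ℕ} {c : ℕ} (h : c < l.length) : sel l c ∈ l := by
  induction l generalizing c with
  | nil => simp at h
  | cons a l ih =>
    cases c with
    | zero => exact List.mem_cons_self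
    | succ n =>
      exact List.mem_cons_of_mem _ (ih (by simpa using h))

theorem certL_spec {G : ℕ} {l cs : List ℕ} (h : certL G l cs = true) :
    ∀ y ∈ l, ∃ c, certOK G y c = true := by
  induction l generalizing cs with
  | nil => simp
  | cons y l ih =>
    cases cs with
    | nil => exact absurd h (by simp [certL])
    | cons c cs =>
      have e1 : certL G (y :: l) (c :: cs) = cond (certOK G y c) (certL G l cs) false := rfl
      rw [e1] at h
      cases h1 : certOK G y c with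
      | false => simp [h1] at h
      | true =>
        rw [h1, cond_true] at h
        intro x hx
        rcases List.mem_cons.mp hx with rfl | hx
        · exact ⟨c, h1⟩
        · exact ih h x hx

theorem certOK_spec {G y c : ℕ} (hG : validPerm G = true) (hy : validPerm y = true)
    (h : certOK G y c = true) :
    (∃ s ∈ Ss, validPerm s = true → (g G * g y * g s) ^ 23 = 1 ∨ (g G * g y * g s) ^ 11 = 1) ∨
      g G * g y ∈ St tetList ∨ g G * g y ∈ St t1L := by
  unfold Cfsg.Agent.Lib.M24Orb.IndexTables.certOK at h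
  simp only [force_eq] at h
  have hr := valid_comp hG hy
  cases hc : Nat.blt c 31 with
  | true =>
    rw [hc, cond_true] at h
    left
    have hlt : c < Ss.length := by
      rw [Ss_len]
      simpa [Nat.blt_eq] using hc
    refine ⟨sel Ss c, sel_mem hlt, fun hs => ?_⟩
    have hx := valid_comp hr hs
    have e1 : g G * g y * g (sel Ss c) = g (comp (comp G y) (sel Ss c)) := by
      rw [g_comp hr hs, g_comp hG hy]
    rw [e1]
    cases h23 : ord23 (comp (comp G y) (sel Ss c)) with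
    | true => exact Or.inl (ord23_spec hx h23)
    | false =>
      rw [h23, cond_false] at h
      exact Or.inr (ord11_spec hx h)
  | false =>
    rw [hc, cond_false] at h
    right
    rw [← g_comp hG hy]
    cases h1 : keepL (comp G y) tetList with
    | true => exact Or.inl (mem_St.mpr (keepL_spec hr h1))
    | false =>
      rw [h1, cond_false] at h
      exact Or.inr (mem_St.mpr (keepL_spec hr h))

/-! ## The main dichotomy -/

/-- The sextet stabiliser. -/
abbrev B : Subgroup (Equiv.Perm GolayPt) := M24 ⊓ St tetList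

/-- The trio stabiliser. -/
abbrev C : Subgroup (Equiv.Perm GolayPt) := M24 ⊓ St t1L

theorem F_le_B : F ≤ B := fun _ hx => ⟨F_le_M24 hx, hx.1.1.2⟩

theorem F_le_C : F ≤ C := fun _ hx => ⟨F_le_M24 hx, hx.1.2⟩

theorem mem_ABC {H : Subgroup (Equiv.Perm GolayPt)} (hHM : H ≤ M24) (hF : F ≤ H)
    (h23 : ¬ 23 ∣ Nat.card H) (h11 : ¬ 11 ∣ Nat.card H) {x : Equiv.Perm GolayPt} (hx : x ∈ H) :
    x ∈ A ∨ x ∈ B ∨ x ∈ C := by
  by_contra hcon
  push Not at hcon
  obtain ⟨hA, hB, hC⟩ := hcon
  have hxM := hHM hx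
  have hoct : x • setOf O0 ∈ octads := smul_mem_octads hxM O0_mem
  have hne : x • setOf O0 ≠ setOf O0 := fun h => hA (mem_A.mpr ⟨hxM, h⟩)
  obtain ⟨e, he, P, hP, hPe⟩ := octad_cover hoct hne
  obtain ⟨h1, h2, h3⟩ := entry_spec (allE_spec E_ok e he)
  obtain ⟨hP1, hP2⟩ := okF_spec (h2 P hP)
  have hPM := F_le_M24 hP2
  have hGM := g_mem_M24 h1
  have ha : (g e.1)⁻¹ * (g P)⁻¹ * x ∈ A := by
    refine mem_A.mpr ⟨M24.mul_mem (M24.mul_mem (M24.inv_mem hGM) (M24.inv_mem hPM)) hxM, ?_⟩
    rw [mul_smul, hPe, mul_smul, inv_smul_smul, inv_smul_smul]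
  obtain ⟨Q, hQ, f, hf, hQf⟩ := cover_A ha
  have hQ1 := (Y_spec hQ).1
  have hρ : g e.1 * g Q = (g P)⁻¹ * x * f⁻¹ := by
    have e2 : g Q = (g e.1)⁻¹ * (g P)⁻¹ * x * f⁻¹ := by rw [hQf, mul_inv_cancel_right]
    rw [e2]
    group
  have hρH : g e.1 * g Q ∈ H := by
    rw [hρ]
    exact H.mul_mem (H.mul_mem (H.inv_mem (hF hP2)) hx) (H.inv_mem (hF hf))
  have hxe : x = g P * (g e.1 * g Q) * f := by
    rw [hρ]
    group
  have hnotB : ∀ {K : Subgroup (Equiv.Perm GolayPt)}, F ≤ K → g e.1 * g Q ∈ K → x ∈ K := by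
    intro K hK hm
    rw [hxe]
    exact K.mul_mem (K.mul_mem (hK hP2) hm) (hK hf)
  have hρM : g e.1 * g Q ∈ M24 := hHM hρH
  obtain ⟨c, hc⟩ := certL_spec h3 Q hQ
  rcases certOK_spec (checkAut_valid h1) (checkAut_valid hQ1) hc with ⟨s, hs, hs2⟩ | hb | hb
  · obtain ⟨hs1, hsF⟩ := okF_spec (allL_iff.mp Ss_ok s hs)
    have hw : g e.1 * g Q * g s ∈ H := H.mul_mem hρH (hF hsF)
    have hne1 : g e.1 * g Q * g s ≠ 1 := by
      intro h1'
      have : g e.1 * g Q = (g s)⁻¹ := eq_inv_of_mul_eq_one_left h1'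
      exact hA (hnotB F_le_A (by rw [this]; exact F_le_A (F.inv_mem hsF)))
    have key : ∀ p : ℕ, p.Prime → (g e.1 * g Q * g s) ^ p = 1 → p ∣ Nat.card H := by
      intro p hp hpow
      have : Fact p.Prime := ⟨hp⟩
      have hord : orderOf (g e.1 * g Q * g s) = p := orderOf_eq_prime hpow hne1
      have hord2 : orderOf (⟨_, hw⟩ : H) = p := by
        rw [← hord]
        exact Subgroup.orderOf_mk _ _
      rw [← hord2]
      exact orderOf_dvd_natCard _
    rcases hs2 (checkAut_valid hs1) with h' | h'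
    · exact h23 (key 23 (by norm_num) h')
    · exact h11 (key 11 (by norm_num) h')
  · exact hB (hnotB F_le_B ⟨hρM, hb⟩)
  · exact hC (hnotB F_le_C ⟨hρM, hb⟩)

/-! ## The objects -/

theorem fam_tet : fam tetList = Cfsg.Agent.Lib.M24Orb.SextetOrbits.S0 := by
  ext t
  rw [mem_fam, Cfsg.Agent.Lib.M24Orb.SextetStruct.mem_S0]
  constructor
  · rintro ⟨u, hu, rfl⟩
    exact ⟨u, hu, rfl⟩
  · rintro ⟨u, hu, rfl⟩
    exact ⟨u, hu, rfl⟩

theorem fam_sextet : fam tetList ∈ sextets := by
  rw [fam_tet]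
  exact Cfsg.Agent.Lib.M24Orb.SextetStruct.S0_mem

theorem good1 : Cfsg.Agent.Lib.M24Orb.TrioOrbits.Good 8536111 4038912 :=
  Cfsg.Agent.Lib.M24Orb.TrioOrbits.good_of_goodPair (by decide +kernel)

theorem fam_t1 : fam t1L = Cfsg.Agent.Lib.M24Orb.TrioOrbits.mkT 8536111 4038912 := by
  have h3 : Cfsg.Agent.Lib.M24Orb.TrioTables.third 8536111 4038912 = 4202192 := by decide +kernel
  have h2 := Cfsg.Agent.Lib.M24Orb.TrioOrbits.third_eq good1
  rw [h3] at h2
  rw [Cfsg.Agent.Lib.M24Orb.TrioOrbits.mkT, Cfsg.Agent.Lib.GolayOct.Trio.tf]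
  simp only [h2]
  ext s
  simp [fam, t1L]

theorem fam_trio : fam t1L ∈ trios := by
  rw [fam_t1]
  exact good1.mem

theorem card_stab_trio {T : Finset (Finset GolayPt)} (hT : T ∈ trios) :
    Nat.card (MulAction.stabilizer M24 T) = 64512 := by
  have h1 : MulAction.orbit M24 T = trios := by
    ext y
    rw [Cfsg.Agent.Lib.M24Orb.TrioOrbits.mem_trios_iff]
    have hT' := Cfsg.Agent.Lib.M24Orb.TrioOrbits.mem_trios_iff.mp hT
    rw [MulAction.orbit_eq_iff.mpr hT']
  have h2 := Subgroup.card_mul_index (MulAction.stabilizer M24 T)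
  rw [MulAction.index_stabilizer, h1, Cfsg.Agent.Lib.GolayOct.Trio.trios_ncard, card_M24] at h2
  generalize Nat.card ↥(MulAction.stabilizer M24 T) = n at h2 ⊢
  omega

theorem card_stab_octad {o : Finset GolayPt} (ho : o ∈ octads) :
    Nat.card (MulAction.stabilizer M24 o) = 322560 := by
  rw [Cfsg.Agent.Lib.M24Orb.OctadStab.card_stab_eq, Cfsg.Agent.Lib.M24Orb.OctadStab.card_StabO ho]

/-! ## The conclusion -/

theorem factorization_M24 : (Nat.card ↥M24).factorization 2 = 10 := by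
  rw [card_M24, show (244823040 : ℕ) = 2 ^ 10 * 239085 by norm_num,
    Nat.factorization_mul (by norm_num) (by norm_num), Finsupp.add_apply,
    Nat.Prime.factorization_pow Nat.prime_two, Finsupp.single_eq_same,
    Nat.factorization_eq_zero_of_not_dvd (by norm_num)]

theorem card_F' : Nat.card (F.subgroupOf M24) = 2 ^ 10 := by
  rw [Nat.card_congr (Subgroup.subgroupOfEquivOfLe F_le_M24).toEquiv, card_F]
  norm_num

/-- Conjugating back a containment in a stabiliser. -/
theorem le_stab_of_conj {X : Type*} [MulAction (Equiv.Perm GolayPt) X] {H : Subgroup ↥M24}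
    {H₁ : Subgroup (Equiv.Perm GolayPt)} (x : ↥M24)
    (hmem : ∀ y : ↥M24, x * y * x⁻¹ ∈ H → y.1 ∈ H₁) (o : X)
    (hle : ∀ y ∈ H₁, y • o = o) : H ≤ MulAction.stabilizer M24 (x • o) := by
  intro h hh
  rw [MulAction.mem_stabilizer_iff, ← mul_smul]
  have h1 : x⁻¹ * h * x ∈ (⊤ : Subgroup ↥M24) := trivial
  have h2 := hle _ (hmem (x⁻¹ * h * x) (by
    have : x * (x⁻¹ * h * x) * x⁻¹ = h := by group
    rw [this]
    exact hh))
  have h3 : h * x = x * (x⁻¹ * h * x) := by group
  rw [h3, mul_smul]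
  congr 1

/-- **A subgroup of odd index of order prime to 11 and 23 lies in the stabiliser of an octad, of a
sextet or of a trio.** -/
theorem main_odd (H : Subgroup ↥M24) {m : ℕ} (hcard : Nat.card H = 1024 * m) (hodd : Odd m)
    (h11 : ¬ 11 ∣ m) (h23 : ¬ 23 ∣ m) :
    (∃ o ∈ octads, H ≤ MulAction.stabilizer M24 o) ∨
      (∃ S ∈ sextets, H ≤ MulAction.stabilizer M24 S) ∨
      ∃ T ∈ trios, H ≤ MulAction.stabilizer M24 T := by
  classical
  have : Fact (Nat.Prime 2) := ⟨Nat.prime_two⟩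
  obtain ⟨x, hx⟩ := exists_conj_le H (F.subgroupOf M24) 2 10 factorization_M24 card_F'
    (by rw [hcard]; exact ⟨m, by norm_num⟩)
  let H₁ : Subgroup (Equiv.Perm GolayPt) :=
    (H.map (MulAut.conj x⁻¹).toMonoidHom).map M24.subtype
  have hH₁M : H₁ ≤ M24 := by
    rintro _ ⟨y, -, rfl⟩
    exact y.2
  have hmem : ∀ y : ↥M24, x * y * x⁻¹ ∈ H → y.1 ∈ H₁ := by
    intro y hy
    refine ⟨y, ⟨x * y * x⁻¹, hy, ?_⟩, rfl⟩
    show x⁻¹ * (x * y * x⁻¹) * x⁻¹⁻¹ = y
    group
  have hFH : F ≤ H₁ := by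
    intro f hf
    have hfM := F_le_M24 hf
    exact hmem ⟨f, hfM⟩ (hx _ (Subgroup.mem_subgroupOf.mpr hf))
  have hc₁ : Nat.card H₁ = Nat.card H := by
    show Nat.card ((H.map (MulAut.conj x⁻¹).toMonoidHom).map M24.subtype) = _
    rw [Subgroup.card_map_of_injective M24.subtype_injective,
      Subgroup.card_map_of_injective (MulAut.conj x⁻¹).injective]
  have hcard₁ : Nat.card H₁ = Nat.card F * m := by rw [hc₁, hcard, card_F]
  have h2 : ¬ 23 ∣ Nat.card H₁ := by
    rw [hc₁, hcard]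
    intro h
    exact h23 ((Nat.Coprime.dvd_of_dvd_mul_left (by norm_num) h))
  have h3 : ¬ 11 ∣ Nat.card H₁ := by
    rw [hc₁, hcard]
    intro h
    exact h11 ((Nat.Coprime.dvd_of_dvd_mul_left (by norm_num) h))
  by_cases hA : H₁ ≤ A
  · left
    refine ⟨x • setOf O0, smul_mem_octads x.2 O0_mem, ?_⟩
    exact le_stab_of_conj x hmem (setOf O0) (fun y hy => (mem_A.mp (hA hy)).2)
  by_cases hB : H₁ ≤ B
  · right; left
    refine ⟨x • fam tetList,
      Cfsg.Agent.Lib.M24Orb.SextetOrbits.smul_mem_sextets x.2 fam_sextet, ?_⟩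
    exact le_stab_of_conj x hmem (fam tetList) (fun y hy => mem_St.mp (hB hy).2)
  by_cases hC : H₁ ≤ C
  · right; right
    refine ⟨x • fam t1L, Cfsg.Agent.Lib.M24Orb.TrioOrbits.smul_mem_trios x.2 fam_trio, ?_⟩
    exact le_stab_of_conj x hmem (fam t1L) (fun y hy => mem_St.mp (hC hy).2)
  exfalso
  have : Finite ↥H₁ := Finite.of_injective _ (Subgroup.inclusion_injective hH₁M)
  obtain ⟨w, hw, h1', h2', h3'⟩ := exists_not_mem_three hFH F_le_A F_le_B F_le_C hcard₁ hodd hA hB hC
  rcases mem_ABC hH₁M hFH h2 h3 hw with h | h | h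
  · exact h1' h
  · exact h2' h
  · exact h3' h

end Cfsg.Agent.Lib.M24Orb.Index
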