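/-
Subgroups of index 253 of a point stabiliser of the group of the code.
-/
import Cfsg.Agent.Lib.M24Orb.Index
import Cfsg.Agent.Lib.M24Orb.Index276

set_option autoImplicit false

namespace Cfsg.Agent.Lib.M24Orb.Index253

open Cfsg Cfsg.Agent.Lib.Golay.Core Cfsg.Agent.Lib.Golay.Perm Cfsg.Agent.Lib.Golay.Chain
  Cfsg.Agent.Lib.Golay.M24 Cfsg.Agent.Lib.Golay.Basic Cfsg.Agent.Lib.Golay.Stab
  Cfsg.Agent.Lib.M24Orb.Index276
open scoped Pointwise

/-- A `p`-subgroup is conjugate into a subgroup of index prime to `p`. -/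
theorem exists_conj_le_of_pgroup {G : Type*} [Group G] [Finite G] (H P : Subgroup G) (p : ℕ)
    [Fact p.Prime] (hP : IsPGroup p P) (hn : ¬ p ∣ H.index) :
    ∃ x : G, ∀ k ∈ P, x * k * x⁻¹ ∈ H := by
  obtain ⟨a, ha⟩ := hP.nonempty_fixed_point_of_prime_not_dvd_card (G ⧸ H) (by
    rw [← Subgroup.index_eq_card]
    exact hn)
  obtain ⟨g, rfl⟩ := QuotientGroup.mk_surjective a
  refine ⟨g⁻¹, fun k hk => ?_⟩
  have h1 : (⟨k, hk⟩ : P) • ((g : G) : G ⧸ H) = g := ha ⟨k, hk⟩
  have h2 : ((k * g : G) : G ⧸ H) = g := h1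
  have h3 := QuotientGroup.eq.mp h2
  rw [inv_inv]
  simpa [mul_assoc] using H.inv_mem h3

/-- The points moved by the elementary abelian group fixing the root octad. -/
theorem mem_orb_compl {K : Subgroup (Equiv.Perm GolayPt)} (h6 : Fix [5, 3, 2, 1, 0, 23] ≤ K)
    {p : GolayPt} (hp : p ∉ setOf O0) : p ∈ orb K (pt 4) := by
  rw [mem_setOf] at hp
  have key : ∀ j < 24, O0.testBit j ≠ true → j ∈ T6.map (fun P => img P 4) := by decide +kernel
  obtain ⟨P, hP, hPq⟩ := List.mem_map.mp (key _ (idx_lt p) hp)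
  obtain ⟨h1, h2⟩ := tableOK_spec tableOK6 P hP
  have hv := checkAut_valid h1
  refine mem_orb.mpr ⟨g P, h6 ⟨g_mem_M24 h1, fun x hx => ?_⟩, ?_⟩
  · have hx' : x < 24 := by
      have : ∀ x ∈ [5, 3, 2, 1, 0, 23], x < 24 := by decide
      exact this x hx
    rw [g_pt hv hx', h2 x hx]
  · rw [g_pt hv (by norm_num), hPq, pt_idx]

theorem card_O0 : (setOf O0).card = 8 :=
  card_of_mem_octads O0_mem

/-- **The orbit analysis.** -/
theorem key (K : Subgroup (Equiv.Perm GolayPt)) (hK : K ≤ Fix [23]) (hcard : Nat.card K = 40320)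
    (h6 : Fix [5, 3, 2, 1, 0, 23] ≤ K) :
    (∀ y ∈ K, y • setOf O0 = setOf O0) ∨
      ∃ s : Finset GolayPt, s.card = 2 ∧ pt 23 ∉ s ∧ ∀ y ∈ K, y • s = s := by
  classical
  have hKM : K ≤ M24 := fun y hy => (hK hy).1
  have hfix : ∀ y ∈ K, y (pt 23) = pt 23 := fun y hy => (hK hy).2 23 (by simp)
  have : Fact (Nat.Prime 7) := ⟨by norm_num⟩
  obtain ⟨t, ht, ht1, ht7⟩ := exists_order K (p := 7) (by norm_num) (by rw [hcard]; norm_num)
  have hfixt := card_fix7 (hKM ht) ht1 ht7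
  set X := orb K (pt 4) with hX
  have h23 : pt 23 ∉ X := by
    intro h
    obtain ⟨y, hy, hyy⟩ := mem_orb.mp h
    have h1 : y (pt 23) = y (pt 4) := by rw [hfix y hy, hyy]
    have h2 : pt 23 = pt 4 := y.injective h1
    exact absurd h2 (by decide +kernel)
  have hsub : (setOf O0)ᶜ ⊆ X := by
    intro p hp
    exact mem_orb_compl h6 (Finset.mem_compl.mp hp)
  have hc16 : 16 ≤ X.card := by
    have h1 := Finset.card_le_card hsub
    rw [Finset.card_compl, card_golayPt, card_O0] at h1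
    exact h1
  have hc23 : X.card ≤ 23 := by
    have h1 : X ⊆ Finset.univ.erase (pt 23) := fun p hp =>
      Finset.mem_erase.mpr ⟨fun h => h23 (h ▸ hp), Finset.mem_univ _⟩
    have h2 := Finset.card_le_card h1
    rw [Finset.card_erase_of_mem (Finset.mem_univ _), Finset.card_univ, card_golayPt] at h2
    exact h2
  have hmod := card_modEq_fix t 7 ht7 X (smul_mem_orb ht)
  have hf2 : (X.filter fun x => t x = x).card ≤ ((fixS t).erase (pt 23)).card := by
    apply Finset.card_le_card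
    intro x hx
    obtain ⟨h3, h4⟩ := Finset.mem_filter.mp hx
    refine Finset.mem_erase.mpr ⟨?_, mem_fixS.mpr h4⟩
    rintro rfl
    exact h23 h3
  rw [Finset.card_erase_of_mem (mem_fixS.mpr (hfix t ht)), hfixt] at hf2
  have hdvd : X.card ∣ 40320 := by
    have h1 := card_orb_mul K (pt 4)
    rw [hcard] at h1
    exact ⟨_, h1.symm⟩
  unfold Nat.ModEq at hmod
  have hcases : X.card = 16 ∨ X.card = 21 := by
    generalize (X.filter fun x => t x = x).card = u at *
    generalize X.card = n at *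
    have hu : u ≤ 2 := hf2
    interval_cases n <;> omega
  have hinv : ∀ y ∈ K, ∀ p, y p ∈ X ↔ p ∈ X := fun y hy p => smul_mem_orb hy p
  have hinvc : ∀ (W : Finset GolayPt), (∀ p, p ∈ W ↔ p ∉ X ∧ p ≠ pt 23) → ∀ y ∈ K, y • W = W := by
    intro W hW y hy
    apply Finset.eq_of_subset_of_card_le
    · intro q hq
      obtain ⟨z, hz, rfl⟩ := Finset.mem_smul_finset.mp hq
      obtain ⟨h1, h2⟩ := (hW z).mp hz
      refine (hW _).mpr ⟨fun h => h1 ((hinv y hy z).mp h), fun h => h2 ?_⟩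
      apply y.injective
      rw [hfix y hy]
      exact h
    · rw [Finset.card_smul_finset]
  rcases hcases with h | h
  · left
    have hXeq : X = (setOf O0)ᶜ := by
      symm
      apply Finset.eq_of_subset_of_card_le hsub
      rw [h, Finset.card_compl, card_golayPt, card_O0]
    intro y hy
    apply Finset.eq_of_subset_of_card_le
    · intro q hq
      obtain ⟨z, hz, rfl⟩ := Finset.mem_smul_finset.mp hq
      by_contra hcon
      have h1 : y • z ∈ X := by
        rw [hXeq]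
        exact Finset.mem_compl.mpr hcon
      have h2 := (hinv y hy z).mp h1
      rw [hXeq] at h2
      exact (Finset.mem_compl.mp h2) hz
    · rw [Finset.card_smul_finset]
  · right
    refine ⟨(Xᶜ).erase (pt 23), ?_, by simp, hinvc _ (by simp [and_comm])⟩
    rw [Finset.card_erase_of_mem (Finset.mem_compl.mpr h23), Finset.card_compl, card_golayPt, h]

/-- The stabiliser of a point in the stabiliser of a set, by orbit counting. -/
theorem card_stab_le {X : Finset GolayPt} {x : GolayPt} {W : Finset GolayPt} {N c : ℕ}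
    (hN : Nat.card (MulAction.stabilizer M24 X) = N) (hNc : N = W.card * c)
    (hW : ∀ p ∈ W, ∃ σ ∈ M24, σ • X = X ∧ σ x = p) (hc : 0 < W.card) :
    Nat.card ((MulAction.stabilizer M24 X).subgroupOf (MulAction.stabilizer M24 x)) ≤ c := by
  classical
  let K : Subgroup (Equiv.Perm GolayPt) := (MulAction.stabilizer M24 X).map M24.subtype
  have hK : Nat.card K = N := by
    rw [← hN]
    exact Subgroup.card_map_of_injective M24.subtype_injective
  have hsub : W ⊆ orb K x := by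
    intro p hp
    obtain ⟨σ, hσ, h1, h2⟩ := hW p hp
    exact mem_orb.mpr ⟨σ, ⟨⟨σ, hσ⟩, MulAction.mem_stabilizer_iff.mpr h1, rfl⟩, h2⟩
  have h1 := card_orb_mul K x
  rw [hK, hNc] at h1
  have h2 := Finset.card_le_card hsub
  have h3 : Nat.card (stabK K x) ≤ c := by
    by_contra hcon
    push Not at hcon
    have h4 : W.card * c < (orb K x).card * Nat.card (stabK K x) :=
      Nat.mul_lt_mul_of_le_of_lt h2 hcon (lt_of_lt_of_le hc h2)
    omega
  refine le_trans ?_ h3
  apply Nat.card_le_card_of_injective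
    (fun a : ↥((MulAction.stabilizer M24 X).subgroupOf (MulAction.stabilizer M24 x)) =>
      (⟨a.1.1.1, ⟨⟨a.1.1, Subgroup.mem_subgroupOf.mp a.2, rfl⟩,
        MulAction.mem_stabilizer_iff.mpr (MulAction.mem_stabilizer_iff.mp a.1.2)⟩⟩ : stabK K x))
  intro a b h
  have h' : a.1.1.1 = b.1.1.1 := congrArg (fun z : stabK K x => z.1) h
  exact Subtype.ext (Subtype.ext (Subtype.ext h'))

/-- The order of the stabiliser of a point in the stabiliser of a pair of other points. -/
theorem card_pair_le {s : Finset GolayPt} {x : GolayPt} (hs : s.card = 2) (hx : x ∉ s) :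
    Nat.card ((MulAction.stabilizer M24 s).subgroupOf (MulAction.stabilizer M24 x)) ≤ 40320 := by
  classical
  refine card_stab_le (W := sᶜ) (card_stab_pair hs) (by
    rw [Finset.card_compl, card_golayPt, hs]) ?_ (by
    rw [Finset.card_compl, card_golayPt, hs]; norm_num)
  intro p hp
  obtain ⟨a, b, hab, rfl⟩ := Finset.card_eq_two.mp hs
  simp only [Finset.mem_compl, Finset.mem_insert, Finset.mem_singleton, not_or] at hp hx
  obtain ⟨σ, hσ, h⟩ := Cfsg.Agent.Lib.M24Orb.Subsets.exists_map_list [a, b, x] [a, b, p] rfl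
    (by norm_num) (by simp [hab, Ne.symm hx.1, Ne.symm hx.2]) (by simp [hab, Ne.symm hp.1, Ne.symm hp.2])
  simp only [List.map_cons, List.map_nil, List.cons.injEq, and_true] at h
  refine ⟨σ, hσ, ?_, h.2.2⟩
  ext q
  simp only [Finset.mem_smul_finset, Finset.mem_insert, Finset.mem_singleton]
  constructor
  · rintro ⟨z, rfl | rfl, rfl⟩
    · exact Or.inl h.1
    · exact Or.inr h.2.1
  · rintro (hq | hq)
    · exact ⟨a, Or.inl rfl, by rw [hq]; exact h.1⟩
    · exact ⟨b, Or.inr rfl, by rw [hq]; exact h.2.1⟩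

/-- The order of the stabiliser of a point in the stabiliser of an octad through it. -/
theorem card_octad_le {o : Finset GolayPt} {x : GolayPt} (ho : o ∈ octads) (hx : x ∈ o) :
    Nat.card ((MulAction.stabilizer M24 o).subgroupOf (MulAction.stabilizer M24 x)) ≤ 40320 := by
  classical
  have h8 := card_of_mem_octads ho
  refine card_stab_le (W := o) (Cfsg.Agent.Lib.M24Orb.Index.card_stab_octad ho) (by
    rw [h8]) ?_ (by rw [h8]; norm_num)
  intro p hp
  by_cases hpx : p = x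
  · exact ⟨1, M24.one_mem, one_smul _ _, by rw [hpx]; rfl⟩
  have hc : 4 ≤ ((o.erase x).erase p).card := by
    rw [Finset.card_erase_of_mem (Finset.mem_erase.mpr ⟨hpx, hp⟩), Finset.card_erase_of_mem hx, h8]
    norm_num
  obtain ⟨t, ht, ht4⟩ := Finset.exists_subset_card_eq hc
  obtain ⟨a, b, c, d, habcd⟩ : ∃ a b c d, [a, b, c, d].Nodup ∧ t = [a, b, c, d].toFinset := by
    have h := ht4
    obtain ⟨l, hl, rfl⟩ : ∃ l : List GolayPt, l.Nodup ∧ l.toFinset = t :=
      ⟨t.toList, t.nodup_toList, t.toList_toFinset⟩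
    rw [List.toFinset_card_of_nodup hl] at h
    match l, h, hl with
    | [a, b, c, d], _, hl => exact ⟨a, b, c, d, hl, rfl⟩
  obtain ⟨hnd, rfl⟩ := habcd
  have hmem : ∀ z ∈ [a, b, c, d], z ≠ p ∧ z ≠ x ∧ z ∈ o := by
    intro z hz
    have h1 := ht (List.mem_toFinset.mpr hz)
    obtain ⟨h2, h3⟩ := Finset.mem_erase.mp h1
    obtain ⟨h4, h5⟩ := Finset.mem_erase.mp h3
    exact ⟨h2, h4, h5⟩
  have hnd1 : (x :: [a, b, c, d]).Nodup :=
    List.nodup_cons.mpr ⟨fun h => (hmem x h).2.1 rfl, hnd⟩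
  have hnd2 : (p :: [a, b, c, d]).Nodup :=
    List.nodup_cons.mpr ⟨fun h => (hmem p h).1 rfl, hnd⟩
  obtain ⟨σ, hσ, h⟩ := Cfsg.Agent.Lib.M24Orb.Subsets.exists_map_list (x :: [a, b, c, d])
    (p :: [a, b, c, d]) rfl (by norm_num) hnd1 hnd2
  simp only [List.map_cons, List.map_nil, List.cons.injEq, and_true] at h
  obtain ⟨h0, h1, h2, h3, h4⟩ := h
  refine ⟨σ, hσ, ?_, h0⟩
  -- the octad through five points is unique
  let s : Finset GolayPt := (p :: [a, b, c, d]).toFinset
  have hs : s.card = 5 := by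
    show (p :: [a, b, c, d]).toFinset.card = 5
    rw [List.toFinset_card_of_nodup hnd2]
    rfl
  have hso : s ⊆ o := by
    intro z hz
    have hz' := List.mem_toFinset.mp hz
    rcases List.mem_cons.mp hz' with rfl | hz'
    · exact hp
    · exact (hmem z hz').2.2
  have hso' : s ⊆ σ • o := by
    intro z hz
    have hz' := List.mem_toFinset.mp hz
    simp only [List.mem_cons, List.not_mem_nil, or_false] at hz'
    refine Finset.mem_smul_finset.mpr ?_
    rcases hz' with e | e | e | e | e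
    · exact ⟨x, hx, by rw [e]; exact h0⟩
    · exact ⟨a, (hmem a (by simp)).2.2, by rw [e]; exact h1⟩
    · exact ⟨b, (hmem b (by simp)).2.2, by rw [e]; exact h2⟩
    · exact ⟨c, (hmem c (by simp)).2.2, by rw [e]; exact h3⟩
    · exact ⟨d, (hmem d (by simp)).2.2, by rw [e]; exact h4⟩
  obtain ⟨o', -, hu⟩ := octads_steiner.2 s hs
  rw [hu _ ⟨smul_mem_octads hσ ho, hso'⟩, hu _ ⟨ho, hso⟩]

/-- **Subgroups of index 253 of the stabiliser of a point.** -/
theorem main (x : GolayPt) (H : Subgroup ↥(MulAction.stabilizer M24 x)) (hH : H.index = 253) :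
    (∃ s : Finset GolayPt, s.card = 2 ∧ x ∉ s ∧
      H = (MulAction.stabilizer M24 s).subgroupOf (MulAction.stabilizer M24 x)) ∨
    ∃ o ∈ octads, x ∈ o ∧
      H = (MulAction.stabilizer M24 o).subgroupOf (MulAction.stabilizer M24 x) := by
  classical
  have hc : Nat.card H = 40320 := by
    have h1 := Subgroup.card_mul_index H
    rw [hH, card_stab_one] at h1
    generalize Nat.card ↥H = n at h1 ⊢
    omega
  -- the group as permutations
  let Hp : Subgroup (Equiv.Perm GolayPt) := (H.map (Subgroup.subtype _)).map M24.subtype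
  have hHpc : Nat.card Hp = 40320 := by
    rw [← hc]
    show Nat.card ↥((H.map (Subgroup.subtype _)).map M24.subtype) = _
    rw [Subgroup.card_map_of_injective M24.subtype_injective,
      Subgroup.card_map_of_injective (Subgroup.subtype_injective _)]
  have hHpM : ∀ y ∈ Hp, y ∈ M24 ∧ y x = x := by
    rintro _ ⟨_, ⟨y, -, rfl⟩, rfl⟩
    exact ⟨y.1.2, MulAction.mem_stabilizer_iff.mp y.2⟩
  have hmemH : ∀ y ∈ H, y.1.1 ∈ Hp := fun y hy => ⟨y.1, ⟨y, hy, rfl⟩, rfl⟩
  -- move the point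
  obtain ⟨τ₀, hτ₀, hτ₀x⟩ := exists_map_one x (pt 23)
  let K₁ : Subgroup (Equiv.Perm GolayPt) := Hp.map (MulAut.conj τ₀).toMonoidHom
  have hK₁c : Nat.card K₁ = 40320 := by
    rw [← hHpc]
    exact Subgroup.card_map_of_injective (MulAut.conj τ₀).injective
  have hK₁ : K₁ ≤ Fix [23] := by
    rintro _ ⟨y, hy, rfl⟩
    obtain ⟨h1, h2⟩ := hHpM y hy
    refine mem_Fix.mpr ⟨?_, ?_⟩
    · exact M24.mul_mem (M24.mul_mem hτ₀ h1) (M24.inv_mem hτ₀)
    · intro i hi
      have : i = 23 := by simpa using hi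
      subst this
      show (τ₀ * y * τ₀⁻¹) (pt 23) = pt 23
      rw [← hτ₀x]
      simp [h2]
  -- the two-group
  have h2 : Fact (Nat.Prime 2) := ⟨Nat.prime_two⟩
  have hfix6 : Fix [5, 3, 2, 1, 0, 23] ≤ Fix [23] := by
    intro y hy
    exact mem_Fix.mpr ⟨(mem_Fix.mp hy).1, fun i hi => (mem_Fix.mp hy).2 i (by
      have : i = 23 := by simpa using hi
      simp [this])⟩
  have hP : IsPGroup 2 ((Fix [5, 3, 2, 1, 0, 23]).subgroupOf (Fix [23])) := by
    apply IsPGroup.of_card (n := 4)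
    rw [Nat.card_congr (Subgroup.subgroupOfEquivOfLe hfix6).toEquiv, card_F6]
    norm_num
  have hidx : ¬ 2 ∣ (K₁.subgroupOf (Fix [23])).index := by
    have h1 := Subgroup.card_mul_index (K₁.subgroupOf (Fix [23]))
    rw [Nat.card_congr (Subgroup.subgroupOfEquivOfLe hK₁).toEquiv, hK₁c, card_F1] at h1
    have h3 : (K₁.subgroupOf (Fix [23])).index = 253 := by omega
    rw [h3]
    norm_num
  obtain ⟨u, hu⟩ := exists_conj_le_of_pgroup _ _ 2 hP hidx
  -- the final conjugate
  let τ : Equiv.Perm GolayPt := u.1⁻¹ * τ₀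
  have hτ : τ ∈ M24 := M24.mul_mem (M24.inv_mem (mem_Fix.mp u.2).1) hτ₀
  have hux : u.1 (pt 23) = pt 23 := (mem_Fix.mp u.2).2 23 (by simp)
  have hτx : τ x = pt 23 := by
    show u.1⁻¹ (τ₀ x) = pt 23
    rw [hτ₀x, Equiv.Perm.inv_eq_iff_eq, hux]
  let K₂ : Subgroup (Equiv.Perm GolayPt) := Hp.map (MulAut.conj τ).toMonoidHom
  have hK₂c : Nat.card K₂ = 40320 := by
    rw [← hHpc]
    exact Subgroup.card_map_of_injective (MulAut.conj τ).injective
  have hK₂ : K₂ ≤ Fix [23] := by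
    rintro _ ⟨y, hy, rfl⟩
    obtain ⟨h1, h3⟩ := hHpM y hy
    refine mem_Fix.mpr ⟨?_, ?_⟩
    · exact M24.mul_mem (M24.mul_mem hτ h1) (M24.inv_mem hτ)
    · intro i hi
      have : i = 23 := by simpa using hi
      subst this
      show (τ * y * τ⁻¹) (pt 23) = pt 23
      rw [← hτx]
      simp [h3]
  have hK₂6 : Fix [5, 3, 2, 1, 0, 23] ≤ K₂ := by
    intro k hk
    have h3 := hu ⟨k, hfix6 hk⟩ (Subgroup.mem_subgroupOf.mpr hk)
    obtain ⟨y, hy, hye⟩ := (Subgroup.mem_subgroupOf.mp h3)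
    refine ⟨y, hy, ?_⟩
    have h4 : τ₀ * y * τ₀⁻¹ = u.1 * k * u.1⁻¹ := hye
    show τ * y * τ⁻¹ = k
    have h5 : τ = u.1⁻¹ * τ₀ := rfl
    rw [h5]
    calc u.1⁻¹ * τ₀ * y * (u.1⁻¹ * τ₀)⁻¹ = u.1⁻¹ * (τ₀ * y * τ₀⁻¹) * u.1 := by group
      _ = k := by rw [h4]; group
  have hconj : ∀ y ∈ Hp, τ * y * τ⁻¹ ∈ K₂ := fun y hy => ⟨y, hy, rfl⟩
  have hpull : ∀ (S : Finset GolayPt), (∀ y ∈ K₂, y • S = S) →
      H ≤ (MulAction.stabilizer M24 (τ⁻¹ • S)).subgroupOf (MulAction.stabilizer M24 x) := by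
    intro S hS h hh
    apply Subgroup.mem_subgroupOf.mpr
    apply MulAction.mem_stabilizer_iff.mpr
    have h1 := hS _ (hconj _ (hmemH h hh))
    show h.1.1 • (τ⁻¹ • S) = τ⁻¹ • S
    rw [← mul_smul]
    have h3 : h.1.1 * τ⁻¹ = τ⁻¹ * (τ * h.1.1 * τ⁻¹) := by group
    rw [h3, mul_smul, h1]
  have hfin : ∀ (A : Subgroup ↥(MulAction.stabilizer M24 x)), H ≤ A → Nat.card A ≤ 40320 → H = A := by
    intro A hA hcA
    exact Subgroup.eq_of_le_of_card_ge hA (by rw [hc]; exact hcA)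
  rcases key K₂ hK₂ hK₂c hK₂6 with h | ⟨s, hs, hs23, hsK⟩
  · right
    have ho : τ⁻¹ • setOf O0 ∈ octads := smul_mem_octads (M24.inv_mem hτ) O0_mem
    have hxo : x ∈ τ⁻¹ • setOf O0 := by
      refine Finset.mem_smul_finset.mpr ⟨pt 23, ?_, ?_⟩
      · rw [mem_setOf, idx_pt (by norm_num)]
        decide +kernel
      · show τ⁻¹ (pt 23) = x
        rw [Equiv.Perm.inv_eq_iff_eq, hτx]
    exact ⟨_, ho, hxo, hfin _ (hpull _ h) (card_octad_le ho hxo)⟩
  · left
    have hs' : (τ⁻¹ • s).card = 2 := by rw [Finset.card_smul_finset, hs]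
    have hxs : x ∉ τ⁻¹ • s := by
      intro h
      obtain ⟨z, hz, hze⟩ := Finset.mem_smul_finset.mp h
      have h3 : z = pt 23 := by
        rw [← hτx, ← hze]
        show z = τ (τ⁻¹ z)
        simp
      exact hs23 (h3 ▸ hz)
    exact ⟨_, hs', hxs, hfin _ (hpull _ hsK) (card_pair_le hs' hxs)⟩

end Cfsg.Agent.Lib.M24Orb.Index253
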