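/-
Counting Sylow subgroups of prime order with small centraliser.
-/
import Mathlib

set_option autoImplicit false

namespace Cfsg.Agent.Lib.M24Orb.Index56Abs

open Subgroup

variable {Γ : Type*} [Group Γ] [Finite Γ]

/-- A self-centralising element of prime order whose order divides the order of the group only
once: the normaliser of the subgroup it generates and its index. -/
theorem sylow_count {p : ℕ} [hp : Fact p.Prime] {x : Γ} (hx : orderOf x = p)
    (hp2 : ¬ p ^ 2 ∣ Nat.card Γ) (hC : ∀ c : Γ, c * x = x * c → c ∈ zpowers x) :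
    ∃ N : Subgroup Γ, (∀ w ∈ N, w * x * w⁻¹ ∈ zpowers x) ∧ ∃ m n : ℕ, m ∣ p - 1 ∧
      Nat.card N = p * m ∧ Nat.card Γ = n * (p * m) ∧ n ≡ 1 [MOD p] := by
  have hp' : p.Prime := hp.out
  have hGne : Nat.card Γ ≠ 0 := Nat.card_pos.ne'
  have hPc : Nat.card (zpowers x) = p := by rw [Nat.card_zpowers, hx]
  have hpd : p ∣ Nat.card Γ := by
    rw [← hx]
    exact orderOf_dvd_natCard x
  have hfac : (Nat.card Γ).factorization p = 1 := by
    have h1 : 1 ≤ (Nat.card Γ).factorization p :=
      (hp'.pow_dvd_iff_le_factorization hGne).mp (by simpa using hpd)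
    have h2 : ¬ 2 ≤ (Nat.card Γ).factorization p := fun h =>
      hp2 ((hp'.pow_dvd_iff_le_factorization hGne).mpr h)
    omega
  let S : Sylow p Γ := Sylow.ofCard (zpowers x) (by rw [hPc, hfac, pow_one])
  have hS : (S : Subgroup Γ) = zpowers x := rfl
  let N : Subgroup Γ := normalizer ((zpowers x : Subgroup Γ) : Set Γ)
  have hN : ∀ w ∈ N, w * x * w⁻¹ ∈ zpowers x := by
    intro w hw
    exact (mem_normalizer_iff.mp hw x).mp (mem_zpowers x)
  have hPN : zpowers x ≤ N := le_normalizer
  -- the index
  have hidx : Nat.card (Sylow p Γ) = N.index := S.card_eq_index_normalizer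
  have hmod : N.index ≡ 1 [MOD p] := by
    rw [← hidx]
    exact card_sylow_modEq_one p Γ
  -- the kernel
  let φ := (zpowers x).normalizerMonoidHom
  have hker : φ.ker = (zpowers x).subgroupOf N := by
    rw [normalizerMonoidHom_ker]
    ext c
    rw [mem_subgroupOf, mem_subgroupOf]
    constructor
    · intro h
      apply hC c.1
      have := mem_centralizer_iff.mp h x (mem_zpowers x)
      exact this.symm
    · intro h
      refine mem_centralizer_iff.mpr fun y hy => ?_
      obtain ⟨i, rfl⟩ := mem_zpowers_iff.mp hy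
      obtain ⟨j, hj⟩ := mem_zpowers_iff.mp h
      rw [← hj]
      exact ((Commute.refl x).zpow_zpow i j)
  have hkerc : Nat.card φ.ker = p := by
    rw [hker, Nat.card_congr (subgroupOfEquivOfLe hPN).toEquiv, hPc]
  have hrange : Nat.card φ.range ∣ p - 1 := by
    have h1 := Subgroup.card_subgroup_dvd_card φ.range
    have : IsCyclic (zpowers x) := inferInstance
    rw [IsCyclic.card_mulAut, hPc, Nat.totient_prime hp'] at h1
    exact h1
  have hcardN : Nat.card N = p * Nat.card φ.range := by
    have h1 := Subgroup.card_mul_index φ.ker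
    rw [hkerc, Subgroup.index_ker] at h1
    exact h1.symm
  refine ⟨N, hN, Nat.card φ.range, N.index, hrange, hcardN, ?_, hmod⟩
  rw [← hcardN, mul_comm]
  exact (Subgroup.card_mul_index N).symm

end Cfsg.Agent.Lib.M24Orb.Index56Abs
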