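/-
The stabiliser of two points of the group of the code has no subgroup of order 7920 or 2112.
-/
import Cfsg.Agent.Lib.M24Orb.Index56Tables
import Cfsg.Agent.Lib.M24Orb.Index56Abs
import Cfsg.Agent.Lib.M24Orb.Index

set_option autoImplicit false

namespace Cfsg.Agent.Lib.M24Orb.Index56

open Cfsg Cfsg.Agent.Lib.Golay.Core Cfsg.Agent.Lib.Golay.Perm Cfsg.Agent.Lib.Golay.Chain
  Cfsg.Agent.Lib.Golay.M24 Cfsg.Agent.Lib.Golay.Basic Cfsg.Agent.Lib.M24Orb.Index56Tables
open Cfsg.Agent.Lib.M24Orb.IndexTables (sel keepL sortedBy idc)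
open Cfsg.Agent.Lib.M24Orb.Index (St mem_St keepL_spec fam sortedBy_spec sel_mem cover_of_card
  exists_conj_le g_idc)
open scoped Pointwise

/-- The two point stabiliser. -/
abbrev K : Subgroup (Equiv.Perm GolayPt) := Fix [0, 23]

def okK (P : ℕ) : Bool := checkAut P && Nat.beq (img P 0) 0 && Nat.beq (img P 23) 23

theorem okK_spec {P : ℕ} (h : okK P = true) : checkAut P = true ∧ g P ∈ K := by
  simp only [okK, Bool.and_eq_true] at h
  obtain ⟨⟨h1, h2⟩, h3⟩ := h
  have hv := checkAut_valid h1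
  refine ⟨h1, mem_Fix.mpr ⟨g_mem_M24 h1, fun x hx => ?_⟩⟩
  rcases List.mem_cons.mp hx with rfl | hx
  · rw [g_pt hv (by norm_num), Nat.eq_of_beq_eq_true h2]
  · have : x = 23 := by simpa using hx
    subst this
    rw [g_pt hv (by norm_num), Nat.eq_of_beq_eq_true h3]

def okFl (P : ℕ) : Bool := okK P && keepL P famL

theorem Fl_ok : allL okFl Fl = true := by decide +kernel

theorem RR_ok : allL okK RR = true := by decide +kernel

theorem Fl_len : Fl.length = 55 := by decide +kernel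

theorem RR_len : RR.length = 150 := by decide +kernel

theorem Yc_len : Yc.length = 8064 := by decide +kernel

theorem Fl_nodup : Fl.Nodup := by decide +kernel

theorem Fl_lt : ∀ P ∈ Fl, P < 2 ^ 120 := by decide +kernel

/-! ## Keys -/

def cube (m : ℕ) : ℕ := Nat.mul m (Nat.mul m m)

/-- Order independent hash of the image of a list. -/
def ksum3 (P : ℕ) (l : List ℕ) : ℕ := List.rec 0 (fun u _ ih => Nat.add (cube (mapMask P u)) ih) l

theorem ksum3_eq_sum (P : ℕ) (l : List ℕ) : ksum3 P l = ((l.map (mapMask P)).map cube).sum := by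
  induction l with
  | nil => rfl
  | cons u l ih =>
    have e : ksum3 P (u :: l) = cube (mapMask P u) + ksum3 P l := rfl
    rw [e, ih]
    simp

theorem ksum3_congr {P Q : ℕ} {l : List ℕ} (hP : validPerm P = true) (hQ : validPerm Q = true)
    (hl : l.Nodup) (hlt : ∀ u ∈ l, u < 2 ^ 24) (h : g P • fam l = g Q • fam l) :
    ksum3 P l = ksum3 Q l := by
  rw [Index.smul_fam hP, Index.smul_fam hQ] at h
  have hn : ∀ {R : ℕ}, validPerm R = true → (l.map (mapMask R)).Nodup := by
    intro R hR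
    exact List.Nodup.map_on (fun a ha b hb hab => Index.mapMask_inj hR (hlt a ha) (hlt b hb) hab) hl
  have hsub : ∀ {R S : ℕ}, validPerm R = true → validPerm S = true →
      fam (l.map (mapMask R)) = fam (l.map (mapMask S)) →
      ∀ c, c ∈ l.map (mapMask R) → c ∈ l.map (mapMask S) := by
    intro R S hR hS he c hc
    have h1 : setOf c ∈ fam (l.map (mapMask S)) := by
      rw [← he]
      exact Index.mem_fam.mpr ⟨c, hc, rfl⟩
    obtain ⟨d, hd, hds⟩ := Index.mem_fam.mp h1
    obtain ⟨u, hu, rfl⟩ := List.mem_map.mp hd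
    obtain ⟨v, hv, rfl⟩ := List.mem_map.mp hc
    rw [eq_of_setOf_eq (mapMask_lt hR v) (mapMask_lt hS u) hds.symm]
    exact List.mem_map.mpr ⟨u, hu, rfl⟩
  have hperm : (l.map (mapMask P)).Perm (l.map (mapMask Q)) := by
    apply List.perm_of_nodup_nodup_toFinset_eq (hn hP) (hn hQ)
    ext c
    simp only [List.mem_toFinset]
    exact ⟨hsub hP hQ h c, hsub hQ hP h.symm c⟩
  rw [ksum3_eq_sum, ksum3_eq_sum]
  exact (hperm.map cube).sum_eq

def keyF (P : ℕ) : ℕ := ksum3 P famL

/-- The product coded by an entry of `Yc`. -/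
def prodE (e : ℕ) : ℕ := comp (sel Fl (Nat.mod e 55)) (sel RR (Nat.div e 55))

theorem Yc_ok : sortedBy (fun e => Nat.blt e 8250) (fun e => keyF (prodE e)) Yc 0 = true := by
  decide +kernel

theorem fam_nodup : famL.Nodup := by decide +kernel

theorem fam_lt : ∀ u ∈ famL, u < 2 ^ 24 := by decide +kernel

/-! ## The subgroup of order 55 -/

/-- The subgroup of order 55 as a stabiliser. -/
def Fst : Subgroup (Equiv.Perm GolayPt) := K ⊓ St famL

theorem Fst_le : Fst ≤ K := inf_le_left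

theorem Fl_spec {P : ℕ} (hP : P ∈ Fl) : checkAut P = true ∧ g P ∈ Fst := by
  have h := allL_iff.mp Fl_ok P hP
  simp only [okFl, Bool.and_eq_true] at h
  obtain ⟨h1, h2⟩ := okK_spec h.1
  exact ⟨h1, h2, mem_St.mpr (keepL_spec (checkAut_valid h1) h.2)⟩

theorem RR_spec {P : ℕ} (hP : P ∈ RR) : checkAut P = true ∧ g P ∈ K :=
  okK_spec (allL_iff.mp RR_ok P hP)

theorem sel_Fl (e : ℕ) : sel Fl (Nat.mod e 55) ∈ Fl :=
  sel_mem (by rw [Fl_len]; exact Nat.mod_lt _ (by norm_num))

theorem sel_RR {e : ℕ} (he : e < 8250) : sel RR (Nat.div e 55) ∈ RR :=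
  sel_mem (by
    rw [RR_len]
    show e / 55 < 150
    omega)

theorem Yc_spec {e : ℕ} (he : e ∈ Yc) : e < 8250 := by
  have := ((sortedBy_spec Yc_ok).1 e he).1
  simpa [Nat.blt_eq] using this

theorem prodE_valid {e : ℕ} (he : e ∈ Yc) : validPerm (prodE e) = true :=
  valid_comp (checkAut_valid (Fl_spec (sel_Fl e)).1) (checkAut_valid (RR_spec (sel_RR (Yc_spec he))).1)

theorem g_prodE {e : ℕ} (he : e ∈ Yc) :
    g (prodE e) = g (sel Fl (Nat.mod e 55)) * g (sel RR (Nat.div e 55)) :=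
  g_comp (checkAut_valid (Fl_spec (sel_Fl e)).1) (checkAut_valid (RR_spec (sel_RR (Yc_spec he))).1)

theorem prodE_mem {e : ℕ} (he : e ∈ Yc) : g (prodE e) ∈ K := by
  rw [g_prodE he]
  exact K.mul_mem (Fst_le (Fl_spec (sel_Fl e)).2) (RR_spec (sel_RR (Yc_spec he))).2

theorem key_congr {P Q : ℕ} (hP : validPerm P = true) (hQ : validPerm Q = true)
    {x : Equiv.Perm GolayPt} (hx : x ∈ Fst) (h : g P * x = g Q) : keyF P = keyF Q := by
  apply ksum3_congr hP hQ fam_nodup fam_lt
  rw [← h, mul_smul, mem_St.mp hx.2]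

theorem Y_inj {e e' : ℕ} (he : e ∈ Yc) (he' : e' ∈ Yc) {x : Equiv.Perm GolayPt} (hx : x ∈ Fst)
    (h : g (prodE e) * x = g (prodE e')) : e = e' :=
  List.inj_on_of_nodup_map (sortedBy_spec Yc_ok).2 he he'
    (key_congr (prodE_valid he) (prodE_valid he') hx h)

/-- The coset representatives as a finite set. -/
noncomputable def Yf : Finset (Equiv.Perm GolayPt) := Yc.toFinset.image fun e => g (prodE e)

theorem card_Yf : Yf.card = 8064 := by
  unfold Yf
  rw [Finset.card_image_of_injOn, List.toFinset_card_of_nodup, Yc_len]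
  · exact List.Nodup.of_map _ (sortedBy_spec Yc_ok).2
  · intro e he e' he' h
    exact Y_inj (List.mem_toFinset.mp he) (List.mem_toFinset.mp he') Fst.one_mem
      (by rw [mul_one]; exact h)

theorem Yf_data : Yf.card * Nat.card Fst ≤ Nat.card K ∧
    (Nat.card K ≤ Yf.card * Nat.card Fst → ∀ a ∈ K, ∃ y ∈ Yf, ∃ f ∈ Fst, a = y * f) := by
  apply cover_of_card K Fst Fst_le Yf
  · intro y hy
    obtain ⟨e, he, rfl⟩ := Finset.mem_image.mp hy
    exact prodE_mem (List.mem_toFinset.mp he)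
  · intro y hy y' hy' f hf f' hf' h
    obtain ⟨e, he, rfl⟩ := Finset.mem_image.mp hy
    obtain ⟨e', he', rfl⟩ := Finset.mem_image.mp hy'
    have h1 : g (prodE e) * (f * f'⁻¹) = g (prodE e') := by
      rw [← mul_assoc, h, mul_inv_cancel_right]
    rw [Y_inj (List.mem_toFinset.mp he) (List.mem_toFinset.mp he') (Fst.mul_mem hf (Fst.inv_mem hf')) h1]

theorem g_injOn_Fl {P Q : ℕ} (hP : P ∈ Fl) (hQ : Q ∈ Fl) (h : g P = g Q) : P = Q :=
  Cfsg.Agent.Lib.M24Orb.SextetStruct.eq_of_img_eq (Fl_lt P hP) (Fl_lt Q hQ)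
    (fun _ hi => Cfsg.Agent.Lib.M24Orb.SextetStruct.img_eq_of_g_eq
      (checkAut_valid (Fl_spec hP).1) (checkAut_valid (Fl_spec hQ).1) h hi)

theorem card_image_Fl : (Fl.toFinset.image g).card = 55 := by
  rw [Finset.card_image_of_injOn, List.toFinset_card_of_nodup Fl_nodup, Fl_len]
  intro P hP Q hQ h
  exact g_injOn_Fl (List.mem_toFinset.mp hP) (List.mem_toFinset.mp hQ) h

theorem image_Fl_subset : ((Fl.toFinset.image g : Finset _) : Set (Equiv.Perm GolayPt)) ⊆ (Fst : Set _) := by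
  intro x hx
  obtain ⟨P, hP, rfl⟩ := Finset.mem_image.mp hx
  exact (Fl_spec (List.mem_toFinset.mp hP)).2

theorem card_Fst : Nat.card Fst = 55 := by
  have h1 := Yf_data.1
  rw [card_Yf, card_F2] at h1
  have h2 := Set.ncard_le_ncard image_Fl_subset (Set.toFinite _)
  rw [Set.ncard_coe_finset, card_image_Fl] at h2
  have h3 : (Fst : Set (Equiv.Perm GolayPt)).ncard = Nat.card Fst :=
    (Nat.card_coe_set_eq _).symm
  generalize Nat.card ↥Fst = n at h1 h3 ⊢
  omega

theorem cover_K {a : Equiv.Perm GolayPt} (ha : a ∈ K) :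
    ∃ e ∈ Yc, ∃ f ∈ Fst, a = g (prodE e) * f := by
  obtain ⟨y, hy, f, hf, h⟩ := Yf_data.2 (by rw [card_Yf, card_F2, card_Fst]) a ha
  obtain ⟨e, he, rfl⟩ := Finset.mem_image.mp hy
  exact ⟨e, List.mem_toFinset.mp he, f, hf, h⟩

theorem Fst_list {f : Equiv.Perm GolayPt} (hf : f ∈ Fst) : ∃ c ∈ Fl, f = g c := by
  have h := Set.eq_of_subset_of_ncard_le image_Fl_subset (by
    rw [Set.ncard_coe_finset, card_image_Fl]
    have h3 : (Fst : Set (Equiv.Perm GolayPt)).ncard = Nat.card Fst :=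
      (Nat.card_coe_set_eq _).symm
    rw [h3, card_Fst]) (Set.toFinite _)
  have hf' : f ∈ (Fst : Set (Equiv.Perm GolayPt)) := hf
  rw [← h] at hf'
  obtain ⟨P, hP, rfl⟩ := Finset.mem_image.mp hf'
  exact ⟨P, List.mem_toFinset.mp hP, rfl⟩

/-! ## Generators -/

/-- Powers of a code. -/
def pc (X : ℕ) : ℕ → ℕ := Nat.rec idc (fun _ ih => comp X ih)

theorem pc_succ (X n : ℕ) : pc X (n + 1) = comp X (pc X n) := rfl

theorem g_pc {X : ℕ} (hX : validPerm X = true) (n : ℕ) :
    validPerm (pc X n) = true ∧ g (pc X n) = (g X) ^ n := by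
  induction n with
  | zero => exact ⟨Index.valid_idc, by show g idc = 1; exact g_idc⟩
  | succ n ih =>
    rw [pc_succ]
    refine ⟨valid_comp hX ih.1, ?_⟩
    rw [g_comp hX ih.1, ih.2, pow_succ']

def Fgen : List ℕ :=
  (List.range 11).flatMap fun i => (List.range 5).map fun j => comp (pc X0 i) (pc Y0 j)

theorem Fl_eq : Fl = Fgen := by decide +kernel

theorem X0_ok : okK X0 = true := by decide +kernel
theorem Y0_ok : okK Y0 = true := by decide +kernel
theorem X0_v : validPerm X0 = true := checkAut_valid (okK_spec X0_ok).1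
theorem Y0_v : validPerm Y0 = true := checkAut_valid (okK_spec Y0_ok).1

theorem X_pow : (g X0) ^ 11 = 1 := by
  rw [← (g_pc X0_v 11).2, show pc X0 11 = idc by decide +kernel]
  exact g_idc

theorem Y_pow : (g Y0) ^ 5 = 1 := by
  rw [← (g_pc Y0_v 5).2, show pc Y0 5 = idc by decide +kernel]
  exact g_idc

theorem YX : g Y0 * g X0 = (g X0) ^ 3 * g Y0 := by
  rw [← (g_pc X0_v 3).2, ← g_comp Y0_v X0_v, ← g_comp (g_pc X0_v 3).1 Y0_v,
    show comp Y0 X0 = comp (pc X0 3) Y0 by decide +kernel]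

theorem X_moves : (g X0) (pt 1) ≠ pt 1 := by
  rw [g_pt X0_v (by norm_num)]
  intro h
  have := pt_injOn (valid_img_lt X0_v (by norm_num)) (by norm_num) h
  revert this
  decide +kernel

theorem X_ne : g X0 ≠ 1 := fun h => X_moves (by rw [h]; rfl)

theorem order_X : orderOf (g X0) = 11 :=
  have : Fact (Nat.Prime 11) := ⟨by norm_num⟩
  orderOf_eq_prime X_pow X_ne

/-- A group containing the two generators contains the subgroup of order 55. -/
theorem Fst_le_of {L : Subgroup (Equiv.Perm GolayPt)} (hx : g X0 ∈ L) (hy : g Y0 ∈ L) : Fst ≤ L := by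
  intro f hf
  obtain ⟨c, hc, rfl⟩ := Fst_list hf
  rw [Fl_eq] at hc
  obtain ⟨i, -, hi⟩ := List.mem_flatMap.mp hc
  obtain ⟨j, -, rfl⟩ := List.mem_map.mp hi
  rw [g_comp (g_pc X0_v i).1 (g_pc Y0_v j).1, (g_pc X0_v i).2, (g_pc Y0_v j).2]
  exact L.mul_mem (L.pow_mem hx i) (L.pow_mem hy j)

/-! ## The centraliser -/

/-- Iterated images. -/
def pw (m p : ℕ) : ℕ := Nat.rec p (fun _ ih => img X0 ih) m

theorem pw_lt {p : ℕ} (hp : p < 24) (m : ℕ) : pw m p < 24 := by
  induction m with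
  | zero => exact hp
  | succ m ih => exact valid_img_lt X0_v ih

theorem X_pow_pt {p : ℕ} (hp : p < 24) (m : ℕ) : ((g X0) ^ m) (pt p) = pt (pw m p) := by
  induction m with
  | zero => rfl
  | succ m ih =>
    rw [pow_succ', Equiv.Perm.mul_apply, ih, g_pt X0_v (pw_lt hp m)]
    rfl

theorem tabV : ∀ v < 24, v ≠ 0 → v ≠ 23 → ∃ k < 11, v = pw k 1 ∨ v = pw k 2 := by decide +kernel

theorem tabO1 : ∀ t ∈ O1L, ∃ i < 11, t = pw i 1 := by decide +kernel

theorem tabN : ∀ m < 11, pw m 1 ≠ 2 := by decide +kernel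

theorem Fix_O1 : Cfsg.Agent.Lib.Golay.Chain.Fix (O1L ++ [0, 23]) = ⊥ := Fix_eq_bot_of_cert (c := certC) (by decide +kernel)

/-- The check on one candidate of an element exchanging the two long cycles. -/
def checkP (m : ℕ) : Bool :=
  let P := (Pk.getD m (0, 0)).1
  let u := (Pk.getD m (0, 0)).2
  validPerm P && Nat.beq (img P 0) 0 && Nat.beq (img P 23) 23 &&
    (List.range 11).all (fun i => Nat.beq (img P (pw i 1)) (pw i 2) &&
      Nat.beq (img P (pw i 2)) (pw i (pw m 1))) &&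
    Nat.blt u 16777216 && isCode u && Nat.beq (pop u) 8 &&
    !(isCode (mapMask P u) && Nat.beq (pop (mapMask P u)) 8)

theorem tabP : ∀ m < 11, checkP m = true := by decide +kernel

theorem tabCov : ∀ v < 24, v = 0 ∨ v = 23 ∨ ∃ i < 11, v = pw i 1 ∨ v = pw i 2 := by decide +kernel

theorem fixed_ne {c : Equiv.Perm GolayPt} (hc : c ∈ K) {v : ℕ} (hv : v < 24) (h0 : v ≠ 0)
    (h23 : v ≠ 23) : idx (c (pt v)) ≠ 0 ∧ idx (c (pt v)) ≠ 23 := by
  have h1 : c (pt 0) = pt 0 := (mem_Fix.mp hc).2 0 (by simp)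
  have h2 : c (pt 23) = pt 23 := (mem_Fix.mp hc).2 23 (by simp)
  constructor
  · intro h
    have h3 : c (pt v) = pt 0 := by rw [← h, pt_idx]
    exact h0 (pt_injOn hv (by norm_num) (c.injective (h3.trans h1.symm)))
  · intro h
    have h3 : c (pt v) = pt 23 := by rw [← h, pt_idx]
    exact h23 (pt_injOn hv (by norm_num) (c.injective (h3.trans h2.symm)))

/-- **The centraliser of the element of order 11.** -/
theorem centralizer_K {c : Equiv.Perm GolayPt} (hc : c ∈ K) (hcx : c * g X0 = g X0 * c) :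
    ∃ k : ℕ, c = (g X0) ^ k := by
  have hXK : g X0 ∈ K := (okK_spec X0_ok).2
  have hcomm : ∀ (d : Equiv.Perm GolayPt), d * g X0 = g X0 * d → ∀ (i : ℕ) (p : GolayPt),
      d (((g X0) ^ i) p) = ((g X0) ^ i) (d p) := by
    intro d hd i p
    have h1 : Commute d (g X0) := hd
    have h2 := (h1.pow_right i).eq
    exact congrArg (fun s : Equiv.Perm GolayPt => s p) h2
  have hv := fixed_ne hc (v := 1) (by norm_num) (by norm_num) (by norm_num)
  obtain ⟨k, hk, hk2⟩ := tabV _ (idx_lt _) hv.1 hv.2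
  -- reduce modulo the powers of the element
  let c' := ((g X0) ^ k)⁻¹ * c
  have hc'K : c' ∈ K := K.mul_mem (K.inv_mem (K.pow_mem hXK k)) hc
  have hc'x : c' * g X0 = g X0 * c' := by
    have h1 : Commute c (g X0) := hcx
    have h2 : Commute c' (g X0) :=
      (((Commute.refl (g X0)).pow_left k).inv_left).mul_left h1
    exact h2
  have hinv : ∀ {p q : GolayPt}, c p = ((g X0) ^ k) q → c' p = q := by
    intro p q h
    show ((g X0) ^ k)⁻¹ (c p) = q
    rw [h]
    simp
  have hfinal : c' = 1 → c = (g X0) ^ k := by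
    intro h
    have : ((g X0) ^ k)⁻¹ * c = 1 := h
    exact (inv_mul_eq_one.mp this).symm
  refine ⟨k, hfinal ?_⟩
  rcases hk2 with hk2 | hk2
  · -- the first cycle
    have h1 : c' (pt 1) = pt 1 := by
      apply hinv
      rw [X_pow_pt (by norm_num), ← hk2, pt_idx]
    have hfix : c' ∈ Cfsg.Agent.Lib.Golay.Chain.Fix (O1L ++ [0, 23]) := by
      refine mem_Fix.mpr ⟨(mem_Fix.mp hc'K).1, fun t ht => ?_⟩
      rcases List.mem_append.mp ht with ht | ht
      · obtain ⟨i, hi, rfl⟩ := tabO1 t ht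
        rw [← X_pow_pt (by norm_num), hcomm c' hc'x, h1]
      · exact (mem_Fix.mp hc'K).2 t ht
    rw [Fix_O1] at hfix
    exact Subgroup.mem_bot.mp hfix
  · -- the element exchanges the two cycles
    exfalso
    have h1 : c' (pt 1) = pt 2 := by
      apply hinv
      rw [X_pow_pt (by norm_num), ← hk2, pt_idx]
    have hv2 := fixed_ne hc'K (v := 2) (by norm_num) (by norm_num) (by norm_num)
    have h1i : ∀ i, c' (pt (pw i 1)) = pt (pw i 2) := by
      intro i
      rw [← X_pow_pt (by norm_num), hcomm c' hc'x, h1, X_pow_pt (by norm_num)]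
    obtain ⟨m, hm, hm2⟩ := tabV _ (idx_lt _) hv2.1 hv2.2
    rcases hm2 with hm2 | hm2
    · -- back into the first cycle
      have h2 : c' (pt 2) = pt (pw m 1) := by rw [← hm2, pt_idx]
      have h2i : ∀ i, c' (pt (pw i 2)) = pt (pw i (pw m 1)) := by
        intro i
        rw [← X_pow_pt (by norm_num), hcomm c' hc'x, h2, X_pow_pt (pw_lt (by norm_num) m)]
      have hch := tabP m hm
      simp only [checkP, Bool.and_eq_true, Bool.not_eq_true', List.all_eq_true, List.mem_range] at hch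
      obtain ⟨⟨⟨⟨⟨⟨⟨hP, hP0⟩, hP23⟩, hPi⟩, hu1⟩, hu2⟩, hu3⟩, hu4⟩ := hch
      have hc'g : c' = g (Pk.getD m (0, 0)).1 := by
        ext p
        have hpt : p = pt (idx p) := (pt_idx p).symm
        rcases tabCov _ (idx_lt p) with h | h | ⟨i, hi, h | h⟩
        · rw [hpt, h, (mem_Fix.mp hc'K).2 0 (by simp), g_pt hP (by norm_num),
            Nat.eq_of_beq_eq_true hP0]
        · rw [hpt, h, (mem_Fix.mp hc'K).2 23 (by simp), g_pt hP (by norm_num),
            Nat.eq_of_beq_eq_true hP23]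
        · have h3 := hPi i (by omega)
          rw [hpt, h, h1i, g_pt hP (pw_lt (by norm_num) i), Nat.eq_of_beq_eq_true h3.1]
        · have h3 := hPi i (by omega)
          rw [hpt, h, h2i, g_pt hP (pw_lt (by norm_num) i), Nat.eq_of_beq_eq_true h3.2]
      have hoct : setOf (Pk.getD m (0, 0)).2 ∈ octads :=
        (setOf_mem_octads_iff (Nat.blt_eq.mp hu1)).mpr ⟨hu2, Nat.eq_of_beq_eq_true hu3⟩
      have h5 := smul_mem_octads (mem_Fix.mp hc'K).1 hoct
      rw [hc'g, smul_setOf hP, setOf_mem_octads_iff (mapMask_lt hP _)] at h5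
      rw [h5.1, h5.2] at hu4
      revert hu4
      simp
    · -- back into the second cycle
      have h2 : c' (pt 2) = pt (pw m 2) := by rw [← hm2, pt_idx]
      have h3 : c' (pt (pw m 1)) = c' (pt 2) := by rw [h1i, h2]
      exact tabN m hm (pt_injOn (pw_lt (by norm_num) m) (by norm_num) (c'.injective h3))

/-! ## Elements of order seven -/

/-- The test for an element of order seven. -/
def ord7 (w : ℕ) : Bool :=
  Nat.beq (pc w 7) idc && !(Nat.beq (img w 1) 1 && Nat.beq (img w 2) 2)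

/-- For each representative: a product with an element of order 55 of order seven. -/
def certW : List ℕ → List ℕ → Bool
  | [], _ => true
  | r :: rs, i :: is => ord7 (comp r (sel Fl i)) && Nat.blt i 55 && certW rs is
  | _ :: _, [] => false

theorem certW_ok : certW R1 W1 = true := by decide +kernel

theorem certW_spec {rs is : List ℕ} (h : certW rs is = true) :
    ∀ r ∈ rs, ∃ i < 55, ord7 (comp r (sel Fl i)) = true := by
  induction rs generalizing is with
  | nil => simp
  | cons r rs ih =>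
    cases is with
    | nil => exact absurd h (by simp [certW])
    | cons i is =>
      simp only [certW, Bool.and_eq_true] at h
      intro x hx
      rcases List.mem_cons.mp hx with rfl | hx
      · exact ⟨i, Nat.blt_eq.mp h.1.2, h.1.1⟩
      · exact ih h.2 x hx

theorem RR_eq : RR = R0 ++ R1 := by decide +kernel

theorem R1_sub {r : ℕ} (hr : r ∈ R1) : r ∈ RR := by
  rw [RR_eq]
  exact List.mem_append_right _ hr

/-- A representative outside the first two gives an element of order seven. -/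
theorem seven_dvd {L : Subgroup (Equiv.Perm GolayPt)} (hF : Fst ≤ L) {r : ℕ} (hr : r ∈ R1)
    (hrL : g r ∈ L) : 7 ∣ Nat.card L := by
  have : Fact (Nat.Prime 7) := ⟨by norm_num⟩
  obtain ⟨i, hi, h⟩ := certW_spec certW_ok r hr
  have hsel : sel Fl i ∈ Fl := sel_mem (by rw [Fl_len]; exact hi)
  have hv1 := checkAut_valid (RR_spec (R1_sub hr)).1
  have hv2 := checkAut_valid (Fl_spec hsel).1
  have hvw := valid_comp hv1 hv2
  simp only [ord7, Bool.and_eq_true, Bool.not_eq_true'] at h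
  obtain ⟨h1, h2⟩ := h
  have hmem : g (comp r (sel Fl i)) ∈ L := by
    rw [g_comp hv1 hv2]
    exact L.mul_mem hrL (hF (Fl_spec hsel).2)
  have hpow : (g (comp r (sel Fl i))) ^ 7 = 1 := by
    rw [← (g_pc hvw 7).2, Nat.eq_of_beq_eq_true h1]
    exact g_idc
  have hne : g (comp r (sel Fl i)) ≠ 1 := by
    intro he
    have e1 : g (comp r (sel Fl i)) (pt 1) = pt 1 := by rw [he]; rfl
    have e2 : g (comp r (sel Fl i)) (pt 2) = pt 2 := by rw [he]; rfl
    rw [g_pt hvw (by norm_num)] at e1 e2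
    have e3 := pt_injOn (valid_img_lt hvw (by norm_num)) (by norm_num) e1
    have e4 := pt_injOn (valid_img_lt hvw (by norm_num)) (by norm_num) e2
    rw [e3, e4] at h2
    exact absurd h2 (by decide)
  have hord : orderOf (g (comp r (sel Fl i))) = 7 := orderOf_eq_prime hpow hne
  have hord2 : orderOf (⟨_, hmem⟩ : L) = 7 := by
    rw [← hord]
    exact Subgroup.orderOf_mk _ _
  rw [← hord2]
  exact orderOf_dvd_natCard _

/-- Counting products. -/
theorem card_le_of_cover {L : Subgroup (Equiv.Perm GolayPt)} {A B : List ℕ}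
    (h : ∀ z ∈ L, ∃ a ∈ A, ∃ b ∈ B, ∃ c ∈ A, z = g a * g b * g c) :
    Nat.card L ≤ A.length * B.length * A.length := by
  classical
  let Z : Finset (Equiv.Perm GolayPt) :=
    ((A.toFinset ×ˢ B.toFinset) ×ˢ A.toFinset).image fun t => g t.1.1 * g t.1.2 * g t.2
  have hsub : (L : Set (Equiv.Perm GolayPt)) ⊆ (Z : Set _) := by
    intro z hz
    obtain ⟨a, ha, b, hb, c, hc, rfl⟩ := h z hz
    refine Finset.mem_coe.mpr (Finset.mem_image.mpr ⟨((a, b), c), ?_, rfl⟩)
    simp only [Finset.mem_product, List.mem_toFinset]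
    exact ⟨⟨ha, hb⟩, hc⟩
  have hle := Set.ncard_le_ncard hsub (Set.toFinite _)
  rw [Set.ncard_coe_finset] at hle
  have hcZ : Z.card ≤ A.length * B.length * A.length := by
    refine le_trans Finset.card_image_le ?_
    rw [Finset.card_product, Finset.card_product]
    exact Nat.mul_le_mul (Nat.mul_le_mul (List.toFinset_card_le _) (List.toFinset_card_le _))
      (List.toFinset_card_le _)
  have h3 : (L : Set (Equiv.Perm GolayPt)).ncard = Nat.card L := (Nat.card_coe_set_eq _).symm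
  rw [h3] at hle
  exact hle.trans hcZ

theorem R0_len : R0.length = 2 := by decide +kernel

/-- **No subgroup of order 7920 contains the subgroup of order 55.** -/
theorem false_of_mem {L : Subgroup (Equiv.Perm GolayPt)} (hL : L ≤ K) (hc : Nat.card L = 7920)
    (hx : g X0 ∈ L) (hy : g Y0 ∈ L) : False := by
  have hF := Fst_le_of hx hy
  have hle := card_le_of_cover (L := L) (A := Fl) (B := R0) (by
    intro z hz
    obtain ⟨e, he, f, hf, rfl⟩ := cover_K (hL hz)
    rw [g_prodE he] at hz ⊢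
    have ha := Fl_spec (sel_Fl e)
    have hr : g (sel RR (Nat.div e 55)) ∈ L := by
      have h1 : g (sel RR (Nat.div e 55)) =
          (g (sel Fl (Nat.mod e 55)))⁻¹ *
            (g (sel Fl (Nat.mod e 55)) * g (sel RR (Nat.div e 55)) * f) * f⁻¹ := by group
      rw [h1]
      exact L.mul_mem (L.mul_mem (L.inv_mem (hF ha.2)) hz) (L.inv_mem (hF hf))
    have hrR := sel_RR (Yc_spec he)
    rw [RR_eq] at hrR
    have hr0 : sel RR (Nat.div e 55) ∈ R0 := by
      rcases List.mem_append.mp hrR with h | h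
      · exact h
      · exfalso
        have h7 := seven_dvd hF h hr
        rw [hc] at h7
        omega
    obtain ⟨c, hcF, rfl⟩ := Fst_list hf
    exact ⟨_, sel_Fl e, _, hr0, c, hcF, rfl⟩)
  rw [hc, Fl_len, R0_len] at hle
  omega

/-! ## The element of order five -/

theorem conj_iter {G : Type*} [Group G] {a x : G} {j : ℕ} (h : a * x * a⁻¹ = x ^ j) (t : ℕ) :
    a ^ t * x * (a ^ t)⁻¹ = x ^ (j ^ t) := by
  induction t with
  | zero => simp
  | succ t ih =>
    have e1 : a ^ (t + 1) * x * (a ^ (t + 1))⁻¹ = a * (a ^ t * x * (a ^ t)⁻¹) * a⁻¹ := by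
      rw [pow_succ']
      group
    rw [e1, ih]
    have e2 : a * x ^ j ^ t * a⁻¹ = (a * x * a⁻¹) ^ j ^ t := by
      rw [conj_pow]
    rw [e2, h, ← pow_mul, pow_succ']

theorem Y_conj (s : ℕ) : (g Y0) ^ s * g X0 * ((g Y0) ^ s)⁻¹ = (g X0) ^ (3 ^ s) := by
  apply conj_iter
  rw [YX]
  group

/-- From an element of order five normalising the subgroup of order 11 to the chosen one. -/
theorem exists_y_of {L : Subgroup (Equiv.Perm GolayPt)} (hL : L ≤ K) (hx : g X0 ∈ L)
    {w : Equiv.Perm GolayPt} (hwL : w ∈ L) (hw5 : w ^ 5 = 1) (hw1 : w ≠ 1) {j : ℕ}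
    (hwx : w * g X0 * w⁻¹ = (g X0) ^ j) : g Y0 ∈ L := by
  have hj : w * g X0 * w⁻¹ = (g X0) ^ (j % 11) := by
    rw [hwx, ← order_X, pow_mod_orderOf]
  have hjlt : j % 11 < 11 := Nat.mod_lt _ (by norm_num)
  generalize j % 11 = i at hj hjlt
  have h5 := conj_iter hj 5
  rw [hw5, one_mul, inv_one, mul_one] at h5
  have h6 : (1 : ℕ) ≡ i ^ 5 [MOD 11] := by
    have := (pow_eq_pow_iff_modEq (x := g X0) (n := 1) (m := i ^ 5)).mp (by rw [pow_one]; exact h5)
    rwa [order_X] at this
  have hyK : g Y0 ∈ K := (okK_spec Y0_ok).2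
  have hxK : g X0 ∈ K := (okK_spec X0_ok).2
  have hwK : w ∈ K := hL hwL
  -- the general step
  have step : ∀ s t : ℕ, (g X0) ^ (3 ^ s) = (g X0) ^ i → s * t % 5 = 1 → g Y0 ∈ L := by
    intro s t hs hst
    have h1 := Y_conj s
    rw [hs, ← hj] at h1
    have hcomm : ((g Y0) ^ s)⁻¹ * w * g X0 = g X0 * (((g Y0) ^ s)⁻¹ * w) := by
      have h2 : (g Y0) ^ s * g X0 = w * g X0 * w⁻¹ * (g Y0) ^ s := by
        rw [← h1]
        group
      have h3 : g X0 * ((g Y0) ^ s)⁻¹ = ((g Y0) ^ s)⁻¹ * (w * g X0 * w⁻¹) := by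
        rw [eq_inv_mul_iff_mul_eq, ← mul_assoc, h2]
        group
      calc ((g Y0) ^ s)⁻¹ * w * g X0 = ((g Y0) ^ s)⁻¹ * (w * g X0 * w⁻¹) * w := by group
        _ = g X0 * ((g Y0) ^ s)⁻¹ * w := by rw [h3]
        _ = g X0 * (((g Y0) ^ s)⁻¹ * w) := by group
    obtain ⟨k, hk⟩ := centralizer_K (K.mul_mem (K.inv_mem (K.pow_mem hyK s)) hwK) hcomm
    have h4 : (g Y0) ^ s = w * ((g X0) ^ k)⁻¹ := by
      rw [← hk]
      group
    have h5' : (g Y0) ^ s ∈ L := by
      rw [h4]
      exact L.mul_mem hwL (L.inv_mem (L.pow_mem hx k))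
    have h7 : (g Y0) ^ (s * t) = g Y0 := by
      have h8 : s * t = 5 * (s * t / 5) + 1 := by omega
      rw [h8, pow_add, pow_mul, Y_pow, one_pow, one_mul, pow_one]
    rw [← h7, pow_mul]
    exact L.pow_mem h5' t
  have hpw : ∀ {a b : ℕ}, a % 11 = b % 11 → (g X0) ^ a = (g X0) ^ b := by
    intro a b hab
    exact (pow_eq_pow_iff_modEq (x := g X0)).mpr (by rw [order_X]; exact hab)
  unfold Nat.ModEq at h6
  interval_cases i
  · exact absurd h6 (by decide)
  · -- the element centralises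
    exfalso
    rw [pow_one] at hj
    have hcomm : w * g X0 = g X0 * w := by
      have := congrArg (· * w) hj
      simpa using this
    obtain ⟨k, hk⟩ := centralizer_K hwK hcomm
    rw [hk, ← pow_mul] at hw5
    have h1 : 11 ∣ k * 5 := by
      rw [← order_X]
      exact orderOf_dvd_of_pow_eq_one hw5
    have h2 : 11 ∣ k := (Nat.Coprime.dvd_of_dvd_mul_right (by norm_num) h1)
    apply hw1
    rw [hk]
    obtain ⟨l, rfl⟩ := h2
    rw [pow_mul, X_pow, one_pow]
  · exact absurd h6 (by decide)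
  · exact step 1 1 (hpw (by norm_num)) (by norm_num)
  · exact step 4 4 (hpw (by norm_num)) (by norm_num)
  · exact step 3 2 (hpw (by norm_num)) (by norm_num)
  · exact absurd h6 (by decide)
  · exact absurd h6 (by decide)
  · exact absurd h6 (by decide)
  · exact step 2 3 (hpw (by norm_num)) (by norm_num)
  · exact absurd h6 (by decide)

/-! ## No such subgroup contains the element of order 11 -/

theorem false_of_mem_X {L : Subgroup (Equiv.Perm GolayPt)} (hL : L ≤ K)
    (hc : Nat.card L = 7920 ∨ Nat.card L = 2112) (hx : g X0 ∈ L) : False := by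
  have h11 : Fact (Nat.Prime 11) := ⟨by norm_num⟩
  have h5 : Fact (Nat.Prime 5) := ⟨by norm_num⟩
  let x : ↥L := ⟨g X0, hx⟩
  have hxo : orderOf x = 11 := by
    rw [← order_X]
    exact Subgroup.orderOf_mk _ _
  have hp2 : ¬ 11 ^ 2 ∣ Nat.card L := by
    rcases hc with hc | hc <;> rw [hc] <;> norm_num
  have hC : ∀ c : ↥L, c * x = x * c → c ∈ Subgroup.zpowers x := by
    intro c hcx
    have h1 : c.1 * g X0 = g X0 * c.1 := congrArg Subtype.val hcx
    obtain ⟨k, hk⟩ := centralizer_K (hL c.2) h1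
    have h2 : c = x ^ k := Subtype.ext hk
    rw [h2]
    exact Subgroup.npow_mem_zpowers x k
  obtain ⟨N, hN, m, n, hm, hNc, hΓ, hn⟩ :=
    Cfsg.Agent.Lib.M24Orb.Index56Abs.sylow_count (p := 11) hxo hp2 hC
  have hm' : m = 1 ∨ m = 2 ∨ m = 5 ∨ m = 10 := by
    have : m ∈ Nat.divisors 10 := Nat.mem_divisors.mpr ⟨hm, by norm_num⟩
    simpa [show Nat.divisors 10 = {1, 2, 5, 10} by decide] using this
  unfold Nat.ModEq at hn
  rcases hc with hc | hc
  · rw [hc] at hΓ
    have hm5 : m = 5 := by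
      rcases hm' with rfl | rfl | rfl | rfl <;> omega
    subst hm5
    obtain ⟨w, hw⟩ := exists_prime_orderOf_dvd_card' (G := ↥N) 5 (by rw [hNc]; norm_num)
    have hw5 : w.1.1 ^ 5 = 1 := by
      have := pow_orderOf_eq_one w
      rw [hw] at this
      have h2 := congrArg (fun z : ↥N => z.1.1) this
      exact h2
    have hw1 : w.1.1 ≠ 1 := by
      intro h
      have h2 : w = 1 := Subtype.ext (Subtype.ext h)
      rw [h2, orderOf_one] at hw
      omega
    obtain ⟨i, hi⟩ := Subgroup.mem_zpowers_iff.mp (hN w.1 w.2)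
    have hpow : ∃ j : ℕ, w.1.1 * g X0 * (w.1.1)⁻¹ = (g X0) ^ j := by
      have hmem : x ^ i ∈ Submonoid.powers x := by
        have hof : IsOfFinOrder x := orderOf_pos_iff.mp (by rw [hxo]; norm_num)
        exact (IsOfFinOrder.mem_powers_iff_mem_zpowers hof).mpr (Subgroup.zpow_mem_zpowers x i)
      obtain ⟨j, hj⟩ := hmem
      refine ⟨j, ?_⟩
      have h3 : x ^ j = w.1 * x * (w.1)⁻¹ := hj.trans hi
      exact (congrArg Subtype.val h3).symm
    obtain ⟨j, hj⟩ := hpow
    exact false_of_mem hL hc hx (exists_y_of hL hx w.1.2 hw5 hw1 hj)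
  · rw [hc] at hΓ
    rcases hm' with rfl | rfl | rfl | rfl <;> omega

theorem factorization_K : (Nat.card ↥K).factorization 11 = 1 := by
  rw [card_F2, show (443520 : ℕ) = 11 ^ 1 * 40320 by norm_num,
    Nat.factorization_mul (by norm_num) (by norm_num), Finsupp.add_apply,
    Nat.Prime.factorization_pow (by norm_num), Finsupp.single_eq_same,
    Nat.factorization_eq_zero_of_not_dvd (by norm_num)]

/-- **The subgroups of order 7920 and 2112 do not exist.** -/
theorem false_of_le {L : Subgroup (Equiv.Perm GolayPt)} (hL : L ≤ K)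
    (hc : Nat.card L = 7920 ∨ Nat.card L = 2112) : False := by
  classical
  have h11 : Fact (Nat.Prime 11) := ⟨by norm_num⟩
  have hXK : g X0 ∈ K := (okK_spec X0_ok).2
  let x₀ : ↥K := ⟨g X0, hXK⟩
  have hxo : orderOf x₀ = 11 := by
    rw [← order_X]
    exact Subgroup.orderOf_mk _ _
  obtain ⟨u, hu⟩ := exists_conj_le (L.subgroupOf K) (Subgroup.zpowers x₀) 11 1 factorization_K
    (by rw [Nat.card_zpowers, hxo, pow_one])
    (by
      rw [Nat.card_congr (Subgroup.subgroupOfEquivOfLe hL).toEquiv]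
      rcases hc with hc | hc <;> rw [hc] <;> norm_num)
  have h1 := hu x₀ (Subgroup.mem_zpowers x₀)
  have h2 : u.1 * g X0 * u.1⁻¹ ∈ L := Subgroup.mem_subgroupOf.mp h1
  let L' : Subgroup (Equiv.Perm GolayPt) := L.map (MulAut.conj u.1⁻¹).toMonoidHom
  have hL'c : Nat.card L' = Nat.card L :=
    Subgroup.card_map_of_injective (MulAut.conj u.1⁻¹).injective
  have hL' : L' ≤ K := by
    rintro _ ⟨y, hy, rfl⟩
    exact K.mul_mem (K.mul_mem (K.inv_mem u.2) (hL hy)) (K.inv_mem (K.inv_mem u.2))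
  have hx' : g X0 ∈ L' := by
    refine ⟨u.1 * g X0 * u.1⁻¹, h2, ?_⟩
    show u.1⁻¹ * (u.1 * g X0 * u.1⁻¹) * u.1⁻¹⁻¹ = g X0
    group
  exact false_of_mem_X hL' (by rw [hL'c]; exact hc) hx'

/-- **The statement.** -/
theorem main (p q : GolayPt) (hpq : p ≠ q)
    (H : Subgroup ↥(MulAction.stabilizer M24 p ⊓ MulAction.stabilizer M24 q)) :
    H.index ≠ 56 ∧ H.index ≠ 210 := by
  classical
  obtain ⟨τ, hτ, hτp, hτq⟩ := Cfsg.Agent.Lib.Golay.Stab.exists_map_two (p' := pt 23) (q' := pt 0) hpq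
    (by decide +kernel)
  let Hp : Subgroup (Equiv.Perm GolayPt) := (H.map (Subgroup.subtype _)).map M24.subtype
  let L : Subgroup (Equiv.Perm GolayPt) := Hp.map (MulAut.conj τ).toMonoidHom
  have hLc : Nat.card L = Nat.card H := by
    show Nat.card ↥(((H.map (Subgroup.subtype _)).map M24.subtype).map (MulAut.conj τ).toMonoidHom) = _
    rw [Subgroup.card_map_of_injective (MulAut.conj τ).injective,
      Subgroup.card_map_of_injective M24.subtype_injective,
      Subgroup.card_map_of_injective (Subgroup.subtype_injective _)]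
  have hL : L ≤ K := by
    rintro _ ⟨_, ⟨_, ⟨y, -, rfl⟩, rfl⟩, rfl⟩
    have hy1 : y.1.1 p = p := MulAction.mem_stabilizer_iff.mp y.2.1
    have hy2 : y.1.1 q = q := MulAction.mem_stabilizer_iff.mp y.2.2
    refine mem_Fix.mpr ⟨M24.mul_mem (M24.mul_mem hτ y.1.2) (M24.inv_mem hτ), fun t ht => ?_⟩
    show (τ * y.1.1 * τ⁻¹) (pt t) = pt t
    rcases List.mem_cons.mp ht with rfl | ht
    · rw [← hτq]
      simp [hy2]
    · have : t = 23 := by simpa using ht
      subst this
      rw [← hτp]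
      simp [hy1]
  have hcH := Subgroup.card_mul_index H
  rw [Cfsg.Agent.Lib.Golay.Stab.card_stab_two hpq] at hcH
  constructor
  · intro h
    rw [h] at hcH
    apply false_of_le hL
    left
    rw [hLc]
    generalize Nat.card ↥H = n at hcH ⊢
    omega
  · intro h
    rw [h] at hcH
    apply false_of_le hL
    right
    rw [hLc]
    generalize Nat.card ↥H = n at hcH ⊢
    omega

end Cfsg.Agent.Lib.M24Orb.Index56
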