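/-
A package of data about the orbits of a point stabiliser, transported along the group;
its consequences: maximality, orbits.
-/
import Cfsg.Agent.Lib.M24Orb.Coatom

set_option autoImplicit false

namespace Cfsg.Agent.Lib.M24Orb.Pieces

open MulAction Cfsg.Agent.Lib.M24Orb.Coatom

variable {G X : Type*} [Group G] [MulAction G X]

/-- Pieces of the orbit of `x`: the rest of the orbit is partitioned, each part is connected under
the stabiliser of `x`, and has a known size. -/
structure PieceData {r : ℕ} (x : X) (P : Fin r → Set X) (s : Fin r → ℕ) : Prop where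
  cover : ∀ y, y ∈ orbit G x ↔ y = x ∨ ∃ i, y ∈ P i
  ne : ∀ i, x ∉ P i
  dis : ∀ i j, i ≠ j → Disjoint (P i) (P j)
  conn : ∀ i, ∀ y ∈ P i, ∀ z ∈ P i, ∃ g : G, g • x = x ∧ g • y = z
  size : ∀ i, (P i).ncard = s i

variable {r : ℕ} {x : X} {P : Fin r → Set X} {s : Fin r → ℕ}

/-- Transport along the group. -/
theorem PieceData.smul (h : PieceData (G := G) x P s) (τ : G) :
    PieceData (G := G) (τ • x) (fun i => (fun y => τ • y) '' P i) s where
  cover := by
    intro y
    rw [orbit_smul]
    constructor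
    · intro hy
      rcases (h.cover (τ⁻¹ • y)).mp (by
        obtain ⟨g, rfl⟩ := hy
        exact ⟨τ⁻¹ * g, mul_smul _ _ _⟩) with h1 | ⟨i, hi⟩
      · left
        rw [← h1, smul_inv_smul]
      · exact Or.inr ⟨i, τ⁻¹ • y, hi, smul_inv_smul τ y⟩
    · rintro (rfl | ⟨i, z, hz, rfl⟩)
      · exact ⟨τ, rfl⟩
      · obtain ⟨g, rfl⟩ := (h.cover z).mpr (Or.inr ⟨i, hz⟩)
        exact ⟨τ * g, mul_smul _ _ _⟩
  ne := by
    rintro i ⟨z, hz, h1⟩
    have := smul_left_cancel τ h1
    subst this
    exact h.ne i hz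
  dis := by
    intro i j hij
    rw [Set.disjoint_left]
    rintro _ ⟨z, hz, rfl⟩ ⟨w, hw, h1⟩
    have := smul_left_cancel τ h1
    subst this
    exact Set.disjoint_left.mp (h.dis i j hij) hz hw
  conn := by
    rintro i _ ⟨y, hy, rfl⟩ _ ⟨z, hz, rfl⟩
    obtain ⟨g, h1, h2⟩ := h.conn i y hy z hz
    refine ⟨τ * g * τ⁻¹, ?_, ?_⟩
    · rw [mul_smul, mul_smul, inv_smul_smul, h1]
    · rw [mul_smul, mul_smul, inv_smul_smul, h2]
  size := by
    intro i
    rw [Set.ncard_image_of_injective _ (MulAction.injective τ), h.size]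

variable [Finite G]

theorem PieceData.finite (h : PieceData (G := G) x P s) (i : Fin r) : (P i).Finite :=
  (Set.finite_range (fun g : G => g • x)).subset fun y hy =>
    (h.cover y).mpr (Or.inr ⟨i, hy⟩)

/-- Maximality of the stabiliser. -/
theorem PieceData.isCoatom (h : PieceData (G := G) x P s) (hne : ∃ i, (P i).Nonempty)
    (harith : ∀ I : Finset (Fin r), (1 + ∑ i ∈ I, s i) ∣ (orbit G x).ncard →
      I = ∅ ∨ I = Finset.univ) : IsCoatom (stabilizer G x) :=
  isCoatom_of_pieces x P s (fun y hy => (h.cover y).mp hy)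
    (fun i y hy => (h.cover y).mpr (Or.inr ⟨i, hy⟩)) h.ne h.dis
    (fun i y hy z hz => by
      obtain ⟨g, h1, h2⟩ := h.conn i y hy z hz
      exact ⟨g, h1, h2⟩) h.size hne harith

/-- The size of the orbit. -/
theorem PieceData.ncard_orbit (h : PieceData (G := G) x P s) :
    (orbit G x).ncard = 1 + ∑ i, s i := by
  classical
  have hf : ∀ J : Finset (Fin r), (⋃ j ∈ J, P j).ncard = ∑ j ∈ J, s j ∧ (⋃ j ∈ J, P j).Finite := by
    intro J
    induction J using Finset.induction_on with
    | empty => simp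
    | insert a J ha ih =>
      rw [Finset.set_biUnion_insert, Finset.sum_insert ha]
      have hd : Disjoint (P a) (⋃ j ∈ J, P j) := by
        rw [Set.disjoint_iUnion₂_right]
        intro j hj
        exact h.dis a j (by rintro rfl; exact ha hj)
      refine ⟨?_, (h.finite a).union ih.2⟩
      rw [Set.ncard_union_eq hd (h.finite a) ih.2, h.size a, ih.1]
  have he : orbit G x = {x} ∪ ⋃ j ∈ (Finset.univ : Finset (Fin r)), P j := by
    ext y
    rw [h.cover]
    simp
  have hd : Disjoint ({x} : Set X) (⋃ j ∈ (Finset.univ : Finset (Fin r)), P j) := by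
    rw [Set.disjoint_singleton_left]
    simp only [Set.mem_iUnion, not_exists]
    rintro i _ hi
    exact h.ne i hi
  rw [he, Set.ncard_union_eq hd (Set.finite_singleton x) (hf Finset.univ).2, Set.ncard_singleton,
    (hf Finset.univ).1]

/-- The size of the stabiliser. -/
theorem PieceData.card_stabilizer (h : PieceData (G := G) x P s) :
    Nat.card (stabilizer G x) * (1 + ∑ i, s i) = Nat.card G := by
  have h1 := Subgroup.card_mul_index (stabilizer G x)
  rwa [index_stabilizer, h.ncard_orbit] at h1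

/-- The pieces are the orbits of the stabiliser. -/
theorem PieceData.orbit_eq (h : PieceData (G := G) x P s)
    (harith : ∀ i, ∀ I : Finset (Fin r), i ∈ I → (∑ j ∈ I, s j) ∣ Nat.card (stabilizer G x) →
      I = {i}) (i : Fin r) {y : X} (hy : y ∈ P i) : orbit (stabilizer G x) y = P i := by
  refine orbit_eq_of_pieces (G := stabilizer G x) P s ?_ h.dis ?_ h.finite h.size harith i hy
  · rintro i y hy ⟨g, hg⟩
    have hx : g • x = x := hg
    have hmem : g • y ∈ orbit G x := by
      obtain ⟨k, rfl⟩ := (h.cover y).mpr (Or.inr ⟨i, hy⟩)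
      exact ⟨g * k, mul_smul _ _ _⟩
    rcases (h.cover _).mp hmem with h1 | h1
    · exfalso
      have : y = x := by
        apply smul_left_cancel g
        rw [h1, hx]
      subst this
      exact h.ne i hy
    · exact h1
  · intro i y hy z hz
    obtain ⟨g, h1, h2⟩ := h.conn i y hy z hz
    exact ⟨⟨g, h1⟩, h2⟩

end Cfsg.Agent.Lib.M24Orb.Pieces
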