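/-
Counting subsets lying with a fixed set in a block of a Steiner system.
-/
import Cfsg.Agent.Lib.Steiner.Counting
import Cfsg.Agent.Lib.M24Orb.Triads

set_option autoImplicit false

namespace Cfsg.Agent.Lib.M24Orb.TriadCount

open Cfsg Finset

variable {α : Type*} [Fintype α] [DecidableEq α]

/-- The number of `m`-sets `U` disjoint from `T` with `T ∪ U` inside a block. -/
theorem ncard_together {t k m : ℕ} {B : Set (Finset α)} (hB : IsSteinerSystem t k B)
    (B' : Finset (Finset α)) (hB' : ∀ b, b ∈ B' ↔ b ∈ B) (T : Finset α) (hT : T.card ≤ t)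
    (hm : t ≤ T.card + m) (hk : T.card ≤ k) :
    {U : Finset α | U.card = m ∧ Disjoint T U ∧ ∃ o ∈ B, T ∪ U ⊆ o}.ncard =
      (B'.filter (fun b => T ⊆ b)).card * (k - T.card).choose m := by
  have hset : {U : Finset α | U.card = m ∧ Disjoint T U ∧ ∃ o ∈ B, T ∪ U ⊆ o} =
      ↑((B'.filter (fun b => T ⊆ b)).biUnion (fun o => powersetCard m (o \ T))) := by
    ext U
    simp only [Set.mem_ofPred_eq, mem_coe, mem_biUnion, mem_filter, mem_powersetCard, hB']
    constructor
    · rintro ⟨hU, hd, o, ho, hsub⟩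
      refine ⟨o, ⟨ho, subset_union_left.trans hsub⟩, ?_, hU⟩
      intro x hx
      rw [mem_sdiff]
      exact ⟨hsub (mem_union_right _ hx), fun h => disjoint_left.mp hd h hx⟩
    · rintro ⟨o, ⟨ho, hTo⟩, hUo, hU⟩
      refine ⟨hU, ?_, o, ho, union_subset hTo (hUo.trans sdiff_subset)⟩
      rw [disjoint_left]
      intro x hx hx'
      exact (mem_sdiff.mp (hUo hx')).2 hx
  rw [hset, Set.ncard_coe_finset, card_biUnion]
  · rw [sum_congr rfl (g := fun _ => (k - T.card).choose m), sum_const, smul_eq_mul]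
    intro o ho
    rw [mem_filter, hB'] at ho
    rw [card_powersetCard, card_sdiff_of_subset ho.2, hB.1 o ho.1]
  · intro o ho o' ho' hne
    rw [mem_coe, mem_filter, hB'] at ho ho'
    rw [Function.onFun, disjoint_left]
    intro U hU hU'
    rw [mem_powersetCard] at hU hU'
    apply hne
    have hd : Disjoint T U := by
      rw [disjoint_left]
      intro x hx hx'
      exact (mem_sdiff.mp (hU.1 hx')).2 hx
    have hc : t ≤ (T ∪ U).card := by
      rw [card_union_of_disjoint hd, hU.2]
      exact hm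
    obtain ⟨W, hW, hWc⟩ := exists_subset_card_eq hc
    obtain ⟨b, -, huniq⟩ := hB.2 W hWc
    have hsub : ∀ {c : Finset α}, c ∈ B → T ⊆ c → U ⊆ c \ T → c = b := by
      intro c hc hTc hUc
      apply huniq
      refine ⟨hc, hW.trans (union_subset hTc (hUc.trans sdiff_subset))⟩
    rw [hsub ho.1 ho.2 hU.1, hsub ho'.1 ho'.2 hU'.1]

open Cfsg.Agent.Lib.Golay.Core Cfsg.Agent.Lib.Golay.Perm Cfsg.Agent.Lib.Golay.Chain
  Cfsg.Agent.Lib.Golay.M24 Cfsg.Agent.Lib.Golay.Basic Cfsg.Agent.Lib.Golay.Stab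
  Cfsg.Agent.Lib.M24Orb.Subsets

/-- There are 21 octads through a triad. -/
theorem blocks_through_three (B' : Finset (Finset GolayPt)) (hB' : ∀ b, b ∈ B' ↔ b ∈ octads)
    (T : Finset GolayPt) (hT : T.card = 3) : (B'.filter (fun b => T ⊆ b)).card = 21 := by
  have := Cfsg.Agent.Lib.Steiner.Counting.card_blocks_through octads_steiner B' hB' T (by omega)
  rw [hT, card_golayPt] at this
  have h1 : (8 - 3).choose (5 - 3) = 10 := by decide
  have h2 : (24 - 3).choose (5 - 3) = 210 := by decide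
  rw [h1, h2] at this
  omega

theorem ncard_triads_in_octad (T : Finset GolayPt) (hT : T.card = 3) :
    {U : Finset GolayPt | U.card = 3 ∧ Disjoint T U ∧ ∃ o ∈ octads, T ∪ U ⊆ o}.ncard = 210 := by
  classical
  have hf : octads.Finite := Set.toFinite _
  have hB' : ∀ b, b ∈ hf.toFinset ↔ b ∈ octads := fun b => hf.mem_toFinset
  rw [ncard_together octads_steiner hf.toFinset hB' T (by omega) (by omega) (by omega),
    blocks_through_three _ hB' T hT, hT]
  decide

theorem ncard_triads_not_in_octad (T : Finset GolayPt) (hT : T.card = 3) :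
    {U : Finset GolayPt | U.card = 3 ∧ Disjoint T U ∧ ¬ ∃ o ∈ octads, T ∪ U ⊆ o}.ncard = 1120 := by
  classical
  have h0 := ncard_inter_eq T 3 0 (by omega)
  rw [hT, Fintype.card_congr (Equiv.refl _), card_golayPt] at h0
  have h1 : (3 : ℕ).choose 0 * (24 - 3).choose (3 - 0) = 1330 := by decide
  rw [h1] at h0
  have hA := ncard_triads_in_octad T hT
  have hu : {t : Finset GolayPt | t.card = 3 ∧ (t ∩ T).card = 0} =
      {U : Finset GolayPt | U.card = 3 ∧ Disjoint T U ∧ ∃ o ∈ octads, T ∪ U ⊆ o} ∪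
      {U : Finset GolayPt | U.card = 3 ∧ Disjoint T U ∧ ¬ ∃ o ∈ octads, T ∪ U ⊆ o} := by
    ext U
    simp only [Set.mem_ofPred_eq, Set.mem_union, Finset.card_eq_zero]
    have hd : U ∩ T = ∅ ↔ Disjoint T U := by
      rw [Finset.disjoint_iff_inter_eq_empty, Finset.inter_comm]
    rw [hd]
    by_cases h : ∃ o ∈ octads, T ∪ U ⊆ o
    · simp only [h, not_true_eq_false, and_false, or_false, and_true]
    · simp only [h, not_false_eq_true, and_false, false_or, and_true]
  rw [hu, Set.ncard_union_eq _ (Set.toFinite _) (Set.toFinite _), hA] at h0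
  · omega
  · rw [Set.disjoint_left]
    rintro U ⟨-, -, h⟩ ⟨-, -, h'⟩
    exact h' h

end Cfsg.Agent.Lib.M24Orb.TriadCount
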