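/-
Maximality of the stabilisers of two and of three points.
-/
import Cfsg.Agent.Lib.M24Orb.TriadCount
import Cfsg.Agent.Lib.M24Orb.Coatom

set_option autoImplicit false

namespace Cfsg.Agent.Lib.M24Orb.SmallCoatom

open Cfsg Cfsg.Agent.Lib.Golay.Core Cfsg.Agent.Lib.Golay.Perm Cfsg.Agent.Lib.Golay.Chain
  Cfsg.Agent.Lib.Golay.M24 Cfsg.Agent.Lib.Golay.Basic Cfsg.Agent.Lib.Golay.Stab
  Cfsg.Agent.Lib.M24Orb.Subsets Cfsg.Agent.Lib.M24Orb.Coatom
  Cfsg.Agent.Lib.M24Orb.Triads Cfsg.Agent.Lib.M24Orb.TriadCount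
open scoped Pointwise

/-- Elements of the group that preserve `s` and move `y` to `z`, as elements of the stabiliser. -/
theorem stab_of_perm {s y z : Finset GolayPt} {σ : Equiv.Perm GolayPt} (hσ : σ ∈ M24)
    (h1 : σ • s = s) (h2 : σ • y = z) :
    ∃ g ∈ MulAction.stabilizer M24 s, g • y = z :=
  ⟨⟨σ, hσ⟩, h1, h2⟩

theorem card_union_inter (s y : Finset GolayPt) (hs : s.card = 3) :
    (s ∪ y).card + (y ∩ s).card = 3 + y.card := by
  have := Finset.card_union_add_card_inter s y
  rw [Finset.inter_comm] at this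
  omega

theorem card_union_inter' (s y : Finset GolayPt) :
    (s ∪ y).card + (y ∩ s).card = s.card + y.card := by
  have := Finset.card_union_add_card_inter s y
  rw [Finset.inter_comm] at this
  omega

theorem stabilizer_duad_isCoatom (s : Finset GolayPt) (hs : s.card = 2) :
    IsCoatom (MulAction.stabilizer M24 s) := by
  have hk : s.card ≤ 5 := by omega
  have horb := orbit_eq_of_card hk
  have hcard := card_all_subsets (k := 2)
  have hsz : ∀ j, j ≤ 2 → {t : Finset GolayPt | t.card = 2 ∧ (t ∩ s).card = j}.ncard =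
      Nat.choose 2 j * Nat.choose 22 (2 - j) := by
    intro j hj
    have := ncard_inter_eq s 2 j hj
    rwa [hs, card_golayPt] at this
  let P : Fin 2 → Set (Finset GolayPt) :=
    ![{t | t.card = 2 ∧ (t ∩ s).card = 1}, {t | t.card = 2 ∧ (t ∩ s).card = 0}]
  let z : Fin 2 → ℕ := ![44, 231]
  have hP0 : ∀ i, ∃ j, j ≤ 1 ∧ P i = {t | t.card = 2 ∧ (t ∩ s).card = j} := by
    intro i
    fin_cases i
    · exact ⟨1, by omega, rfl⟩
    · exact ⟨0, by omega, rfl⟩
  refine isCoatom_of_pieces (G := M24) s P z ?_ ?_ ?_ ?_ ?_ ?_ ?_ ?_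
  · intro y hy
    rw [horb, hs] at hy
    by_cases h : y = s
    · exact Or.inl h
    · right
      have h2 : (y ∩ s).card ≤ 2 := by
        have := Finset.card_le_card (Finset.inter_subset_left (s₁ := y) (s₂ := s))
        rw [hy] at this
        exact this
      have hne : (y ∩ s).card ≠ 2 := by
        intro he
        apply h
        apply Finset.eq_of_subset_of_card_le
        · intro x hx
          have := Finset.eq_of_subset_of_card_le (Finset.inter_subset_left (s₁ := y) (s₂ := s))
            (by rw [he, hy])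
          rw [← this] at hx
          exact (Finset.mem_inter.mp hx).2
        · rw [hs, hy]
      have h3 : (y ∩ s).card = 0 ∨ (y ∩ s).card = 1 := by omega
      rcases h3 with h3 | h3
      · exact ⟨1, hy, h3⟩
      · exact ⟨0, hy, h3⟩
  · intro i y hy
    obtain ⟨j, _, hj⟩ := hP0 i
    rw [hj] at hy
    rw [horb, hs]
    exact hy.1
  · intro i hx
    obtain ⟨j, hj1, hj⟩ := hP0 i
    rw [hj] at hx
    have := hx.2
    rw [Finset.inter_self, hs] at this
    omega
  · intro i j hij
    fin_cases i <;> fin_cases j <;> first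
      | exact absurd rfl hij
      | (rw [Set.disjoint_left]; rintro t ⟨-, h1⟩ ⟨-, h2⟩; omega)
  · intro i y hy w hw
    obtain ⟨j, hj1, hj⟩ := hP0 i
    rw [hj] at hy hw
    obtain ⟨σ, hσ, h1, h2⟩ := exists_smul_pair (s := s) (s' := s) (y := y) (y' := w) rfl
      (by rw [hy.1, hw.1]) (by rw [hy.2, hw.2])
      (by have := card_union_inter' s y; rw [hy.1, hy.2, hs] at this; omega)
    exact stab_of_perm hσ h1 h2
  · intro i
    fin_cases i
    · exact (hsz 1 (by omega)).trans (by decide)
    · exact (hsz 0 (by omega)).trans (by decide)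
  · have hne : {t : Finset GolayPt | t.card = 2 ∧ (t ∩ s).card = 0}.Nonempty := by
      rw [← Set.ncard_pos (Set.toFinite _), hsz 0 (by omega)]
      decide
    exact ⟨1, hne⟩
  · rw [horb, hs, hcard]
    decide

theorem stabilizer_triad_isCoatom (s : Finset GolayPt) (hs : s.card = 3) :
    IsCoatom (MulAction.stabilizer M24 s) := by
  have hk : s.card ≤ 5 := by omega
  have horb := orbit_eq_of_card hk
  have hcard := card_all_subsets (k := 3)
  have hsz : ∀ j, j ≤ 3 → {t : Finset GolayPt | t.card = 3 ∧ (t ∩ s).card = j}.ncard =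
      Nat.choose 3 j * Nat.choose 21 (3 - j) := by
    intro j hj
    have := ncard_inter_eq s 3 j hj
    rwa [hs, card_golayPt] at this
  let P : Fin 4 → Set (Finset GolayPt) :=
    ![{t | t.card = 3 ∧ (t ∩ s).card = 2}, {t | t.card = 3 ∧ (t ∩ s).card = 1},
      {U | U.card = 3 ∧ Disjoint s U ∧ ∃ o ∈ octads, s ∪ U ⊆ o},
      {U | U.card = 3 ∧ Disjoint s U ∧ ¬ ∃ o ∈ octads, s ∪ U ⊆ o}]
  let z : Fin 4 → ℕ := ![63, 630, 210, 1120]
  have hdinter : ∀ U : Finset GolayPt, Disjoint s U ↔ (U ∩ s).card = 0 := by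
    intro U
    rw [Finset.card_eq_zero, Finset.disjoint_iff_inter_eq_empty, Finset.inter_comm]
  have hP3 : ∀ i, ∀ t ∈ P i, t.card = 3 ∧ (t ∩ s).card ≤ 2 := by
    intro i t ht
    fin_cases i
    · exact ⟨ht.1, by have := ht.2; omega⟩
    · exact ⟨ht.1, by have := ht.2; omega⟩
    · exact ⟨ht.1, by have := (hdinter t).mp ht.2.1; omega⟩
    · exact ⟨ht.1, by have := (hdinter t).mp ht.2.1; omega⟩
  refine isCoatom_of_pieces (G := M24) s P z ?_ ?_ ?_ ?_ ?_ ?_ ?_ ?_
  · intro y hy
    rw [horb, hs] at hy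
    by_cases h : y = s
    · exact Or.inl h
    · right
      have h2 : (y ∩ s).card ≤ 3 := by
        have := Finset.card_le_card (Finset.inter_subset_left (s₁ := y) (s₂ := s))
        rw [hy] at this
        exact this
      have hne : (y ∩ s).card ≠ 3 := by
        intro he
        apply h
        apply Finset.eq_of_subset_of_card_le
        · intro x hx
          have := Finset.eq_of_subset_of_card_le (Finset.inter_subset_left (s₁ := y) (s₂ := s))
            (by rw [he, hy])
          rw [← this] at hx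
          exact (Finset.mem_inter.mp hx).2
        · rw [hs, hy]
      have h3 : (y ∩ s).card = 0 ∨ (y ∩ s).card = 1 ∨ (y ∩ s).card = 2 := by omega
      rcases h3 with h3 | h3 | h3
      · by_cases h4 : ∃ o ∈ octads, s ∪ y ⊆ o
        · exact ⟨2, hy, (hdinter y).mpr h3, h4⟩
        · exact ⟨3, hy, (hdinter y).mpr h3, h4⟩
      · exact ⟨1, hy, h3⟩
      · exact ⟨0, hy, h3⟩
  · intro i y hy
    rw [horb, hs]
    exact (hP3 i y hy).1
  · intro i hx
    have := (hP3 i s hx).2
    rw [Finset.inter_self, hs] at this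
    omega
  · intro i j hij
    have h01 : ∀ t : Finset GolayPt, Disjoint s t → (t ∩ s).card = 0 := fun t h => (hdinter t).mp h
    fin_cases i <;> fin_cases j <;> first
      | exact absurd rfl hij
      | (rw [Set.disjoint_left]; rintro t ⟨-, h1⟩ ⟨-, h2⟩; omega)
      | (rw [Set.disjoint_left]; rintro t ⟨-, h1⟩ ⟨-, h2, -⟩; have := h01 t h2; omega)
      | (rw [Set.disjoint_left]; rintro t ⟨-, h2, -⟩ ⟨-, h1⟩; have := h01 t h2; omega)
      | (rw [Set.disjoint_left]; rintro t ⟨-, -, h1⟩ ⟨-, -, h2⟩; exact h2 h1)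
      | (rw [Set.disjoint_left]; rintro t ⟨-, -, h1⟩ ⟨-, -, h2⟩; exact h1 h2)
  · intro i y hy w hw
    have hcomm : ∀ {j : ℕ}, y.card = 3 → w.card = 3 → (y ∩ s).card = j → (w ∩ s).card = j → 1 ≤ j →
        ∃ g ∈ MulAction.stabilizer M24 s, g • y = w := by
      intro j hy3 hw3 h1 h2 hj
      obtain ⟨σ, hσ, h1', h2'⟩ := exists_smul_pair (s := s) (s' := s) (y := y) (y' := w) rfl
        (by rw [hy3, hw3]) (by rw [h1, h2])
        (by have := card_union_inter' s y; rw [hy3, h1, hs] at this; omega)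
      exact stab_of_perm hσ h1' h2'
    fin_cases i
    · exact hcomm hy.1 hw.1 hy.2 hw.2 (by norm_num)
    · exact hcomm hy.1 hw.1 hy.2 hw.2 (by norm_num)
    · obtain ⟨σ, hσ, h1, h2⟩ := triad_conj hs hy.1 hw.1 hy.2.1 hw.2.1
        (iff_of_true hy.2.2 hw.2.2)
      exact stab_of_perm hσ h1 h2
    · obtain ⟨σ, hσ, h1, h2⟩ := triad_conj hs hy.1 hw.1 hy.2.1 hw.2.1
        (iff_of_false hy.2.2 hw.2.2)
      exact stab_of_perm hσ h1 h2
  · intro i
    fin_cases i
    · exact (hsz 2 (by omega)).trans (by decide)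
    · exact (hsz 1 (by omega)).trans (by decide)
    · exact ncard_triads_in_octad s hs
    · exact ncard_triads_not_in_octad s hs
  · have hne : {t : Finset GolayPt | t.card = 3 ∧ (t ∩ s).card = 2}.Nonempty := by
      rw [← Set.ncard_pos (Set.toFinite _), hsz 2 (by omega)]
      decide
    exact ⟨0, hne⟩
  · rw [horb, hs, hcard]
    decide

end Cfsg.Agent.Lib.M24Orb.SmallCoatom
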