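/-
Transversal certificates: a table of automorphisms preserving a root word and carrying a base word
to every word satisfying a predicate.
-/
import Cfsg.Agent.Lib.Golay.Stab

set_option autoImplicit false

namespace Cfsg.Agent.Lib.M24Orb.Transversal

open Cfsg Cfsg.Agent.Lib.Golay.Core Cfsg.Agent.Lib.Golay.Perm Cfsg.Agent.Lib.Golay.Chain
  Cfsg.Agent.Lib.Golay.M24 Cfsg.Agent.Lib.Golay.Basic Cfsg.Agent.Lib.Golay.Stab
open scoped Pointwise

/-- Forces the kernel to evaluate `n` to a literal before continuing. -/
noncomputable def force {β : Sort*} (n : ℕ) (k : ℕ → β) : β :=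
  Nat.rec (k 0) (fun m _ => k (Nat.succ m)) n

theorem force_eq {β : Sort*} (n : ℕ) (k : ℕ → β) : force n k = k n := by
  cases n <;> rfl

/-- `P` is an automorphism that preserves the mask `root`. -/
def keeps (root P : ℕ) : Bool := cond (checkAut P) (Nat.beq (mapMask P root) root) false

theorem keeps_spec {root P : ℕ} (h : keeps root P = true) :
    checkAut P = true ∧ mapMask P root = root := by
  unfold keeps at h
  cases hc : checkAut P with
  | false => simp [hc] at h
  | true =>
    rw [hc] at h
    exact ⟨rfl, Nat.eq_of_beq_eq_true h⟩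

/-- The bitset of low 12 bit parts of the images of `base`. -/
def markImgs (base : ℕ) (T : List ℕ) : ℕ :=
  List.rec 0 (fun P _ ih => Nat.lor ih (Nat.shiftLeft 1 (Nat.land (mapMask P base) 4095))) T

theorem testBit_markImgs (base : ℕ) (T : List ℕ) (m : ℕ)
    (h : (markImgs base T).testBit m = true) : ∃ P ∈ T, Nat.land (mapMask P base) 4095 = m := by
  induction T with
  | nil => simp [markImgs] at h
  | cons P T ih =>
    have e : markImgs base (P :: T) =
        (markImgs base T) ||| (1 <<< (Nat.land (mapMask P base) 4095)) := rfl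
    rw [e, Nat.testBit_or, Bool.or_eq_true] at h
    rcases h with h | h
    · obtain ⟨Q, hQ, hq⟩ := ih h
      exact ⟨Q, List.mem_cons_of_mem _ hQ, hq⟩
    · rw [Nat.one_shiftLeft, Nat.testBit_two_pow] at h
      refine ⟨P, List.mem_cons_self, ?_⟩
      simpa using h

/-- The certificate: all elements of `T` keep `root`, and the images of `base` contain all code
words satisfying `pred`. -/
noncomputable def coverOK (root base : ℕ) (pred : ℕ → Bool) (T : List ℕ) : Bool :=
  cond (allL (keeps root) T)
    (force (markImgs base T) fun B =>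
      allUpTo (fun m => cond (pred (code m)) (Nat.testBit B m) true) 4096) false

theorem isCode_mapMask {P n : ℕ} (hP : checkAut P = true) (hn : isCode n = true) (hlt : n < 2 ^ 24) :
    isCode (mapMask P n) = true := by
  have hw : wordOf n ∈ golayCode := (wordOf_mem_iff hlt).mpr hn
  have h1 := comp_symm_mem (g_mem_M24 hP) hw
  rw [wordOf_comp_symm (checkAut_valid hP)] at h1
  exact (wordOf_mem_iff (mapMask_lt (checkAut_valid hP) n)).mp h1

theorem code_land_of_isCode {n : ℕ} (h : isCode n = true) : code (Nat.land n 4095) = n :=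
  Nat.eq_of_beq_eq_true h

theorem coverOK_spec {root base : ℕ} {pred : ℕ → Bool} {T : List ℕ}
    (h : coverOK root base pred T = true) (hb : isCode base = true) (hlt : base < 2 ^ 24)
    {m : ℕ} (hm : m < 4096) (hp : pred (code m) = true) :
    ∃ P, checkAut P = true ∧ mapMask P root = root ∧ mapMask P base = code m := by
  unfold coverOK at h
  cases hc : allL (keeps root) T with
  | false => simp [hc] at h
  | true =>
    rw [hc] at h
    simp only [cond_true] at h
    rw [force_eq] at h
    have h1 := allUpTo_iff.mp h m hm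
    rw [hp] at h1
    simp only [cond_true] at h1
    obtain ⟨P, hP, hPm⟩ := testBit_markImgs _ _ _ h1
    have hk := allL_iff.mp hc P hP
    obtain ⟨hck, hroot⟩ := keeps_spec hk
    refine ⟨P, hck, hroot, ?_⟩
    rw [← hPm, code_land_of_isCode (isCode_mapMask hck hb hlt)]

/-- The permutation form of the certificate. -/
theorem exists_smul_of_cover {root base : ℕ} {pred : ℕ → Bool} {T : List ℕ}
    (h : coverOK root base pred T = true) (hb : isCode base = true) (hlt : base < 2 ^ 24)
    {m : ℕ} (hm : m < 4096) (hp : pred (code m) = true) :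
    ∃ σ ∈ M24, σ • setOf root = setOf root ∧ σ • setOf base = setOf (code m) := by
  obtain ⟨P, h1, h2, h3⟩ := coverOK_spec h hb hlt hm hp
  refine ⟨g P, g_mem_M24 h1, ?_, ?_⟩
  · rw [smul_setOf (checkAut_valid h1), h2]
  · rw [smul_setOf (checkAut_valid h1), h3]

/-- Two words satisfying the predicate are in one orbit of the stabiliser of the root. -/
theorem exists_smul_of_cover₂ {root base : ℕ} {pred : ℕ → Bool} {T : List ℕ}
    (h : coverOK root base pred T = true) (hb : isCode base = true) (hlt : base < 2 ^ 24)
    {m m' : ℕ} (hm : m < 4096) (hm' : m' < 4096) (hp : pred (code m) = true)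
    (hp' : pred (code m') = true) :
    ∃ σ ∈ M24, σ • setOf root = setOf root ∧ σ • setOf (code m) = setOf (code m') := by
  obtain ⟨a, ha, ha1, ha2⟩ := exists_smul_of_cover h hb hlt hm hp
  obtain ⟨b, hb', hb1, hb2⟩ := exists_smul_of_cover h hb hlt hm' hp'
  refine ⟨b * a⁻¹, M24.mul_mem hb' (M24.inv_mem ha), ?_, ?_⟩
  · rw [mul_smul, inv_smul_eq_iff.mpr ha1.symm, hb1]
  · rw [mul_smul, inv_smul_eq_iff.mpr ha2.symm, hb2]

/-- Transport of a statement at a base word along the group. -/
theorem smul_inter_card (τ : Equiv.Perm GolayPt) (a b : Finset GolayPt) :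
    ((τ • a) ∩ (τ • b)).card = (a ∩ b).card := by
  rw [← Finset.smul_finset_inter, Finset.card_smul_finset]

end Cfsg.Agent.Lib.M24Orb.Transversal
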