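/-
Kernel checked tables of group elements for orbits of a stabiliser: a sorted master list carrying
labelled base objects to objects with distinct keys.
-/
import Cfsg.Agent.Lib.M24Orb.Transversal
import Cfsg.Agent.Lib.M24Orb.Pieces

set_option autoImplicit false

namespace Cfsg.Agent.Lib.M24Orb.Table

open Cfsg Cfsg.Agent.Lib.Golay.Core Cfsg.Agent.Lib.Golay.Perm
  Cfsg.Agent.Lib.M24Orb.Transversal Cfsg.Agent.Lib.M24Orb.Pieces
open scoped Pointwise

/-- The group element of an entry. -/
def perm (e : ℕ) : ℕ := Nat.shiftRight e 3

/-- The label of an entry. -/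
def lab (e : ℕ) : ℕ := Nat.land e 7

/-- The loop over the master list: all group elements are automorphisms that keep the root, the
labels are below `r`, the keys are strictly increasing and avoid `k₀`. -/
noncomputable def loop (r k₀ : ℕ) (keep : ℕ → Bool) (key : ℕ → ℕ → ℕ) (M : List ℕ) : ℕ → Bool :=
  List.rec (fun _ => true)
    (fun e _ ih prev =>
      cond (checkAut (perm e))
        (cond (keep (perm e))
          (cond (Nat.blt (lab e) r)
            (force (key (lab e) (perm e)) fun k =>
              cond (Nat.blt prev k)
                (cond (Nat.beq k k₀) false (ih k))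
                false)
            false)
          false)
        false) M

variable {r k₀ : ℕ} {keep : ℕ → Bool} {key : ℕ → ℕ → ℕ}

theorem loop_spec {M : List ℕ} {prev : ℕ} (h : loop r k₀ keep key M prev = true) :
    (∀ e ∈ M, checkAut (perm e) = true ∧ keep (perm e) = true ∧ lab e < r ∧
      prev < key (lab e) (perm e) ∧ key (lab e) (perm e) ≠ k₀) ∧
    (M.map fun e => key (lab e) (perm e)).Nodup := by
  induction M generalizing prev with
  | nil => simp
  | cons e M ih =>
    have e1 : loop r k₀ keep key (e :: M) prev = cond (checkAut (perm e))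
        (cond (keep (perm e))
          (cond (Nat.blt (lab e) r)
            (force (key (lab e) (perm e)) fun k =>
              cond (Nat.blt prev k)
                (cond (Nat.beq k k₀) false (loop r k₀ keep key M k))
                false)
            false)
          false)
        false := rfl
    rw [e1] at h
    cases h1 : checkAut (perm e) with
    | false => simp [h1] at h
    | true =>
      rw [h1, cond_true] at h
      cases h2 : keep (perm e) with
      | false => simp [h2] at h
      | true =>
        rw [h2, cond_true] at h
        cases h3 : Nat.blt (lab e) r with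
        | false => simp [h3] at h
        | true =>
          rw [h3, cond_true, force_eq] at h
          cases h4 : Nat.blt prev (key (lab e) (perm e)) with
          | false => simp [h4] at h
          | true =>
            rw [h4, cond_true] at h
            cases h5 : Nat.beq (key (lab e) (perm e)) k₀ with
            | true => simp [h5] at h
            | false =>
              rw [h5, cond_false] at h
              obtain ⟨h6, h7⟩ := ih h
              have hlt3 : lab e < r := by simpa [Nat.blt_eq] using h3
              have hlt4 : prev < key (lab e) (perm e) := by simpa [Nat.blt_eq] using h4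
              have hne : key (lab e) (perm e) ≠ k₀ := by
                intro hh
                rw [hh, Nat.beq_refl] at h5
                exact absurd h5 (by simp)
              constructor
              · intro x hx
                rcases List.mem_cons.mp hx with rfl | hx
                · exact ⟨h1, h2, hlt3, hlt4, hne⟩
                · obtain ⟨a, b, c, d, f⟩ := h6 x hx
                  exact ⟨a, b, c, lt_trans hlt4 d, f⟩
              · rw [List.map_cons, List.nodup_cons]
                refine ⟨?_, h7⟩
                intro hmem
                obtain ⟨x, hx, hx2⟩ := List.mem_map.mp hmem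
                have := (h6 x hx).2.2.2.1
                omega

/-- Counting entries with a given label. -/
def countLab (M : List ℕ) (i : ℕ) : ℕ :=
  List.rec 0 (fun e _ ih => cond (Nat.beq (lab e) i) (Nat.succ ih) ih) M

theorem countLab_eq (M : List ℕ) (i : ℕ) : countLab M i = M.countP fun e => Nat.beq (lab e) i := by
  induction M with
  | nil => rfl
  | cons e M ih =>
    have e1 : countLab (e :: M) i = cond (Nat.beq (lab e) i) (Nat.succ (countLab M i)) (countLab M i) :=
      rfl
    rw [e1, ih, List.countP_cons]
    cases Nat.beq (lab e) i <;> simp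

/-- The length of the master list. -/
theorem sum_countLab {r : ℕ} (M : List ℕ) (hlab : ∀ e ∈ M, lab e < r) :
    ∑ i : Fin r, countLab M i = M.length := by
  induction M with
  | nil => simp [countLab]
  | cons e M ih =>
    have h1 := ih (fun x hx => hlab x (List.mem_cons_of_mem _ hx))
    have e1 : ∀ i : Fin r, countLab (e :: M) i =
        countLab M i + (if lab e = i then 1 else 0) := by
      intro i
      have e2 : countLab (e :: M) i =
          cond (Nat.beq (lab e) i) (Nat.succ (countLab M i)) (countLab M i) := rfl
      rw [e2]
      by_cases h : lab e = i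
      · rw [if_pos h, h, Nat.beq_refl]
        rfl
      · have : Nat.beq (lab e) i = false := by
          cases hb : Nat.beq (lab e) i with
          | false => rfl
          | true => exact absurd (Nat.eq_of_beq_eq_true hb) h
        rw [if_neg h, this]
        rfl
    have h2 : ∑ i : Fin r, (if lab e = i then 1 else 0) = 1 := by
      have hl := hlab e List.mem_cons_self
      rw [Finset.sum_eq_single (⟨lab e, hl⟩ : Fin r)]
      · simp
      · intro b _ hb
        rw [if_neg]
        intro h
        exact hb (Fin.ext h.symm)
      · simp
    simp only [e1, Finset.sum_add_distrib, h1, h2, List.length_cons]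

variable {X : Type*} [MulAction (Equiv.Perm GolayPt) X]

/-- The object of an entry. -/
noncomputable def obj (base : ℕ → X) (e : ℕ) : X := g (perm e) • base (lab e)

/-- The pieces of a master list. -/
def piece (base : ℕ → X) (M : List ℕ) {r : ℕ} (i : Fin r) : Set X :=
  {y | ∃ e ∈ M, lab e = i ∧ y = obj base e}

theorem ncard_piece (base : ℕ → X) {M : List ℕ} {r : ℕ} (i : Fin r)
    (hinj : ∀ e ∈ M, ∀ e' ∈ M, obj base e = obj base e' → e = e') (hnd : M.Nodup) :
    (piece base M i).ncard = countLab M i := by
  classical
  have h1 : piece base M i = obj base '' ((M.toFinset.filter fun e => lab e = i : Finset ℕ) : Set ℕ) := by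
    ext y
    simp only [piece, Set.mem_ofPred_eq, Set.mem_image, Finset.coe_filter, List.mem_toFinset]
    constructor
    · rintro ⟨e, he, hl, rfl⟩
      exact ⟨e, ⟨he, hl⟩, rfl⟩
    · rintro ⟨e, ⟨he, hl⟩, rfl⟩
      exact ⟨e, he, hl, rfl⟩
  rw [h1, Set.InjOn.ncard_image, Set.ncard_coe_finset, countLab_eq, List.countP_eq_length_filter,
    ← List.toFinset_card_of_nodup (hnd.filter _)]
  · congr 1
    ext e
    simp only [Finset.mem_filter, List.mem_toFinset, List.mem_filter]
    constructor
    · rintro ⟨h2, h3⟩
      exact ⟨h2, by rw [h3]; exact Nat.beq_refl _⟩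
    · rintro ⟨h2, h3⟩
      exact ⟨h2, Nat.eq_of_beq_eq_true h3⟩
  · intro a ha b hb hab
    simp only [Finset.coe_filter, List.mem_toFinset, Set.mem_ofPred_eq] at ha hb
    exact hinj a ha.1 b hb.1 hab

/-- **From a checked master list to the orbit data.** -/
theorem pieceData_of_loop {X : Type*} [MulAction (Equiv.Perm GolayPt) X]
    {r k₀ prev : ℕ} {keep : ℕ → Bool} {key : ℕ → ℕ → ℕ} {M : List ℕ}
    (hl : loop r k₀ keep key M prev = true) (root : X) (base : ℕ → X)
    (hkeep : ∀ P, checkAut P = true → keep P = true → g P • root = root)
    (hkey : ∀ i P j Q, checkAut P = true → checkAut Q = true → g P • base i = g Q • base j →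
      key i P = key j Q)
    (hroot : ∀ i P, checkAut P = true → g P • base i = root → key i P = k₀)
    (S : Set X) (hSfin : S.Finite) (hS : ∀ y, y ∈ S ↔ y ∈ MulAction.orbit M24 root)
    (hcard : S.ncard = 1 + M.length)
    (hbase : ∀ i < r, base i ∈ S) :
    PieceData (G := M24) root (fun i : Fin r => piece base M i) (fun i : Fin r => countLab M i) := by
  classical
  obtain ⟨hM, hnd⟩ := loop_spec hl
  have hMnd : M.Nodup := List.Nodup.of_map _ hnd
  have hinj : ∀ e ∈ M, ∀ e' ∈ M, obj base e = obj base e' → e = e' := by
    intro e he e' he' h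
    have h1 := hkey _ _ _ _ (hM e he).1 (hM e' he').1 h
    exact (List.inj_on_of_nodup_map hnd) he he' h1
  have hsmul : ∀ (P : ℕ), checkAut P = true → ∀ y ∈ S, g P • y ∈ S := by
    intro P hP y hy
    rw [hS] at hy ⊢
    obtain ⟨k, rfl⟩ := hy
    exact ⟨⟨g P, g_mem_M24 hP⟩ * k, mul_smul _ _ _⟩
  have hobjS : ∀ e ∈ M, obj base e ∈ S := fun e he =>
    hsmul _ (hM e he).1 _ (hbase _ (hM e he).2.2.1)
  have hrootS : root ∈ S := (hS root).mpr (MulAction.mem_orbit_self root)
  have hne : ∀ e ∈ M, obj base e ≠ root := by
    intro e he h
    exact (hM e he).2.2.2.2 (hroot _ _ (hM e he).1 h)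
  -- the list of objects
  have hfull : S = {root} ∪ obj base '' (M.toFinset : Set ℕ) := by
    apply Set.eq_of_subset_of_ncard_le ?_ ?_ hSfin |>.symm
    · rintro y (rfl | ⟨e, he, rfl⟩)
      · exact hrootS
      · exact hobjS e (List.mem_toFinset.mp he)
    · have hd : Disjoint ({root} : Set X) (obj base '' (M.toFinset : Set ℕ)) := by
        rw [Set.disjoint_singleton_left]
        rintro ⟨e, he, h⟩
        exact hne e (List.mem_toFinset.mp he) h
      rw [Set.ncard_union_eq hd (Set.finite_singleton _) (Set.toFinite _ |>.image _),
        Set.ncard_singleton, Set.InjOn.ncard_image, Set.ncard_coe_finset,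
        List.toFinset_card_of_nodup hMnd, hcard]
      intro a ha b hb hab
      exact hinj a (List.mem_toFinset.mp ha) b (List.mem_toFinset.mp hb) hab
  refine ⟨?_, ?_, ?_, ?_, ?_⟩
  · intro y
    rw [← hS]
    constructor
    · intro hy
      rw [hfull] at hy
      rcases hy with rfl | ⟨e, he, rfl⟩
      · exact Or.inl rfl
      · have he' := List.mem_toFinset.mp he
        exact Or.inr ⟨⟨lab e, (hM e he').2.2.1⟩, e, he', rfl, rfl⟩
    · rintro (rfl | ⟨i, e, he, -, rfl⟩)
      · exact hrootS
      · exact hobjS e he
  · rintro i ⟨e, he, -, h⟩
    exact hne e he h.symm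
  · intro i j hij
    rw [Set.disjoint_left]
    rintro y ⟨e, he, hl1, rfl⟩ ⟨e', he', hl2, h⟩
    have := hinj e he e' he' h
    subst this
    exact hij (Fin.ext (hl1.symm.trans hl2))
  · rintro i _ ⟨e, he, hl1, rfl⟩ _ ⟨e', he', hl2, rfl⟩
    have hk1 := hM e he
    have hk2 := hM e' he'
    refine ⟨⟨g (perm e'), g_mem_M24 hk2.1⟩ * ⟨g (perm e), g_mem_M24 hk1.1⟩⁻¹, ?_, ?_⟩
    · show (g (perm e') * (g (perm e))⁻¹) • root = root
      rw [mul_smul, inv_smul_eq_iff.mpr (hkeep _ hk1.1 hk1.2.1).symm, hkeep _ hk2.1 hk2.2.1]
    · show (g (perm e') * (g (perm e))⁻¹) • (g (perm e) • base (lab e)) = g (perm e') • base (lab e')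
      rw [mul_smul, inv_smul_smul, hl1, hl2]
  · intro i
    exact ncard_piece base i hinj hMnd

end Cfsg.Agent.Lib.M24Orb.Table
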