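/-
The stabiliser of a trio: a normal subgroup of order 64 of exponent 2 with quotient the product of
GL(3,2) and S3.  The linear group acts on the three dimensional space of cosets of the code having
representatives in each of the octads of the trio.
-/
import Cfsg.Agent.Lib.M24Orb.TrioOrbits
import Cfsg.Agent.Lib.M24Orb.TrioStructTables
import Cfsg.Agent.Lib.M24Orb.SextetStruct

set_option autoImplicit false

namespace Cfsg.Agent.Lib.M24Orb.TrioStruct

open Cfsg.Agent.Lib.Golay.M24 hiding T0 T1 T2 T3 T4 T5 T6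
open Cfsg Cfsg.Agent.Lib.Golay.Core Cfsg.Agent.Lib.Golay.Perm Cfsg.Agent.Lib.Golay.Chain
  Cfsg.Agent.Lib.Golay.Basic Cfsg.Agent.Lib.Golay.Stab
  Cfsg.Agent.Lib.M24Orb.Pieces Cfsg.Agent.Lib.M24Orb.TrioTables
  Cfsg.Agent.Lib.M24Orb.TrioStructTables Cfsg.Agent.Lib.M24Orb.TrioOrbits
  Cfsg.Agent.Lib.GolayOct.Trio
open Cfsg.Agent.Lib.M24Orb.SextetStruct (act act_apply eq_of_img_eq img_eq_of_g_eq)
open scoped Pointwise

/-- The coordinate space. -/
abbrev V : Type := Fin 3 → ZMod 2

/-- The words. -/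
abbrev W : Type := GolayPt → ZMod 2

/-- The code as a submodule of the words. -/
abbrev CW : Submodule (ZMod 2) W := golayCode

/-- The cosets of the code. -/
abbrev Q : Type := W ⧸ CW

/-- The action on words. -/
def fn (σ : Equiv.Perm GolayPt) : W →ₗ[ZMod 2] W :=
  LinearMap.funLeft (ZMod 2) (ZMod 2) (σ.symm : GolayPt → GolayPt)

theorem fn_apply (σ : Equiv.Perm GolayPt) (w : W) : fn σ w = w ∘ σ.symm := rfl

theorem fn_le {σ : Equiv.Perm GolayPt} (hσ : σ ∈ M24) : CW ≤ CW.comap (fn σ) :=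
  fun _ hw => comp_symm_mem hσ hw

/-- The action on cosets. -/
def hat (σ : M24) : Q →ₗ[ZMod 2] Q := Submodule.mapQ _ _ (fn σ.1) (fn_le σ.2)

theorem hat_mk (σ : M24) (w : W) :
    hat σ (Submodule.Quotient.mk w) = Submodule.Quotient.mk (fn σ.1 w) := rfl

theorem hat_mul (a b : M24) (x : Q) : hat (a * b) x = hat a (hat b x) := by
  induction x using Submodule.Quotient.induction_on with
  | H w =>
    rw [hat_mk, hat_mk, hat_mk]
    rfl

theorem hat_one (x : Q) : hat 1 x = x := by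
  induction x using Submodule.Quotient.induction_on with
  | H w =>
    rw [hat_mk]
    rfl

/-- The parametrisation. -/
def rep : V →ₗ[ZMod 2] W := Fintype.linearCombination (ZMod 2) ![wordOf R0, wordOf R1, wordOf R2]

theorem rep_apply (v : V) : rep v = v 0 • wordOf R0 + v 1 • wordOf R1 + v 2 • wordOf R2 := by
  rw [rep, Fintype.linearCombination_apply, Fin.sum_univ_three]
  rfl

/-- The map to cosets. -/
def iota : V →ₗ[ZMod 2] Q := (Submodule.mkQ CW).comp rep

theorem iota_apply (v : V) : iota v = Submodule.Quotient.mk (rep v) := rfl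

/-- Vectors, from numbers. -/
def vecOf (k : ℕ) : V := ![((bit k 0 : ℕ) : ZMod 2), ((bit k 1 : ℕ) : ZMod 2), ((bit k 2 : ℕ) : ZMod 2)]

theorem exists_vecOf : ∀ v : V, ∃ k < 8, vecOf k = v := by decide +kernel

theorem decomp : ∀ v : V, v = v 0 • vecOf 1 + v 1 • vecOf 2 + v 2 • vecOf 4 := by decide +kernel

theorem vecOf_zero : vecOf 0 = 0 := by decide +kernel

theorem wordOf_bit_mul (k j R : ℕ) : wordOf (Nat.mul (bit k j) R) = ((bit k j : ℕ) : ZMod 2) • wordOf R := by
  rw [bit_eq]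
  cases k.testBit j with
  | false =>
    show wordOf (0 * R) = _
    rw [zero_mul, wordOf_zero]
    simp
  | true =>
    show wordOf (1 * R) = _
    rw [one_mul]
    simp

theorem rep_vecOf (k : ℕ) : rep (vecOf k) = wordOf (combo k) := by
  rw [rep_apply]
  show _ = wordOf ((Nat.mul (bit k 0) R0 ^^^ Nat.mul (bit k 1) R1) ^^^ Nat.mul (bit k 2) R2)
  rw [wordOf_xor, wordOf_xor, wordOf_bit_mul, wordOf_bit_mul, wordOf_bit_mul]
  rfl

theorem iota_injective : Function.Injective iota := by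
  rw [injective_iff_map_eq_zero]
  intro v hv
  obtain ⟨k, hk, rfl⟩ := exists_vecOf v
  rw [iota_apply, Submodule.Quotient.mk_eq_zero, rep_vecOf] at hv
  have h1 : isCode (combo k) = true := (wordOf_mem_iff (combo_lt k hk)).mp hv
  rw [K2 k hk h1, vecOf_zero]

theorem mk_eq_of_cong {a b : ℕ} (ha : a < 2 ^ 24) (hb : b < 2 ^ 24) (h : cong a b = true) :
    (Submodule.Quotient.mk (wordOf a) : Q) = Submodule.Quotient.mk (wordOf b) := by
  rw [Submodule.Quotient.eq, CharTwo.sub_eq_add, ← wordOf_xor]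
  exact (wordOf_mem_iff (Nat.xor_lt_two_pow ha hb)).mpr h

theorem fn_wordOf {σ : Equiv.Perm GolayPt} {a b : ℕ} (h : σ • setOf a = setOf b) :
    fn σ (wordOf a) = wordOf b := by
  apply support₂_injective
  rw [fn_apply, ← support_comp, support_wordOf, support_wordOf, h]

theorem iota_one : iota (vecOf 1) = Submodule.Quotient.mk (wordOf R0) := by
  rw [iota_apply, rep_vecOf]
  have : combo 1 = R0 := by decide +kernel
  rw [this]

theorem iota_two : iota (vecOf 2) = Submodule.Quotient.mk (wordOf R1) := by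
  rw [iota_apply, rep_vecOf]
  have : combo 2 = R1 := by decide +kernel
  rw [this]

theorem iota_four : iota (vecOf 4) = Submodule.Quotient.mk (wordOf R2) := by
  rw [iota_apply, rep_vecOf]
  have : combo 4 = R2 := by decide +kernel
  rw [this]

/-! ### Elements of the root trio -/

theorem rootL_eq : rootL = [O0, b0, third O0 b0] := by decide +kernel

theorem T0_eq : T0 = {setOf O0, setOf b0, setOf (third O0 b0)} := by
  rw [T0, mkT, tf, third_eq good0]

theorem mem_T0 {t : Finset GolayPt} : t ∈ T0 ↔ ∃ r ∈ rootL, t = setOf r := by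
  rw [T0_eq, rootL_eq]
  simp only [Finset.mem_insert, Finset.mem_singleton, List.mem_cons, List.not_mem_nil, or_false]
  constructor
  · rintro (rfl | rfl | rfl)
    · exact ⟨_, Or.inl rfl, rfl⟩
    · exact ⟨_, Or.inr (Or.inl rfl), rfl⟩
    · exact ⟨_, Or.inr (Or.inr rfl), rfl⟩
  · rintro ⟨r, (rfl | rfl | rfl), rfl⟩
    · exact Or.inl rfl
    · exact Or.inr (Or.inl rfl)
    · exact Or.inr (Or.inr rfl)

theorem rootL_lt : ∀ r ∈ rootL, r < 2 ^ 24 := by decide +kernel

theorem O0_ne_b0 : O0 ≠ b0 := by decide +kernel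

theorem R_pop : pop R0 = 4 ∧ pop R1 = 4 ∧ pop R2 = 4 := by decide +kernel

theorem R_lt : R0 < 2 ^ 24 ∧ R1 < 2 ^ 24 ∧ R2 < 2 ^ 24 := by decide +kernel

theorem O0_mem_rootL : O0 ∈ rootL := by decide +kernel
theorem b0_mem_rootL : b0 ∈ rootL := by decide +kernel
theorem O0_lt : O0 < 2 ^ 24 := by decide +kernel

/-- The key invariance. -/
theorem hat_mem_range (x : ↥(MulAction.stabilizer M24 T0)) {R C : ℕ} (hC : isCode C = true)
    (hC8 : pop C = 8) (hClt : C < 2 ^ 24) (hR : Nat.land C O0 = R) (hR4 : pop R = 4)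
    (hb : pop (Nat.land C b0) = 4) :
    hat x.1 (Submodule.Quotient.mk (wordOf R)) ∈ LinearMap.range iota := by
  set σ : Equiv.Perm GolayPt := x.1.1 with hσdef
  have hσ : σ ∈ M24 := x.1.2
  have hst : σ • T0 = T0 := x.2
  have hmem : ∀ r ∈ rootL, ∃ r' ∈ rootL, σ • setOf r = setOf r' := by
    intro r hr
    have h1 : σ • setOf r ∈ T0 := by
      rw [← hst]
      exact Finset.smul_mem_smul_finset (rootL_mem r hr)
    exact mem_T0.mp h1
  obtain ⟨A, hA, hA'⟩ := hmem O0 O0_mem_rootL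
  obtain ⟨B, hB, hB'⟩ := hmem b0 b0_mem_rootL
  have hAB : A ≠ B := by
    rintro rfl
    have h1 : setOf O0 = setOf b0 := by
      have := hA'.trans hB'.symm
      exact smul_left_cancel σ this
    exact O0_ne_b0 (eq_of_setOf_eq O0_lt (rootL_lt _ b0_mem_rootL) h1)
  have hoct : setOf C ∈ octads := (setOf_mem_octads_iff hClt).mpr ⟨hC, hC8⟩
  obtain ⟨m, hm, h8, hm'⟩ := mem_octads_iff.mp (Cfsg.Agent.Lib.Golay.Perm.smul_mem_octads hσ hoct)
  have hcutA : σ • setOf R = setOf (Nat.land (code m) A) := by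
    rw [← hR]
    show σ • setOf (C &&& O0) = setOf (code m &&& A)
    rw [setOf_inter, setOf_inter, Finset.smul_finset_inter, hm', hA']
  have hcutB : σ • setOf (Nat.land C b0) = setOf (Nat.land (code m) B) := by
    show σ • setOf (C &&& b0) = setOf (code m &&& B)
    rw [setOf_inter, setOf_inter, Finset.smul_finset_inter, hm', hB']
  have hpA : pop (Nat.land (code m) A) = 4 := by
    rw [← card_setOf, ← hcutA, Finset.card_smul_finset, card_setOf, hR4]
  have hpB : pop (Nat.land (code m) B) = 4 := by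
    rw [← card_setOf, ← hcutB, Finset.card_smul_finset, card_setOf, hb]
  obtain ⟨k, hk, hcong⟩ := K1 hm hA hB hAB h8 hpA hpB
  refine ⟨vecOf k, ?_⟩
  rw [hat_mk, fn_wordOf hcutA, iota_apply, rep_vecOf]
  refine (mk_eq_of_cong (combo_lt k hk) ?_ ?_)
  · exact Nat.and_lt_two_pow _ (rootL_lt A hA)
  · show isCode (combo k ^^^ Nat.land (code m) A) = true
    rw [Nat.xor_comm]
    exact hcong

theorem hat_iota_mem (x : ↥(MulAction.stabilizer M24 T0)) (v : V) :
    hat x.1 (iota v) ∈ LinearMap.range iota := by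
  obtain ⟨h1, h2, h3, h4, h5, h6, h7, h8, h9, h10, h11, h12, h13, h14, h15⟩ := K3
  rw [decomp v]
  simp only [map_add, map_smul]
  refine Submodule.add_mem _ (Submodule.add_mem _ (Submodule.smul_mem _ _ ?_)
    (Submodule.smul_mem _ _ ?_)) (Submodule.smul_mem _ _ ?_)
  · rw [iota_one]
    exact hat_mem_range x h1 h2 h13 h3 R_pop.1 h4
  · rw [iota_two]
    exact hat_mem_range x h5 h6 h14 h7 R_pop.2.1 h8
  · rw [iota_four]
    exact hat_mem_range x h9 h10 h15 h11 R_pop.2.2 h12

/-! ### The linear representation -/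

/-- The action on the coordinate space. -/
noncomputable def A (x : ↥(MulAction.stabilizer M24 T0)) : V →ₗ[ZMod 2] V :=
  (LinearEquiv.ofInjective iota iota_injective).symm.toLinearMap ∘ₗ
    ((hat x.1 ∘ₗ iota).codRestrict (LinearMap.range iota) (hat_iota_mem x))

theorem iota_A (x : ↥(MulAction.stabilizer M24 T0)) (v : V) : iota (A x v) = hat x.1 (iota v) := by
  have h := LinearEquiv.apply_symm_apply (LinearEquiv.ofInjective iota iota_injective)
    (((hat x.1 ∘ₗ iota).codRestrict (LinearMap.range iota) (hat_iota_mem x)) v)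
  have h2 := congrArg (Subtype.val) h
  rw [LinearEquiv.ofInjective_apply] at h2
  exact h2

/-- The representation. -/
noncomputable def phi1 : ↥(MulAction.stabilizer M24 T0) →* Module.End (ZMod 2) V where
  toFun := A
  map_one' := by
    apply LinearMap.ext
    intro v
    apply iota_injective
    rw [iota_A]
    exact hat_one _
  map_mul' := by
    intro a b
    apply LinearMap.ext
    intro v
    apply iota_injective
    rw [iota_A, Module.End.mul_apply, iota_A, iota_A]
    exact hat_mul a.1 b.1 _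

theorem phi1_apply (x : ↥(MulAction.stabilizer M24 T0)) : phi1 x = A x := rfl

/-- Elements fixing the octads of the root trio. -/
theorem smul_T0_of_fixes {P : ℕ} (hP : checkAut P = true) (hf : fixes3 P = true) : g P • T0 = T0 := by
  have hfix : ∀ t ∈ T0, g P • t = t := by
    intro t ht
    obtain ⟨r, hr, rfl⟩ := mem_T0.mp ht
    rw [smul_setOf (checkAut_valid hP), Nat.eq_of_beq_eq_true (allL_iff.mp hf r hr)]
  exact Cfsg.Agent.Lib.M24Orb.SextetStruct.smul_eq_of_fix hfix

theorem act_of_fixes {P : ℕ} (hP : checkAut P = true) (hf : fixes3 P = true)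
    (x : ↥(MulAction.stabilizer M24 T0)) (hx : x.1.1 = g P) : act T0 x = 1 := by
  refine Equiv.ext fun t => Subtype.ext ?_
  rw [act_apply, hx]
  obtain ⟨r, hr, hrt⟩ := mem_T0.mp t.2
  show g P • t.1 = t.1
  rw [hrt, smul_setOf (checkAut_valid hP), Nat.eq_of_beq_eq_true (allL_iff.mp hf r hr)]

/-- The action on the three basic vectors determines the linear map. -/
theorem A_eq_of_basic {x : ↥(MulAction.stabilizer M24 T0)} {L : V →ₗ[ZMod 2] V}
    (h1 : A x (vecOf 1) = L (vecOf 1)) (h2 : A x (vecOf 2) = L (vecOf 2))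
    (h3 : A x (vecOf 4) = L (vecOf 4)) : A x = L := by
  apply LinearMap.ext
  intro v
  rw [decomp v]
  simp only [map_add, map_smul, h1, h2, h3]

theorem A_basic {P : ℕ} (hP : checkAut P = true) (x : ↥(MulAction.stabilizer M24 T0))
    (hx : x.1.1 = g P) {R a : ℕ} (hR : R < 2 ^ 24) {j : ℕ} (haj : a < 8)
    (hj : iota (vecOf j) = Submodule.Quotient.mk (wordOf R))
    (hc : cong (mapMask P R) (combo a) = true) : A x (vecOf j) = vecOf a := by
  apply iota_injective
  rw [iota_A, hj, hat_mk, iota_apply, rep_vecOf]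
  have h1 : fn x.1.1 (wordOf R) = wordOf (mapMask P R) := by
    rw [hx]
    exact fn_wordOf (smul_setOf (checkAut_valid hP) R)
  show Submodule.Quotient.mk (fn x.1.1 (wordOf R)) = _
  rw [h1]
  exact mk_eq_of_cong (mapMask_lt (checkAut_valid hP) R) (combo_lt a haj) hc

set_option synthInstance.maxSize 4096 in
set_option synthInstance.maxHeartbeats 0 in
/-- A triple of independent columns. -/
theorem indep_of_units : ∀ a < 8, ∀ b < 8, ∀ c < 8,
    (∀ r s t : ZMod 2, r • vecOf a + s • vecOf b + t • vecOf c = 0 → r = 0 ∧ s = 0 ∧ t = 0) →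
    indep a b c = true := by decide +kernel

/-- Every linear automorphism is induced by an element fixing the octads. -/
theorem exists_of_unit (L : (V →ₗ[ZMod 2] V)ˣ) :
    ∃ x : ↥(MulAction.stabilizer M24 T0), phi1 x = L ∧ act T0 x = 1 := by
  obtain ⟨a, ha, hav⟩ := exists_vecOf (L.1 (vecOf 1))
  obtain ⟨b, hb, hbv⟩ := exists_vecOf (L.1 (vecOf 2))
  obtain ⟨c, hc, hcv⟩ := exists_vecOf (L.1 (vecOf 4))
  have hinj : Function.Injective L.1 := by
    intro u w h
    have := congrArg L⁻¹.1 h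
    have e : ∀ y, L⁻¹.1 (L.1 y) = y := fun y => by
      have := congrArg (fun f : V →ₗ[ZMod 2] V => f y) L.inv_mul
      exact this
    rwa [e, e] at this
  have hind : indep a b c = true := by
    apply indep_of_units a ha b hb c hc
    intro r s t h
    rw [hav, hbv, hcv, ← map_smul, ← map_smul, ← map_smul, ← map_add, ← map_add] at h
    have h0 : r • vecOf 1 + s • vecOf 2 + t • vecOf 4 = 0 := hinj (by rw [h, map_zero])
    have : ∀ r s t : ZMod 2, r • vecOf 1 + s • vecOf 2 + t • vecOf 4 = 0 → r = 0 ∧ s = 0 ∧ t = 0 := by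
      decide +kernel
    exact this r s t h0
  obtain ⟨P, hP, h1, h2, h3⟩ := T168_cover ha hb hc hind
  obtain ⟨hk, hf⟩ := T168_ok P hP
  let x : ↥(MulAction.stabilizer M24 T0) := ⟨⟨g P, g_mem_M24 hk⟩, smul_T0_of_fixes hk hf⟩
  refine ⟨x, ?_, act_of_fixes hk hf x rfl⟩
  rw [phi1_apply]
  apply A_eq_of_basic
  · rw [A_basic hk x rfl R_lt.1 ha iota_one h1, hav]
  · rw [A_basic hk x rfl R_lt.2.1 hb iota_two h2, hbv]
  · rw [A_basic hk x rfl R_lt.2.2 hc iota_four h3, hcv]

/-- Transpositions of the octads. -/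
theorem exists_swap_T0 {a b : Finset GolayPt} (ha : a ∈ T0) (hb : b ∈ T0) (hne : a ≠ b) :
    ∃ x : ↥(MulAction.stabilizer M24 T0), phi1 x = 1 ∧ x.1.1 • a = b ∧ x.1.1 • b = a ∧
      ∀ c ∈ T0, c ≠ a → c ≠ b → x.1.1 • c = c := by
  obtain ⟨u, hu, rfl⟩ := mem_T0.mp ha
  obtain ⟨v, hv, rfl⟩ := mem_T0.mp hb
  have huv : u ≠ v := fun h => hne (by rw [h])
  obtain ⟨P, -, hP, h1, h2, h3, h4, h5, h6⟩ := SW3_ok u hu v hv huv
  have hval := checkAut_valid hP
  have hfix : ∀ t ∈ T0, g P • t ∈ T0 := by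
    intro t ht
    obtain ⟨r, hr, rfl⟩ := mem_T0.mp ht
    rw [smul_setOf hval]
    by_cases hru : r = u
    · rw [hru, h1]
      exact mem_T0.mpr ⟨v, hv, rfl⟩
    by_cases hrv : r = v
    · rw [hrv, h2]
      exact mem_T0.mpr ⟨u, hu, rfl⟩
    rw [h3 r hr hru hrv]
    exact mem_T0.mpr ⟨r, hr, rfl⟩
  have hst : g P • T0 = T0 := by
    apply Finset.eq_of_subset_of_card_le
    · intro t ht
      obtain ⟨y, hy, rfl⟩ := Finset.mem_smul_finset.mp ht
      exact hfix y hy
    · rw [Finset.card_smul_finset]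
  let x : ↥(MulAction.stabilizer M24 T0) := ⟨⟨g P, g_mem_M24 hP⟩, hst⟩
  refine ⟨x, ?_, ?_, ?_, ?_⟩
  · rw [phi1_apply]
    apply A_eq_of_basic (L := 1)
    · have hc : combo 1 = R0 := by decide +kernel
      exact A_basic hP x rfl R_lt.1 (by norm_num) iota_one (by rw [hc]; exact h4)
    · have hc : combo 2 = R1 := by decide +kernel
      exact A_basic hP x rfl R_lt.2.1 (by norm_num) iota_two (by rw [hc]; exact h5)
    · have hc : combo 4 = R2 := by decide +kernel
      exact A_basic hP x rfl R_lt.2.2 (by norm_num) iota_four (by rw [hc]; exact h6)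
  · show g P • _ = _
    rw [smul_setOf hval, h1]
  · show g P • _ = _
    rw [smul_setOf hval, h2]
  · intro c hc hca hcb
    obtain ⟨w, hw, rfl⟩ := mem_T0.mp hc
    show g P • _ = _
    rw [smul_setOf hval, h3 w hw (fun h => hca (by rw [h])) (fun h => hcb (by rw [h]))]

/-- The subgroup of the symmetric group induced by the kernel of the representation is everything. -/
theorem exists_of_perm_T0 (π : Equiv.Perm ↥T0) :
    ∃ x : ↥(MulAction.stabilizer M24 T0), phi1 x = 1 ∧ act T0 x = π := by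
  have htop : ((phi1.ker).map (act T0)) = ⊤ := by
    rw [eq_top_iff, ← Equiv.Perm.closure_isSwap, Subgroup.closure_le]
    rintro _ ⟨a, b, hne, rfl⟩
    have hne' : a.1 ≠ b.1 := fun h => hne (Subtype.ext h)
    obtain ⟨x, h1, h2, h3, h4⟩ := exists_swap_T0 a.2 b.2 hne'
    refine ⟨x, h1, ?_⟩
    refine Equiv.ext fun t => Subtype.ext ?_
    rw [act_apply]
    by_cases hta : t = a
    · subst hta
      rw [Equiv.swap_apply_left]
      exact h2
    by_cases htb : t = b
    · subst htb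
      rw [Equiv.swap_apply_right]
      exact h3
    rw [Equiv.swap_apply_of_ne_of_ne hta htb]
    exact h4 t.1 t.2 (fun h => hta (Subtype.ext h)) (fun h => htb (Subtype.ext h))
  have hmem : π ∈ (phi1.ker).map (act T0) := by
    rw [htop]
    exact Subgroup.mem_top π
  obtain ⟨x, hx, rfl⟩ := hmem
  exact ⟨x, hx, rfl⟩

/-! ### The homomorphism -/

theorem T0_card : T0.card = 3 := T0_mem.1

/-- Numbering of the octads of the root trio. -/
noncomputable def eT : ↥T0 ≃ Fin 3 := T0.equivFinOfCardEq T0_card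

/-- The homomorphism onto the product. -/
noncomputable def phi : ↥(MulAction.stabilizer M24 T0) →* GL (Fin 3) (ZMod 2) × Equiv.Perm (Fin 3) :=
  ((Matrix.GeneralLinearGroup.toLin.symm.toMonoidHom.comp (phi1.toHomUnits)).prod
    ((Equiv.permCongrHom eT).toMonoidHom.comp (act T0)))

theorem phi_surjective : Function.Surjective phi := by
  rintro ⟨B, π⟩
  obtain ⟨x₁, h1, h2⟩ := exists_of_unit (Matrix.GeneralLinearGroup.toLin B)
  obtain ⟨x₂, h3, h4⟩ := exists_of_perm_T0 ((Equiv.permCongrHom eT).symm π)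
  refine ⟨x₁ * x₂, ?_⟩
  apply Prod.ext
  · show Matrix.GeneralLinearGroup.toLin.symm (phi1.toHomUnits (x₁ * x₂)) = B
    rw [Matrix.GeneralLinearGroup.toLin.symm_apply_eq]
    apply Units.ext
    show phi1 (x₁ * x₂) = _
    rw [map_mul, h1, h3, mul_one]
  · show (Equiv.permCongrHom eT) (act T0 (x₁ * x₂)) = π
    rw [map_mul, h2, h4, one_mul, MulEquiv.apply_symm_apply]

theorem card_target : Nat.card (GL (Fin 3) (ZMod 2) × Equiv.Perm (Fin 3)) = 1008 := by
  rw [Nat.card_prod, Matrix.card_GL_field, Nat.card_perm, Nat.card_eq_fintype_card, Fintype.card_fin,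
    ZMod.card]
  decide

theorem card_G0 : Nat.card (MulAction.stabilizer M24 T0) = 64512 := by
  have h1 := base_data.card_stabilizer
  rw [card_M24] at h1
  simp only [size_eq] at h1
  have h2 : 1 + ∑ i, (![42, 56, 1008, 2688] : Fin 4 → ℕ) i = 3795 := by decide
  rw [h2] at h1
  generalize Nat.card ↥(MulAction.stabilizer M24 T0) = n at h1 ⊢
  omega

theorem card_ker : Nat.card phi.ker = 64 := by
  have h1 := Subgroup.card_mul_index phi.ker
  rw [Subgroup.index_ker, MonoidHom.range_eq_top.mpr phi_surjective,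
    Nat.card_congr Subgroup.topEquiv.toEquiv, card_target, card_G0] at h1
  generalize Nat.card ↥phi.ker = n at h1 ⊢
  omega

theorem mem_ker_phi {x : ↥(MulAction.stabilizer M24 T0)} (h1 : phi1 x = 1) (h2 : act T0 x = 1) :
    x ∈ phi.ker := by
  rw [MonoidHom.mem_ker]
  apply Prod.ext
  · show Matrix.GeneralLinearGroup.toLin.symm (phi1.toHomUnits x) = 1
    rw [Matrix.GeneralLinearGroup.toLin.symm_apply_eq, map_one]
    apply Units.ext
    show phi1 x = 1
    exact h1
  · show (Equiv.permCongrHom eT) (act T0 x) = 1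
    rw [h2, map_one]

/-- The kernel is the table. -/
theorem exists_of_mem_ker {x : ↥(MulAction.stabilizer M24 T0)} (hx : x ∈ phi.ker) :
    ∃ P ∈ E, x.1.1 = g P := by
  classical
  have hE : ∀ P ∈ E, ∃ y ∈ phi.ker, y.1.1 = g P := by
    intro P hP
    obtain ⟨h1, -, h3, h4, h5, h6, -⟩ := E_ok P hP
    let y : ↥(MulAction.stabilizer M24 T0) := ⟨⟨g P, g_mem_M24 h1⟩, smul_T0_of_fixes h1 h3⟩
    refine ⟨y, mem_ker_phi ?_ (act_of_fixes h1 h3 y rfl), rfl⟩
    rw [phi1_apply]
    apply A_eq_of_basic (L := 1)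
    · have hc : combo 1 = R0 := by decide +kernel
      exact A_basic h1 y rfl R_lt.1 (by norm_num) iota_one (by rw [hc]; exact h4)
    · have hc : combo 2 = R1 := by decide +kernel
      exact A_basic h1 y rfl R_lt.2.1 (by norm_num) iota_two (by rw [hc]; exact h5)
    · have hc : combo 4 = R2 := by decide +kernel
      exact A_basic h1 y rfl R_lt.2.2 (by norm_num) iota_four (by rw [hc]; exact h6)
  -- the image of the kernel in the symmetric group
  let f : ↥(MulAction.stabilizer M24 T0) → Equiv.Perm GolayPt := fun y => y.1.1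
  have hfinj : Function.Injective f := fun a b h => Subtype.ext (Subtype.ext h)
  have hsub : g '' ((E.toFinset : Finset ℕ) : Set ℕ) ⊆ f '' (phi.ker : Set _) := by
    rintro _ ⟨P, hP, rfl⟩
    obtain ⟨y, hy, hy'⟩ := hE P (List.mem_toFinset.mp hP)
    exact ⟨y, hy, hy'⟩
  have hc1 : (g '' ((E.toFinset : Finset ℕ) : Set ℕ)).ncard = 64 := by
    rw [Set.InjOn.ncard_image, Set.ncard_coe_finset, List.toFinset_card_of_nodup E_nodup, E_length]
    intro a ha b hb hab
    have ha' := E_ok a (List.mem_toFinset.mp ha)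
    have hb' := E_ok b (List.mem_toFinset.mp hb)
    exact eq_of_img_eq ha'.2.1 hb'.2.1 fun i hi =>
      img_eq_of_g_eq (checkAut_valid ha'.1) (checkAut_valid hb'.1) hab hi
  have hc2 : (f '' (phi.ker : Set _)).ncard = 64 := by
    rw [Set.ncard_image_of_injective _ hfinj, ← Nat.card_coe_set_eq]
    exact card_ker
  have heq := Set.eq_of_subset_of_ncard_le hsub (by rw [hc1, hc2]) (Set.toFinite _)
  have hx' : f x ∈ g '' ((E.toFinset : Finset ℕ) : Set ℕ) := by
    rw [heq]
    exact ⟨x, hx, rfl⟩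
  obtain ⟨P, hP, h⟩ := hx'
  exact ⟨P, List.mem_toFinset.mp hP, h.symm⟩

theorem ker_sq {x : ↥(MulAction.stabilizer M24 T0)} (hx : x ∈ phi.ker) : x * x = 1 := by
  obtain ⟨P, hP, h⟩ := exists_of_mem_ker hx
  obtain ⟨h1, -, -, -, -, -, h7⟩ := E_ok P hP
  have hv := checkAut_valid h1
  have h2 : x.1.1 * x.1.1 = 1 := by
    rw [h]
    ext1 p
    rw [Equiv.Perm.mul_apply, g_apply hv, g_apply hv, idx_pt (valid_img_lt hv (idx_lt p)),
      h7 _ (idx_lt p), pt_idx]
    rfl
  exact Subtype.ext (Subtype.ext h2)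

/-! ### General trios -/

theorem exists_swap {T : Finset (Finset GolayPt)} (hT : T ∈ trios) {a b : Finset GolayPt}
    (ha : a ∈ T) (hb : b ∈ T) (hne : a ≠ b) :
    ∃ ρ ∈ M24, ρ • a = b ∧ ρ • b = a ∧ ∀ c ∈ T, c ≠ a → c ≠ b → ρ • c = c := by
  obtain ⟨τ', hτ'⟩ := mem_trios_iff.mp hT
  have hτ'' : τ'.1 • T0 = T := hτ'
  obtain ⟨τ, hτ⟩ := τ'
  simp only at hτ''
  subst hτ''
  obtain ⟨a₀, ha₀, rfl⟩ := Finset.mem_smul_finset.mp ha
  obtain ⟨b₀, hb₀, rfl⟩ := Finset.mem_smul_finset.mp hb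
  have hne₀ : a₀ ≠ b₀ := fun h => hne (by rw [h])
  obtain ⟨x, -, h1, h2, h3⟩ := exists_swap_T0 ha₀ hb₀ hne₀
  refine ⟨τ * x.1.1 * τ⁻¹, M24.mul_mem (M24.mul_mem hτ x.1.2) (M24.inv_mem hτ), ?_, ?_, ?_⟩
  · show (τ * x.1.1 * τ⁻¹) • τ • a₀ = τ • b₀
    rw [mul_smul, mul_smul, inv_smul_smul, h1]
  · show (τ * x.1.1 * τ⁻¹) • τ • b₀ = τ • a₀
    rw [mul_smul, mul_smul, inv_smul_smul, h2]
  · intro c hc hca hcb
    obtain ⟨c₀, hc₀, rfl⟩ := Finset.mem_smul_finset.mp hc
    show (τ * x.1.1 * τ⁻¹) • τ • c₀ = τ • c₀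
    rw [mul_smul, mul_smul, inv_smul_smul, h3 c₀ hc₀ (fun h => hca (by rw [h]))
      (fun h => hcb (by rw [h]))]

theorem swap_mem_range {T : Finset (Finset GolayPt)} (hT : T ∈ trios) {a b : ↥T} (hne : a ≠ b) :
    Equiv.swap a b ∈ (act T).range := by
  have hne' : a.1 ≠ b.1 := fun h => hne (Subtype.ext h)
  obtain ⟨ρ, hρ, h1, h2, h3⟩ := exists_swap hT a.2 b.2 hne'
  have hmaps : ∀ t ∈ T, ρ • t ∈ T := by
    intro t ht
    by_cases hta : t = a.1
    · rw [hta, h1]
      exact b.2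
    by_cases htb : t = b.1
    · rw [htb, h2]
      exact a.2
    rw [h3 t ht hta htb]
    exact ht
  have hstab : ρ • T = T := by
    apply Finset.eq_of_subset_of_card_le
    · intro t ht
      obtain ⟨u, hu, rfl⟩ := Finset.mem_smul_finset.mp ht
      exact hmaps u hu
    · rw [Finset.card_smul_finset]
  refine ⟨⟨⟨ρ, hρ⟩, hstab⟩, ?_⟩
  refine Equiv.ext fun t => Subtype.ext ?_
  rw [act_apply]
  show ρ • t.1 = _
  by_cases hta : t = a
  · subst hta
    rw [Equiv.swap_apply_left]
    exact h1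
  by_cases htb : t = b
  · subst htb
    rw [Equiv.swap_apply_right]
    exact h2
  rw [Equiv.swap_apply_of_ne_of_ne hta htb]
  exact h3 t.1 t.2 (fun h => hta (Subtype.ext h)) (fun h => htb (Subtype.ext h))

/-- **Structure of a trio stabiliser.** -/
theorem main (T : Finset (Finset GolayPt)) (hT : T ∈ trios) :
    (∀ e : Equiv.Perm ↥T, ∃ g ∈ MulAction.stabilizer M24 T, ∀ o : ↥T,
      (g : Equiv.Perm GolayPt) • (o : Finset GolayPt) = ((e o : ↥T) : Finset GolayPt)) ∧
    ∃ (N : Subgroup ↥(MulAction.stabilizer M24 T)) (_ : N.Normal), Nat.card N = 64 ∧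
      (∀ x ∈ N, x * x = 1) ∧
      Nonempty (↥(MulAction.stabilizer M24 T) ⧸ N ≃* GL (Fin 3) (ZMod 2) × Equiv.Perm (Fin 3)) := by
  refine ⟨?_, ?_⟩
  · intro e
    have hr : (act T).range = ⊤ := by
      rw [eq_top_iff, ← Equiv.Perm.closure_isSwap, Subgroup.closure_le]
      rintro _ ⟨a, b, hne, rfl⟩
      exact swap_mem_range hT hne
    have : e ∈ (act T).range := by
      rw [hr]
      exact Subgroup.mem_top e
    obtain ⟨x, rfl⟩ := this
    exact ⟨x.1, x.2, fun t => rfl⟩
  · obtain ⟨τ, hτ⟩ := mem_trios_iff.mp hT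
    have hτ' : T = τ • T0 := hτ.symm
    let e : ↥(MulAction.stabilizer M24 T) ≃* ↥(MulAction.stabilizer M24 T0) :=
      (MulAction.stabilizerEquivStabilizer hτ').symm
    let ψ : ↥(MulAction.stabilizer M24 T) →* GL (Fin 3) (ZMod 2) × Equiv.Perm (Fin 3) :=
      phi.comp e.toMonoidHom
    have hsurj : Function.Surjective ψ := phi_surjective.comp e.surjective
    have hmem : ∀ x, x ∈ ψ.ker ↔ e x ∈ phi.ker := fun x => by
      rw [MonoidHom.mem_ker, MonoidHom.mem_ker]
      rfl
    refine ⟨ψ.ker, inferInstance, ?_, ?_, ⟨QuotientGroup.quotientKerEquivOfSurjective ψ hsurj⟩⟩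
    · rw [← card_ker]
      refine Nat.card_congr ⟨fun x => ⟨e x.1, (hmem _).mp x.2⟩,
        fun y => ⟨e.symm y.1, (hmem _).mpr (by simp)⟩, ?_, ?_⟩
      · intro x
        simp
      · intro y
        simp
    · intro x hx
      have h1 := ker_sq ((hmem x).mp hx)
      apply e.injective
      rw [map_mul, h1, map_one]

end Cfsg.Agent.Lib.M24Orb.TrioStruct
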